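import Cfsg.Agent.Lib.H17.BrK2

/-! # Three cosets of multipliers: the relation for `p = 7`, `e = 2` -/

set_option autoImplicit false
set_option linter.unusedSectionVars false
set_option linter.style.haveILetI false
set_option linter.unusedSimpArgs false
set_option linter.unusedVariables false
set_option linter.style.longLine false
set_option linter.unnecessarySimpa false

namespace Cfsg.Agent.H17.Br7

open Cfsg.Agent.H17.Brd

open Cfsg Cfsg.Agent.H21 Cfsg.Agent.H22 Finset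
open scoped ComplexConjugate

universe u

/-- The subgroup of order two. -/
def S2 : Finset (ZMod 7) := {1, 6}

theorem sum_cosets_7 (F : ZMod 7 → ℤ) (hF : ∀ r ∈ S2, ∀ k : ZMod 7, k ≠ 0 → F (r * k) = F k) :
    ∑ j ∈ univ.erase (0 : ZMod 7), F j = 2 * (F 1 + F 2 + F 3) := by
  have e6 : F 6 = F 1 := by
    have h := hF 6 (by decide) 1 (by decide)
    rwa [show ((6 : ZMod 7) * 1) = 6 from by decide] at h
  have e5 : F 5 = F 2 := by
    have h := hF 6 (by decide) 2 (by decide)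
    rwa [show ((6 : ZMod 7) * 2) = 5 from by decide] at h
  have e4 : F 4 = F 3 := by
    have h := hF 6 (by decide) 3 (by decide)
    rwa [show ((6 : ZMod 7) * 3) = 4 from by decide] at h
  have hset : (univ.erase (0 : ZMod 7)) = ({1,6,2,5,3,4} : Finset (ZMod 7)) := by decide
  rw [hset, sum_insert (by decide),sum_insert (by decide),sum_insert (by decide),sum_insert (by decide),sum_insert (by decide),sum_singleton, e6,e5,e4]
  ring

theorem z7_pow2 : ∀ r : ZMod 7, r ^ 2 = 1 → r ∈ S2 := by decide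
theorem z7_card : S2.card ≤ 2 := by decide
theorem z7_1 : (1 : ZMod 7) ≠ 0 := by decide
theorem z7_2 : (2 : ZMod 7) ≠ 0 := by decide
theorem z7_3 : (3 : ZMod 7) ≠ 0 := by decide
theorem z7_m1 : ∃ r ∈ S2, (1 : ZMod 7) = r * 1 := by decide
theorem z7_m2 : ∃ r ∈ S2, (2 : ZMod 7) = r * 2 := by decide
theorem z7_m3 : ∃ r ∈ S2, (3 : ZMod 7) = r * 3 := by decide
theorem z7_n12 : ¬ ∃ r ∈ S2, (2 : ZMod 7) = r * 1 := by decide
theorem z7_n13 : ¬ ∃ r ∈ S2, (3 : ZMod 7) = r * 1 := by decide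
theorem z7_n23 : ¬ ∃ r ∈ S2, (3 : ZMod 7) = r * 2 := by decide

theorem mul_inv_mem_iff {S : Finset (ZMod 7)} {j k : ZMod 7} (hj : j ≠ 0) :
    k * j⁻¹ ∈ S ↔ ∃ r ∈ S, k = r * j := by
  haveI : Fact (Nat.Prime 7) := ⟨by norm_num⟩
  constructor
  · intro h
    exact ⟨k * j⁻¹, h, by rw [inv_mul_cancel_right₀ hj]⟩
  · rintro ⟨r, hr, rfl⟩
    rwa [mul_inv_cancel_right₀ hj]

section Block

variable {G : Type u} [Group G] [Fact (Nat.Prime 7)] [Fintype G] [Fintype (IrrCharacter G)]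
  {M : Ideal AlgInt} [M.IsPrime]

theorem Rs_eq_S2 {x : G} (hx : orderOf x = 7) (he : (Rs (p := 7) x).card = 2) :
    Rs (p := 7) x = S2 := by
  have h1 : Rs (p := 7) x ⊆ S2 := by
    intro r hr
    have h2 := pow_card_Rs hx hr
    rw [he] at h2
    exact z7_pow2 r h2
  refine eq_of_subset_of_card_le h1 ?_
  rw [he]
  exact z7_card

theorem vB_mul_eq (hM : IsPModular 7 M) (P : Sylow 7 G) (hcyc : ∀ S : Sylow 7 G, IsCyclic (S : Subgroup G))
    (hPc : Nat.card (P : Subgroup G) = 7) {x : G} (hx : orderOf x = 7) {r j : ZMod 7}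
    (hr : r ∈ Rs (p := 7) x) (hj : j ≠ 0) : vB M hx (r * j) = vB M hx j := by
  have hr0 : r ≠ 0 := by
    rintro rfl
    exact zero_not_mem_Rs hx hr
  have hk : r * j ≠ 0 := mul_ne_zero hr0 hj
  have h1 := ip_vB hM P hcyc hPc hx hj hk
  have h2 := ip_vB hM P hcyc hPc hx hj hj
  have h3 := ip_vB hM P hcyc hPc hx hk hk
  rw [mul_inv_cancel_right₀ hj, if_pos hr] at h1
  rw [mul_inv_cancel₀ hj, if_pos (one_mem_Rs x)] at h2
  rw [mul_inv_cancel₀ hk, if_pos (one_mem_Rs x)] at h3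
  have h4 : ip (vB M hx (r * j) - vB M hx j) (vB M hx (r * j) - vB M hx j) = 0 := by
    rw [ip_sub_left, ip_sub_right, ip_sub_right, h2, h3, ip_comm (vB M hx (r * j)) (vB M hx j), h1]
    ring
  exact sub_eq_zero.1 (eq_zero_of_ip_self _ h4)

/-- The structure of the three vectors for `p = 19`, `e = 6`. -/
theorem rel_e2p7 (hM : IsPModular 7 M) (P : Sylow 7 G) (hcyc : ∀ S : Sylow 7 G, IsCyclic (S : Subgroup G))
    (hPc : Nat.card (P : Subgroup G) = 7) {x : G} (hx : orderOf x = 7)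
    (he : (Rs (p := 7) x).card = 2) :
    ∃ (w : IrrCharacter G → ℤ) (δ σ y : ℤ) (a₁ a₂ a₃ : IrrCharacter G), (δ = 1 ∨ δ = -1) ∧
      a₁ ≠ a₂ ∧ a₁ ≠ a₃ ∧ a₂ ≠ a₃ ∧ a₁ ≠ oo ∧ a₂ ≠ oo ∧ a₃ ≠ oo ∧
      a₁ ∈ principalBlock M G ∧ a₂ ∈ principalBlock M G ∧ a₃ ∈ principalBlock M G ∧
      w oo = -1 ∧ dd a₁ = y ∧ dd a₂ = y ∧ dd a₃ = y ∧
      w a₁ = δ * σ ∧ w a₂ = δ * σ ∧ w a₃ = δ * σ ∧
      ip w w = 2 - 2 * σ ∧ ip w dd = -(δ * y) ∧
      (∀ χ, χ ≠ a₁ → χ ≠ a₂ → χ ≠ a₃ → w χ ≠ 0 → χ ∈ principalBlock M G ∧ dd χ ≡ - w χ [ZMOD 7]) ∧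
      y ≡ δ * (2 - σ) [ZMOD 7] := by
  classical
  have hRs := Rs_eq_S2 hx he
  have h1ne : (1 : ZMod 7) ≠ 0 := z7_1
  have h2ne : (2 : ZMod 7) ≠ 0 := z7_2
  have h3ne : (3 : ZMod 7) ≠ 0 := z7_3
  have hip : ∀ {j k : ZMod 7}, j ≠ 0 → k ≠ 0 → ip (vB M hx j) (vB M hx k) = 2 + if k * j⁻¹ ∈ S2 then 1 else 0 := by
    intro j k hj hk
    rw [ip_vB hM P hcyc hPc hx hj hk, he, hRs]
    rfl
  have h11 : ip (vB M hx 1) (vB M hx 1) = 2 + 1 := by
    rw [hip h1ne h1ne, if_pos ((mul_inv_mem_iff h1ne).2 z7_m1)]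
  have h22 : ip (vB M hx 2) (vB M hx 2) = 2 + 1 := by
    rw [hip h2ne h2ne, if_pos ((mul_inv_mem_iff h2ne).2 z7_m2)]
  have h33 : ip (vB M hx 3) (vB M hx 3) = 2 + 1 := by
    rw [hip h3ne h3ne, if_pos ((mul_inv_mem_iff h3ne).2 z7_m3)]
  have h12 : ip (vB M hx 1) (vB M hx 2) = 2 := by
    rw [hip h1ne h2ne, if_neg (fun h => z7_n12 ((mul_inv_mem_iff h1ne).1 h))]
    rfl
  have h13 : ip (vB M hx 1) (vB M hx 3) = 2 := by
    rw [hip h1ne h3ne, if_neg (fun h => z7_n13 ((mul_inv_mem_iff h1ne).1 h))]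
    rfl
  have h23 : ip (vB M hx 2) (vB M hx 3) = 2 := by
    rw [hip h2ne h3ne, if_neg (fun h => z7_n23 ((mul_inv_mem_iff h2ne).1 h))]
    rfl
  obtain ⟨w, δ, a₁, a₂, a₃, hδ, h12', h13', h23', hu1, hu2, hu3⟩ := BrK.three_abs (vB M hx 1) (vB M hx 2) (vB M hx 3) 2
    h11 h22 h33 h12 h13 h23 dd dd_pos (ip_vB_dd hM hx 1) (ip_vB_dd hM hx 2) (ip_vB_dd hM hx 3)
  have hδ2 : δ * δ = 1 := by
    rcases hδ with rfl | rfl <;> norm_num
  have hδ0 : δ ≠ 0 := by
    rcases hδ with rfl | rfl <;> norm_num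
  have hv1 : ∀ χ, vB M hx 1 χ = w χ + δ * if χ = a₁ then 1 else 0 := by
    intro χ
    rw [hu1]
    simp [Pi.single_apply]
  have hv2 : ∀ χ, vB M hx 2 χ = w χ + δ * if χ = a₂ then 1 else 0 := by
    intro χ
    rw [hu2]
    simp [Pi.single_apply]
  have hv3 : ∀ χ, vB M hx 3 χ = w χ + δ * if χ = a₃ then 1 else 0 := by
    intro χ
    rw [hu3]
    simp [Pi.single_apply]
  -- the principal character
  have hoo1 := vB_oo (M := M) hx h1ne
  have hoo2 := vB_oo (M := M) hx h2ne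
  have hoo3 := vB_oo (M := M) hx h3ne
  rw [hv1] at hoo1
  rw [hv2] at hoo2
  rw [hv3] at hoo3
  have ha1o : a₁ ≠ oo := by
    intro h
    rw [← h] at hoo1 hoo2
    rw [if_pos rfl] at hoo1
    rw [if_neg h12'] at hoo2
    apply hδ0
    linarith
  have ha2o : a₂ ≠ oo := by
    intro h
    rw [← h] at hoo1 hoo2
    rw [if_pos rfl] at hoo2
    rw [if_neg (Ne.symm h12')] at hoo1
    apply hδ0
    linarith
  have ha3o : a₃ ≠ oo := by
    intro h
    rw [← h] at hoo1 hoo3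
    rw [if_pos rfl] at hoo3
    rw [if_neg (Ne.symm h13')] at hoo1
    apply hδ0
    linarith
  have hwo : w oo = -1 := by
    rw [if_neg (Ne.symm ha1o)] at hoo1
    linarith
  -- inner products with the degrees
  have hd1 : ip w dd + δ * dd a₁ = 0 := by
    have h1 := ip_vB_dd hM hx (1 : ZMod 7)
    rw [hu1, ip_add_left, BrK.ip_smul_single_left'] at h1
    exact h1
  have hd2 : ip w dd + δ * dd a₂ = 0 := by
    have h1 := ip_vB_dd hM hx (2 : ZMod 7)
    rw [hu2, ip_add_left, BrK.ip_smul_single_left'] at h1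
    exact h1
  have hd3 : ip w dd + δ * dd a₃ = 0 := by
    have h1 := ip_vB_dd hM hx (3 : ZMod 7)
    rw [hu3, ip_add_left, BrK.ip_smul_single_left'] at h1
    exact h1
  have hy2 : dd a₂ = dd a₁ := by
    have h1 : δ * dd a₂ = δ * dd a₁ := by linarith
    exact mul_left_cancel₀ hδ0 h1
  have hy3 : dd a₃ = dd a₁ := by
    have h1 : δ * dd a₃ = δ * dd a₁ := by linarith
    exact mul_left_cancel₀ hδ0 h1
  -- norms
  have hsingle : ∀ a : IrrCharacter G, ip (δ • Pi.single a (1 : ℤ)) (δ • Pi.single a (1 : ℤ)) = 1 := by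
    intro a
    rw [BrK.ip_smul_single_left']
    simp [hδ2]
  have hn : ∀ a : IrrCharacter G, ∀ u : IrrCharacter G → ℤ, u = w + δ • Pi.single a 1 → ip u u = 2 + 1 →
      ip w w + 2 * (δ * w a) = 2 := by
    intro a u hu h
    rw [hu, ip_add_left, ip_add_right, ip_add_right, hsingle, BrK.ip_smul_single_left',
      ip_comm w (δ • Pi.single a 1), BrK.ip_smul_single_left'] at h
    have h3 : (δ • Pi.single a (1 : ℤ) : IrrCharacter G → ℤ) a = δ := by simp
    linarith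
  have hn1 := hn a₁ _ hu1 h11
  have hn2 := hn a₂ _ hu2 h22
  have hn3 := hn a₃ _ hu3 h33
  refine ⟨w, δ, δ * w a₁, dd a₁, a₁, a₂, a₃, hδ, h12', h13', h23', ha1o, ha2o, ha3o, ?_, ?_, ?_, hwo, rfl, hy2, hy3, ?_, ?_, ?_, ?_, ?_, ?_, ?_⟩
  · -- `a₁` in the block
    by_contra hn0
    have h3 := vB_of_not_mem (M := M) hx (1 : ZMod 7) hn0
    have h4 := vB_of_not_mem (M := M) hx (2 : ZMod 7) hn0
    rw [hv1, if_pos rfl] at h3
    rw [hv2, if_neg h12'] at h4
    apply hδ0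
    linarith
  · by_contra hn0
    have h3 := vB_of_not_mem (M := M) hx (1 : ZMod 7) hn0
    have h4 := vB_of_not_mem (M := M) hx (2 : ZMod 7) hn0
    rw [hv1, if_neg (Ne.symm h12')] at h3
    rw [hv2, if_pos rfl] at h4
    apply hδ0
    linarith
  · by_contra hn0
    have h3 := vB_of_not_mem (M := M) hx (1 : ZMod 7) hn0
    have h4 := vB_of_not_mem (M := M) hx (3 : ZMod 7) hn0
    rw [hv1, if_neg (Ne.symm h13')] at h3
    rw [hv3, if_pos rfl] at h4
    apply hδ0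
    linarith
  · rw [← mul_assoc, hδ2, one_mul]
  · rw [← mul_assoc, hδ2, one_mul]
    have h1 : δ * w a₂ = δ * w a₁ := by linarith
    exact mul_left_cancel₀ hδ0 h1
  · rw [← mul_assoc, hδ2, one_mul]
    have h1 : δ * w a₃ = δ * w a₁ := by linarith
    exact mul_left_cancel₀ hδ0 h1
  · linarith
  · linarith
  · -- the congruences off the exceptional characters
    intro χ h1 h2 h3 hχ
    have h5 : vB M hx 1 χ = w χ := by
      rw [hv1, if_neg h1]
      ring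
    have h6 : vB M hx 2 χ = w χ := by
      rw [hv2, if_neg h2]
      ring
    have h7 : vB M hx 3 χ = w χ := by
      rw [hv3, if_neg h3]
      ring
    have hmem : χ ∈ principalBlock M G := by
      by_contra hn0
      have h8 := vB_of_not_mem (M := M) hx (1 : ZMod 7) hn0
      rw [h5] at h8
      exact hχ h8
    refine ⟨hmem, ?_⟩
    obtain ⟨m, hm⟩ := vB_dd_eq (M := M) hx χ ⟨1, h1ne, by rw [h5]; exact hχ⟩
    rw [sum_cosets_7 (fun j => vB M hx j χ) (fun r hr k hk => by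
      rw [← hRs] at hr
      rw [vB_mul_eq hM P hcyc hPc hx hr hk]), h5, h6, h7] at hm
    rw [Int.modEq_iff_dvd, hm]
    refine ⟨-m - w χ, ?_⟩
    push_cast
    ring
  · -- the congruence for `a₁`
    have hmem : a₁ ∈ principalBlock M G := by
      by_contra hn0
      have h3 := vB_of_not_mem (M := M) hx (1 : ZMod 7) hn0
      have h4 := vB_of_not_mem (M := M) hx (2 : ZMod 7) hn0
      rw [hv1, if_pos rfl] at h3
      rw [hv2, if_neg h12'] at h4
      apply hδ0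
      linarith
    have h5 : vB M hx 1 a₁ = w a₁ + δ := by
      rw [hv1, if_pos rfl]
      ring
    have h6 : vB M hx 2 a₁ = w a₁ := by
      rw [hv2, if_neg h12']
      ring
    have h7 : vB M hx 3 a₁ = w a₁ := by
      rw [hv3, if_neg h13']
      ring
    have hne : vB M hx 1 a₁ ≠ 0 ∨ vB M hx 2 a₁ ≠ 0 := by
      by_contra hcon
      push Not at hcon
      apply hδ0
      rw [h5, h6] at hcon
      linarith [hcon.1, hcon.2]
    have hex : ∃ j : ZMod 7, j ≠ 0 ∧ vB M hx j a₁ ≠ 0 := by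
      rcases hne with h | h
      · exact ⟨1, h1ne, h⟩
      · exact ⟨2, h2ne, h⟩
    obtain ⟨m, hm⟩ := vB_dd_eq (M := M) hx a₁ hex
    rw [sum_cosets_7 (fun j => vB M hx j a₁) (fun r hr k hk => by
      rw [← hRs] at hr
      rw [vB_mul_eq hM P hcyc hPc hx hr hk]), h5, h6, h7] at hm
    rw [Int.modEq_iff_dvd, hm]
    refine ⟨-m - w a₁ * δ * δ, ?_⟩
    have : w a₁ * (δ * δ) = w a₁ := by rw [hδ2, mul_one]
    push_cast
    nlinarith

end Block

end Cfsg.Agent.H17.Br7
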