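import Cfsg.Agent.Lib.H17.BrK3

/-! # Values at an involution commuting with an element of order 19 -/

set_option autoImplicit false
set_option linter.unusedSectionVars false
set_option linter.style.haveILetI false
set_option linter.unusedSimpArgs false
set_option linter.unusedVariables false
set_option linter.style.longLine false

namespace Cfsg.Agent.H17.Brd

open Cfsg Cfsg.Agent.H21 Cfsg.Agent.H22 Finset
open scoped ComplexConjugate

universe u

theorem sum_neg_pow_char {G : Type u} [Group G] {χ : G → ℂ} (hχ : IsCharacter G χ) {g : G} {N : ℕ}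
    (hN : N ≠ 0) (hNe : Even N) (hg : g ^ N = 1) :
    ∃ m : ℕ, ∑ k ∈ range N, (-1 : ℂ) ^ k * χ (g ^ k) = N * m := by
  classical
  obtain ⟨n, ρ, rfl⟩ := hχ
  have hpow : (ρ g) ^ N = 1 := by rw [← map_pow, hg, map_one]
  obtain ⟨ι, hι, b, μ, h1, h2⟩ := exists_eigenbasis_of_pow_eq_one (ρ g) N hN hpow
  have hval : ∀ k : ℕ, ρ.character (g ^ k) = ∑ i, (μ i) ^ k := by
    intro k
    have h3 : ∀ i, ρ (g ^ k) (b i) = (μ i) ^ k • b i := by
      intro i
      induction k with
      | zero => simp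
      | succ k ih =>
        rw [pow_succ, map_mul, Module.End.mul_apply, h1, map_smul, ih, smul_smul, pow_succ, mul_comm]
    unfold Representation.character
    exact trace_of_eigenbasis _ b _ h3
  refine ⟨(univ.filter fun i => μ i = -1).card, ?_⟩
  simp_rw [hval, mul_sum]
  rw [sum_comm]
  have h5 : ∀ i, ∑ k ∈ range N, (-1 : ℂ) ^ k * (μ i) ^ k = if μ i = -1 then (N : ℂ) else 0 := by
    intro i
    simp_rw [← mul_pow]
    split_ifs with h
    · rw [h]
      simp
    · have h6 : (-1 * μ i) ≠ 1 := by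
        intro h7
        apply h
        linear_combination -h7
      have h7 : (-1 * μ i) ^ N = 1 := by rw [mul_pow, hNe.neg_one_pow, one_mul, h2]
      have h8 := geom_sum_mul (-1 * μ i) N
      rw [h7, sub_self] at h8
      exact (mul_eq_zero.1 h8).resolve_right (sub_ne_zero.2 h6)
  simp_rw [h5]
  rw [sum_ite, sum_const_zero, add_zero, sum_const, nsmul_eq_mul, mul_comm]

section Block

variable {G : Type u} [Group G] [Fact (Nat.Prime 19)] [Fintype G] [Fintype (IrrCharacter G)]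
  {M : Ideal AlgInt} [M.IsPrime]

theorem two_val (hM : IsPModular 19 M) (P : Sylow 19 G) (hcyc : ∀ S : Sylow 19 G, IsCyclic (S : Subgroup G))
    {x : G} (hx : orderOf x = 19) {y₀ : G} (hy : orderOf y₀ = 2) (hc : Commute x y₀) {χ : IrrCharacter G}
    (hχ : χ ∈ principalBlock M G) : ∃ n : ℕ, χ.1 1 - χ.1 y₀ = 38 * n := by
  have hxp : x ^ 19 = 1 := by rw [← hx]; exact pow_orderOf_eq_one x
  have hyp : y₀ ^ 2 = 1 := by rw [← hy]; exact pow_orderOf_eq_one y₀
  have hy19 : y₀ ^ 19 = y₀ := by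
    have : y₀ ^ 19 = (y₀ ^ 2) ^ 9 * y₀ := by group
    rw [this, hyp, one_pow, one_mul]
  have hg : (x * y₀) ^ 38 = 1 := by
    rw [hc.mul_pow]
    have h1 : x ^ 38 = (x ^ 19) ^ 2 := by rw [← pow_mul]
    have h2 : y₀ ^ 38 = (y₀ ^ 2) ^ 19 := by rw [← pow_mul]
    rw [h1, h2, hxp, hyp, one_pow, one_pow, one_mul]
  obtain ⟨m, hm⟩ := sum_neg_pow_char (isCharacter_of_irr χ.2) (g := x * y₀) (N := 38) (by norm_num) (by decide) hg
  refine ⟨m, ?_⟩
  have hval : ∀ k j : ℕ, k ≠ 0 → k < 19 → χ.1 (x ^ k * y₀ ^ j) = χ.1 (x ^ k) := by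
    intro k j hk hk2
    have h1 : x ^ k ≠ 1 := pow_ne_one_of_lt_orderOf hk (by rw [hx]; exact hk2)
    have h2 : orderOf (x ^ k) = 19 ^ 1 := by
      rw [pow_one]
      refine orderOf_eq_prime ?_ h1
      rw [← pow_mul, mul_comm, pow_mul, hxp, one_pow]
    have h3 : Commute (x ^ k) (y₀ ^ j) := (hc.pow_left k).pow_right j
    have h4 : ¬ 19 ∣ orderOf (y₀ ^ j) := by
      intro h5
      have h6 : orderOf (y₀ ^ j) ∣ 2 := by
        apply orderOf_dvd_of_pow_eq_one
        rw [← pow_mul, mul_comm, pow_mul, hyp, one_pow]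
      have h7 := h5.trans h6
      omega
    exact Cfsg.Agent.H08.Mom.Cyc.val_eq hM P hcyc h2 h1 h3 h4 hχ
  have key : ∑ k ∈ range 38, (-1 : ℂ) ^ k * χ.1 ((x * y₀) ^ k) = χ.1 1 - χ.1 y₀ := by
    rw [show (38 : ℕ) = 19 + 19 from rfl, sum_range_add, ← sum_add_distrib, sum_eq_single 0]
    · simp only [pow_zero, one_mul, add_zero]
      rw [hc.mul_pow, hxp, hy19, one_mul]
      have : ((-1 : ℂ)) ^ 19 = -1 := by norm_num
      rw [this]
      ring
    · intro k hk hk0
      have hk2 := mem_range.1 hk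
      rw [hc.mul_pow, hc.mul_pow, hval k k hk0 hk2, pow_add x, hxp, one_mul, hval k (19 + k) hk0 hk2, pow_add (-1 : ℂ) 19 k]
      have : ((-1 : ℂ)) ^ 19 = -1 := by norm_num
      rw [this]
      ring
    · intro h
      exact absurd (mem_range.2 (by norm_num)) h
  rw [key] at hm
  rw [hm]
  push_cast
  ring

theorem two_val2 [hS : IsSimpleGroup G] (hM : IsPModular 19 M) (P : Sylow 19 G)
    (hcyc : ∀ S : Sylow 19 G, IsCyclic (S : Subgroup G))
    {x : G} (hx : orderOf x = 19) {y₀ : G} (hy : orderOf y₀ = 2) (hc : Commute x y₀) {χ : IrrCharacter G}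
    (hχ : χ ∈ principalBlock M G) (hne : χ ≠ oo) :
    ∃ n : ℤ, 1 ≤ n ∧ χ.1 y₀ = ((dd χ - 38 * n : ℤ) : ℂ) ∧ 19 ≤ dd χ := by
  obtain ⟨n, hn⟩ := two_val hM P hcyc hx hy hc hχ
  have hval : χ.1 y₀ = ((dd χ - 38 * (n : ℤ) : ℤ) : ℂ) := by
    push_cast
    rw [dd_cast, ← hn]
    ring
  have hn0 : n ≠ 0 := by
    rintro rfl
    have hker := ker_eq_bot_of_simple hS χ hne
    have h1 : y₀ ∈ charKer χ.1 (isCharacter_of_irr χ.2) := by
      rw [mem_charKer]
      have h2 : χ.1 1 - χ.1 y₀ = 0 := by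
        rw [hn]
        simp
      exact (sub_eq_zero.1 h2).symm
    rw [hker, Subgroup.mem_bot] at h1
    rw [h1, orderOf_one] at hy
    omega
  have hn1 : (1 : ℤ) ≤ n := by
    have : 1 ≤ n := Nat.one_le_iff_ne_zero.2 hn0
    exact_mod_cast this
  refine ⟨n, hn1, hval, ?_⟩
  have h1 := isCharacter_norm_le (isCharacter_of_irr χ.2) y₀
  rw [hval, Complex.norm_intCast] at h1
  have h2 : |dd χ - 38 * (n : ℤ)| ≤ dd χ := by
    have h3 : ((|dd χ - 38 * (n : ℤ)| : ℤ) : ℝ) ≤ ((dd χ : ℤ) : ℝ) := by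
      push_cast
      simp only [dd]
      push_cast at h1 ⊢
      exact h1
    exact_mod_cast h3
  have h4 := (abs_le.1 h2).1
  omega

theorem col_normSq (y₀ : G) :
    ∑ χ : IrrCharacter G, Complex.normSq (χ.1 y₀) = (Nat.card (Subgroup.centralizer ({y₀} : Set G)) : ℝ) := by
  have h := column_orthogonality_of_isConj (IsConj.refl y₀)
  have h1 : ((∑ χ : IrrCharacter G, Complex.normSq (χ.1 y₀) : ℝ) : ℂ) =
      ((Nat.card (Subgroup.centralizer ({y₀} : Set G)) : ℝ) : ℂ) := by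
    push_cast
    rw [← h]
    refine sum_congr rfl fun χ _ => ?_
    rw [Complex.mul_conj]
  exact_mod_cast h1

end Block

end Cfsg.Agent.H17.Brd
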