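import Cfsg.Agent.Lib.H17.BrK7

/-! # A simple group of order 459648: the remaining numerical cases -/

set_option autoImplicit false
set_option linter.unusedSectionVars false
set_option linter.style.haveILetI false
set_option linter.unusedSimpArgs false
set_option linter.unusedVariables false
set_option linter.style.longLine false

namespace Cfsg.Agent.H17.Brd

open Cfsg Cfsg.Agent.H21 Cfsg.Agent.H22

universe u

/-- Fixed point counting for an action of an element of prime order. -/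
theorem smul_ncard_modEq {H X : Type*} [Group H] [MulAction H X] [Finite X] {q : ℕ} [Fact q.Prime] {h : H} (hq : h ^ q = 1)
    {A : Set X} (hA : ∀ a ∈ A, h • a ∈ A) :
    A.ncard ≡ {a ∈ A | h • a = a}.ncard [MOD q] := by
  classical
  haveI : Fintype A := Fintype.ofFinite _
  let f : Function.End A := fun u => ⟨h • u.1, hA u.1 u.2⟩
  have hpow : ∀ (k : ℕ) (u : A), ((f ^ k) u).1 = (h ^ k) • u.1 := by
    intro k u
    induction k with
    | zero =>
      show (u : X) = h ^ 0 • (u : X)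
      simp
    | succ k ih =>
      rw [pow_succ']
      show h • ((f ^ k) u).1 = _
      rw [ih, pow_succ', mul_smul]
  have hf : f ^ q ^ 1 = 1 := by
    funext u
    apply Subtype.ext
    rw [pow_one, hpow, hq, one_smul]
    rfl
  have h0 := Equiv.Perm.card_fixedPoints_modEq (p := q) (n := 1) hf
  have h1 : Fintype.card A = A.ncard := by
    rw [← Nat.card_eq_fintype_card, Nat.card_coe_set_eq]
  have h2 : ∀ inst : Fintype (Function.fixedPoints f), @Fintype.card _ inst = {a ∈ A | h • a = a}.ncard := by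
    intro inst
    rw [← Nat.card_eq_fintype_card, ← Nat.card_coe_set_eq]
    refine Nat.card_congr ⟨fun u => ⟨u.1.1, u.1.2, congrArg Subtype.val u.2⟩,
      fun u => ⟨⟨u.1, u.2.1⟩, Subtype.ext u.2.2⟩, ?_, ?_⟩
    · intro u
      rfl
    · intro u
      rfl
  rw [h1] at h0
  exact h0.trans (congrArg (· % q) (h2 _))

section Simple

variable {G : Type u} [Group G] [Finite G]

/-- A generator of a Sylow subgroup of prime order. -/
theorem exists_gen_sylow {p : ℕ} [hp : Fact p.Prime] (P : Sylow p G) (hP : Nat.card (P : Subgroup G) = p) :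
    ∃ x : G, orderOf x = p ∧ Subgroup.zpowers x = (P : Subgroup G) := by
  haveI : Fact (Nat.card (P : Subgroup G)).Prime := by rw [hP]; exact hp
  haveI : IsCyclic (P : Subgroup G) := isCyclic_of_prime_card rfl
  obtain ⟨g, hg⟩ := IsCyclic.exists_generator (α := (P : Subgroup G))
  have hzp : Subgroup.zpowers (g : G) = (P : Subgroup G) := by
    apply Subgroup.eq_of_le_of_card_ge
    · rw [Subgroup.zpowers_le]
      exact g.2
    · have h1 : orderOf g = Nat.card (P : Subgroup G) := orderOf_eq_card_of_forall_mem_zpowers hg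
      rw [Nat.card_zpowers, Subgroup.orderOf_coe, h1]
  refine ⟨g, ?_, hzp⟩
  rw [← Nat.card_zpowers, hzp, hP]

/-- The normalizer of a Sylow subgroup of prime order in a simple group is not the centralizer. -/
theorem cent_ne_norm [hS : IsSimpleGroup G] {p : ℕ} [hp : Fact p.Prime] (P : Sylow p G)
    (hP : Nat.card (P : Subgroup G) = p) (hlt : p < Nat.card G) {x : G} (hzp : Subgroup.zpowers x = (P : Subgroup G))
    (hcard : Nat.card (Subgroup.normalizer ((P : Subgroup G) : Set G)) ≤ Nat.card (Subgroup.centralizer ({x} : Set G))) :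
    False := by
  have hCN : Subgroup.centralizer ({x} : Set G) ≤ Subgroup.normalizer ((P : Subgroup G) : Set G) := by
    rw [← hzp]
    intro c hc
    apply mem_normalizer_of_conj
    have hc' : c * x = x * c := Subgroup.mem_centralizer_singleton_iff.1 hc
    rw [hc', mul_inv_cancel_right]
    exact Subgroup.mem_zpowers x
  have hCN' : Subgroup.centralizer ({x} : Set G) = Subgroup.normalizer ((P : Subgroup G) : Set G) :=
    Subgroup.eq_of_le_of_card_ge hCN hcard
  have hle : Subgroup.normalizer ((P : Subgroup G) : Set G) ≤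
      Subgroup.centralizer ((P : Subgroup G) : Set G) := by
    rw [← hCN', ← hzp]
    intro c hc y hy
    have hc' : Commute c x := Subgroup.mem_centralizer_singleton_iff.1 hc
    obtain ⟨k, rfl⟩ := Subgroup.mem_zpowers_iff.1 hy
    exact ((hc'.zpow_right k).eq).symm
  obtain ⟨R, hRn, hRc⟩ := H19.burnside_complement P hle
  have hcard := hRc.card_mul
  rcases hS.eq_bot_or_eq_top_of_normal R hRn with rfl | rfl
  · rw [Subgroup.card_bot, one_mul, hP] at hcard
    omega
  · rw [Subgroup.card_top, hP] at hcard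
    have h3 : Nat.card G * p = Nat.card G * 1 := by rw [hcard, mul_one]
    have h4 := Nat.eq_of_mul_eq_mul_left Nat.card_pos h3
    exact hp.out.one_lt.ne' h4

/-- The case of `96` Sylow subgroups. -/
theorem no_seven_in_centralizer [hS : IsSimpleGroup G] [Fact (Nat.Prime 19)] [Fact (Nat.Prime 7)]
    (hn : Nat.card (Sylow 19 G) = 96)
    (hpc : ∀ Q : Sylow 19 G, Nat.card Q = 19) (P : Sylow 19 G) {x : G} (hx : orderOf x = 19)
    (hzp : Subgroup.zpowers x = (P : Subgroup G)) {z : G} (hz : orderOf z = 7) (hc : Commute z x) : False := by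
  classical
  have hxp : x ^ 19 = 1 := by rw [← hx]; exact pow_orderOf_eq_one x
  have hzp7 : z ^ 7 = 1 := by rw [← hz]; exact pow_orderOf_eq_one z
  have hx1 : x ≠ 1 := by
    rintro rfl
    rw [orderOf_one] at hx
    omega
  have hz1 : z ≠ 1 := by
    rintro rfl
    rw [orderOf_one] at hz
    omega
  have hxP : x ∈ (P : Subgroup G) := hzp ▸ Subgroup.mem_zpowers x
  set Fz : Set (Sylow 19 G) := {Q ∈ (Set.univ : Set (Sylow 19 G)) | z • Q = Q} with hFz
  have h1 : (Set.univ : Set (Sylow 19 G)).ncard ≡ Fz.ncard [MOD 7] :=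
    smul_ncard_modEq hzp7 (fun _ _ => Set.mem_univ _)
  rw [Set.ncard_univ, hn] at h1
  have hinv : ∀ Q ∈ Fz, x • Q ∈ Fz := by
    intro Q hQ
    refine ⟨Set.mem_univ _, ?_⟩
    rw [smul_smul, hc.eq, mul_smul, hQ.2]
  have h2 : Fz.ncard ≡ {Q ∈ Fz | x • Q = Q}.ncard [MOD 19] := smul_ncard_modEq hxp hinv
  have hPF : P ∈ Fz := by
    refine ⟨Set.mem_univ _, ?_⟩
    rw [Sylow.smul_eq_iff_mem_normalizer]
    have h : z ∈ Subgroup.normalizer ((Subgroup.zpowers x : Subgroup G) : Set G) := by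
      apply mem_normalizer_of_conj
      rw [hc.eq, mul_inv_cancel_right]
      exact Subgroup.mem_zpowers x
    rw [hzp] at h
    exact h
  have hfix : {Q ∈ Fz | x • Q = Q} = {P} := by
    ext Q
    constructor
    · rintro ⟨_, h⟩
      rw [Set.mem_singleton_iff]
      exact (Cfsg.Agent.H17.Mob.eq_of_fix hpc P Q x hxP hx1 h).symm
    · intro h
      rw [Set.mem_singleton_iff] at h
      subst h
      refine ⟨hPF, ?_⟩
      rw [Sylow.smul_eq_iff_mem_normalizer]
      exact Subgroup.le_normalizer hxP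
  rw [hfix, Set.ncard_singleton] at h2
  have h3 : Fz.ncard ≤ 96 := by
    have h4 := Set.ncard_le_ncard (Set.subset_univ Fz) (Set.toFinite _)
    rwa [Set.ncard_univ, hn] at h4
  have h4 : Fz.ncard = 96 := by
    have h5 : 96 % 7 = Fz.ncard % 7 := h1
    have h6 : Fz.ncard % 19 = 1 % 19 := h2
    omega
  have h5 : Fz = Set.univ := by
    apply Set.eq_of_subset_of_ncard_le (Set.subset_univ Fz) _ (Set.toFinite _)
    rw [Set.ncard_univ, hn, h4]
  have hinj := Cfsg.Agent.H17.Mob.faithful_of_simple (p := 19) (X := G) (by rw [hn]; norm_num)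
  apply hz1
  apply hinj
  rw [map_one]
  apply Equiv.ext
  intro Q
  have h6 : Q ∈ Fz := h5 ▸ Set.mem_univ Q
  exact h6.2

end Simple

theorem dd_oo_gen {G : Type u} [Group G] [Fintype G] [Fintype (IrrCharacter G)] : dd (oo : IrrCharacter G) = 1 := by
  have h1 := one_eq_charDegree (isCharacter_of_irr (oo : IrrCharacter G).2)
  have h2 : (charDegree (oo : IrrCharacter G).1 : ℂ) = 1 := by
    rw [← h1]
    rfl
  simp only [dd]
  exact_mod_cast h2

section Rel

variable {G : Type u} [Group G] {p : ℕ} [hp : Fact p.Prime] [Fintype G] [Fintype (IrrCharacter G)]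
  {M : Ideal AlgInt} [M.IsPrime]

/-- The relation for `e = 2` in the principal block. -/
theorem rel_blk_e2 [hS : IsSimpleGroup G] (hnc : ¬ IsMulCommutative G) (hM : IsPModular p M)
    (P : Sylow p G) (hcyc : ∀ S : Sylow p G, IsCyclic (S : Subgroup G))
    (hP : Nat.card (P : Subgroup G) = p) {x : G} (hx : orderOf x = p)
    (he : (Rs (p := p) x).card = 2) (hbig : 8 < p - 1) :
    ∃ (d₂ d₃ : ℕ) (δ η : ℤ), d₂ ∣ Nat.card G ∧ d₃ ∣ Nat.card G ∧ d₂ ≠ 1 ∧ d₃ ≠ 1 ∧
      (δ = 1 ∨ δ = -1) ∧ (η = 1 ∨ η = -1) ∧ δ * d₂ + η * d₃ = 1 ∧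
      (d₂ : ℤ) ≡ -δ [ZMOD p] ∧ (d₃ : ℤ) ≡ 2 * η [ZMOD p] := by
  classical
  obtain ⟨w, η, B, hη, hwo, hwB, hnorm, hrel, hcong, hB⟩ :=
    star_block hM P hcyc hP hx 2 he (by omega)
  have hBo : B ≠ oo := by
    rintro rfl
    omega
  have hoo : dd (oo : IrrCharacter G) = 1 := dd_oo_gen
  have hsplit : ∑ χ ∈ Finset.univ.erase (oo : IrrCharacter G), w χ * w χ = 1 := by
    have h1 : ip w w = w oo * w oo + ∑ χ ∈ Finset.univ.erase (oo : IrrCharacter G), w χ * w χ :=
      (Finset.add_sum_erase Finset.univ _ (Finset.mem_univ _)).symm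
    rw [hnorm, hwo] at h1
    push_cast at h1
    omega
  obtain ⟨a, ha, ha1, ha0⟩ := sum_sq_one _ w hsplit
  have hao : a ≠ oo := (Finset.mem_erase.1 ha).1
  have hip : ip w dd = -1 + w a * dd a := by
    have h1 : ip w dd = w oo * dd oo + ∑ χ ∈ Finset.univ.erase (oo : IrrCharacter G), w χ * dd χ :=
      (Finset.add_sum_erase Finset.univ _ (Finset.mem_univ _)).symm
    rw [h1, hwo, hoo, Finset.sum_eq_single_of_mem a ha fun χ hχ hne => by rw [ha0 χ hχ hne, zero_mul]]
    ring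
  have hw0 : w a ≠ 0 := by
    rcases ha1 with h | h <;> rw [h] <;> norm_num
  refine ⟨charDegree a.1, charDegree B.1, w a, η, H22.charDegree_dvd_card a,
    H22.charDegree_dvd_card B, degree_ne_one hnc a hao, degree_ne_one hnc B hBo, ha1, hη, ?_,
    hcong a hw0, ?_⟩
  · have h1 : w a * dd a + η * dd B = 1 := by
      rw [hip] at hrel
      omega
    exact h1
  · have h2 : dd B ≡ (2 : ℕ) * η [ZMOD p] := hB
    push_cast at h2
    exact h2

/-- The relation for `e = 3` in the principal block. -/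
theorem rel_blk_e3 [hS : IsSimpleGroup G] (hnc : ¬ IsMulCommutative G) (hM : IsPModular p M)
    (P : Sylow p G) (hcyc : ∀ S : Sylow p G, IsCyclic (S : Subgroup G))
    (hP : Nat.card (P : Subgroup G) = p) {x : G} (hx : orderOf x = p)
    (he : (Rs (p := p) x).card = 3) (hbig : 15 < p - 1) :
    ∃ (d₂ d₃ d₄ : ℕ) (δ₂ δ₃ η : ℤ), d₂ ∣ Nat.card G ∧ d₃ ∣ Nat.card G ∧ d₄ ∣ Nat.card G ∧
      d₂ ≠ 1 ∧ d₃ ≠ 1 ∧ d₄ ≠ 1 ∧
      (δ₂ = 1 ∨ δ₂ = -1) ∧ (δ₃ = 1 ∨ δ₃ = -1) ∧ (η = 1 ∨ η = -1) ∧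
      δ₂ * d₂ + δ₃ * d₃ + η * d₄ = 1 ∧
      (d₂ : ℤ) ≡ -δ₂ [ZMOD p] ∧ (d₃ : ℤ) ≡ -δ₃ [ZMOD p] ∧ (d₄ : ℤ) ≡ 3 * η [ZMOD p] := by
  classical
  obtain ⟨w, η, B, hη, hwo, hwB, hnorm, hrel, hcong, hB⟩ :=
    star_block hM P hcyc hP hx 3 he (by omega)
  have hBo : B ≠ oo := by
    rintro rfl
    omega
  have hoo : dd (oo : IrrCharacter G) = 1 := dd_oo_gen
  have hsplit : ∑ χ ∈ Finset.univ.erase (oo : IrrCharacter G), w χ * w χ = 2 := by
    have h1 : ip w w = w oo * w oo + ∑ χ ∈ Finset.univ.erase (oo : IrrCharacter G), w χ * w χ :=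
      (Finset.add_sum_erase Finset.univ _ (Finset.mem_univ _)).symm
    rw [hnorm, hwo] at h1
    push_cast at h1
    omega
  obtain ⟨a, ha, b, hb, hab, ha1, hb1, h0⟩ := sum_sq_two _ w hsplit
  have hao : a ≠ oo := (Finset.mem_erase.1 ha).1
  have hbo : b ≠ oo := (Finset.mem_erase.1 hb).1
  have hip : ip w dd = -1 + (w a * dd a + w b * dd b) := by
    have h1 : ip w dd = w oo * dd oo + ∑ χ ∈ Finset.univ.erase (oo : IrrCharacter G), w χ * dd χ :=
      (Finset.add_sum_erase Finset.univ _ (Finset.mem_univ _)).symm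
    rw [h1, hwo, hoo, ← Finset.add_sum_erase _ _ ha, ← Finset.add_sum_erase _ _ (Finset.mem_erase.2 ⟨hab.symm, hb⟩)]
    rw [Finset.sum_eq_zero (s := ((Finset.univ.erase (oo : IrrCharacter G)).erase a).erase b)]
    · ring
    · intro χ hχ
      have h2 := Finset.mem_erase.1 hχ
      have h3 := Finset.mem_erase.1 h2.2
      rw [h0 χ h3.2 h3.1 h2.1, zero_mul]
  have hw0 : w a ≠ 0 := by
    rcases ha1 with h | h <;> rw [h] <;> norm_num
  have hw1 : w b ≠ 0 := by
    rcases hb1 with h | h <;> rw [h] <;> norm_num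
  refine ⟨charDegree a.1, charDegree b.1, charDegree B.1, w a, w b, η, H22.charDegree_dvd_card a,
    H22.charDegree_dvd_card b, H22.charDegree_dvd_card B, degree_ne_one hnc a hao,
    degree_ne_one hnc b hbo, degree_ne_one hnc B hBo, ha1, hb1, hη, ?_,
    hcong a hw0, hcong b hw1, ?_⟩
  · have h1 : w a * dd a + w b * dd b + η * dd B = 1 := by
      rw [hip] at hrel
      omega
    exact h1
  · have h2 : dd B ≡ (3 : ℕ) * η [ZMOD p] := hB
    push_cast at h2
    exact h2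

end Rel

/-- The divisors of `24192`. -/
def Dv19 : List ℤ :=
  [1, 2, 3, 4, 6, 7, 8, 9, 12, 14, 16, 18, 21, 24, 27, 28, 32, 36, 42, 48, 54, 56, 63, 64, 72, 84, 96, 108, 112, 126, 128, 144, 168, 189, 192, 216, 224, 252, 288, 336, 378, 384, 432, 448, 504, 576, 672, 756, 864, 896, 1008, 1152, 1344, 1512, 1728, 2016, 2688, 3024, 3456, 4032, 6048, 8064, 12096, 24192]

theorem mem_Dv19 : ∀ d ∈ Nat.divisors 24192, (d : ℤ) ∈ Dv19 := by decide +kernel

theorem chk2_19 : ∀ d₂ ∈ Dv19, ∀ δ ∈ [(1 : ℤ), -1], (-δ - d₂) % 19 = 0 → d₂ ≠ 1 → ∀ d₃ ∈ Dv19, ∀ η ∈ [(1 : ℤ), -1],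
    (2 * η - d₃) % 19 = 0 → d₃ ≠ 1 → δ * d₂ + η * d₃ ≠ 1 := by decide +kernel

theorem chk3_19 : ∀ d₂ ∈ Dv19, ∀ δ₂ ∈ [(1 : ℤ), -1], (-δ₂ - d₂) % 19 = 0 → d₂ ≠ 1 → ∀ d₃ ∈ Dv19, ∀ δ₃ ∈ [(1 : ℤ), -1],
    (-δ₃ - d₃) % 19 = 0 → d₃ ≠ 1 → ∀ d₄ ∈ Dv19, ∀ η ∈ [(1 : ℤ), -1],
    (3 * η - d₄) % 19 = 0 → d₄ ≠ 1 → δ₂ * d₂ + δ₃ * d₃ + η * d₄ ≠ 1 := by decide +kernel

theorem sylow_cases_19 : ∀ n ∈ Nat.divisors 24192, n % 19 = 1 → n = 1 ∨ n = 96 ∨ n = 1008 := by decide +kernel

theorem e_cases_19 : ∀ e ∈ Nat.divisors 18, e ∣ 456 → e = 1 ∨ e = 2 ∨ e = 3 ∨ e = 6 := by decide +kernel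

end Cfsg.Agent.H17.Brd
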