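import Cfsg.Agent.Lib.H17.B7c
import Cfsg.Agent.Lib.H17.BrK8

/-! # A simple group of order 2016 has no involution with a large centralizer commuting with `x` -/

set_option autoImplicit false
set_option linter.unusedSectionVars false
set_option linter.style.haveILetI false
set_option linter.unusedSimpArgs false
set_option linter.unusedVariables false
set_option linter.style.longLine false

namespace Cfsg.Agent.H17.Br7

open Cfsg.Agent.H17.Brd

open Cfsg Cfsg.Agent.H21 Cfsg.Agent.H22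

universe u

theorem idx_cases7 : ∀ i ∈ Nat.divisors 288, i ≤ 18 → ∀ r ∈ [1, 2, 3], i % 7 = r % 7 → r < i → i = 8 ∨ i = 9 ∨ i = 16 := by
  decide +kernel

theorem div18 : ∀ n ∈ Nat.divisors 18, n % 7 = 1 → n = 1 := by decide +kernel

theorem sylow_cases_7 : ∀ n ∈ Nat.divisors 288, n % 7 = 1 → n = 1 ∨ n = 8 ∨ n = 36 ∨ n = 288 := by decide +kernel

theorem e_cases_7 : ∀ e ∈ Nat.divisors 6, e ∣ 56 → e = 1 ∨ e = 2 := by decide +kernel

theorem e_cases_7a : ∀ e ∈ Nat.divisors 6, e ∣ 7 → e = 1 := by decide +kernel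

theorem e_cases_7c : ∀ e ∈ Nat.divisors 6, e = 1 ∨ e = 2 ∨ e = 3 ∨ e = 6 := by decide +kernel

theorem e_cases_7b : ∀ e ∈ Nat.divisors 6, ∀ c : ℕ, e * c = 252 → 2 ∣ c := by
  intro e he c hc
  rcases e_cases_7c e he with rfl | rfl | rfl | rfl <;> omega

variable {G : Type u} [Group G] [Finite G]

/-- Fixed point counting for conjugation by an element of prime order. -/
theorem conj_ncard_modEq' {q : ℕ} [Fact q.Prime] {x : G} (hx : x ^ q = 1) {A : Set G}
    (hA : ∀ u ∈ A, x * u * x⁻¹ ∈ A) :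
    A.ncard ≡ {u ∈ A | x * u * x⁻¹ = u}.ncard [MOD q] := by
  classical
  haveI : Fintype A := Fintype.ofFinite _
  let f : Function.End A := fun u => ⟨x * u.1 * x⁻¹, hA u.1 u.2⟩
  have hpow : ∀ (k : ℕ) (u : A), ((f ^ k) u).1 = x ^ k * u.1 * (x ^ k)⁻¹ := by
    intro k u
    induction k with
    | zero =>
      show (u : G) = x ^ 0 * u * (x ^ 0)⁻¹
      simp
    | succ k ih =>
      rw [pow_succ']
      show x * ((f ^ k) u).1 * x⁻¹ = _
      rw [ih, pow_succ']
      group
  have hf : f ^ q ^ 1 = 1 := by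
    funext u
    apply Subtype.ext
    rw [pow_one, hpow, hx]
    show _ = (u : G)
    simp
  have h := Equiv.Perm.card_fixedPoints_modEq (p := q) (n := 1) hf
  have h1 : Fintype.card A = A.ncard := by
    rw [← Nat.card_eq_fintype_card, Nat.card_coe_set_eq]
  have h2 : ∀ inst : Fintype (Function.fixedPoints f), @Fintype.card _ inst = {u ∈ A | x * u * x⁻¹ = u}.ncard := by
    intro inst
    rw [← Nat.card_eq_fintype_card, ← Nat.card_coe_set_eq]
    refine Nat.card_congr ⟨fun u => ⟨u.1.1, u.1.2, congrArg Subtype.val u.2⟩,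
      fun u => ⟨⟨u.1, u.2.1⟩, Subtype.ext u.2.2⟩, ?_, ?_⟩
    · intro u
      rfl
    · intro u
      rfl
  rw [h1] at h
  exact h.trans (congrArg (· % q) (h2 _))

/-- If the Sylow `p`-subgroups of a subgroup are unique then it normalises. -/
theorem card_le_of_unique_sylow' {p : ℕ} [hp : Fact p.Prime] {x : G} (hx : orderOf x = p) {D : Subgroup G} (hxD : x ∈ D)
    {m : ℕ} (hD : Nat.card D = p * m) (hm : ¬ p ∣ m) (hn : ∀ n ∈ Nat.divisors m, n % p = 1 → n = 1)
    (hmpos : m ≠ 0) :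
    D ≤ Subgroup.normalizer ((Subgroup.zpowers x : Subgroup G) : Set G) := by
  classical
  obtain ⟨Q⟩ : Nonempty (Sylow p D) := inferInstance
  have hQc : Nat.card Q = p := Cfsg.Agent.H17.Mob.card_sylow_eq m hD hm Q
  have hp1 := hp.out.one_lt
  have h1 : Nat.card (Sylow p D) ∣ m := by
    have h1 := Sylow.card_dvd_index Q
    have h2 := (Q : Subgroup D).card_mul_index
    rw [hQc, hD] at h2
    have h3 : (Q : Subgroup D).index = m := Nat.eq_of_mul_eq_mul_left (by omega) h2
    rwa [h3] at h1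
  have h2 : Nat.card (Sylow p D) % p = 1 := by
    have h1 := card_sylow_modEq_one p D
    rw [Nat.ModEq, Nat.mod_eq_of_lt hp1] at h1
    exact h1
  have h3 : Nat.card (Sylow p D) = 1 := hn _ (Nat.mem_divisors.2 ⟨h1, hmpos⟩) h2
  haveI : Subsingleton (Sylow p D) := (Nat.card_eq_one_iff_unique.mp h3).1
  have hQn : (Q : Subgroup D).Normal := Sylow.normal_of_subsingleton Q
  set x' : D := ⟨x, hxD⟩ with hx'
  have hx'o : orderOf x' = p := by
    rw [hx', Subgroup.orderOf_mk, hx]
  have hpg : IsPGroup p (Subgroup.zpowers x') := by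
    refine IsPGroup.of_card (n := 1) ?_
    rw [Nat.card_zpowers, hx'o, pow_one]
  obtain ⟨S, hS⟩ := hpg.exists_le_sylow
  have hSQ : S = Q := Subsingleton.elim _ _
  subst hSQ
  have heq : Subgroup.zpowers x' = (S : Subgroup D) := by
    apply Subgroup.eq_of_le_of_card_ge hS
    rw [hQc, Nat.card_zpowers, hx'o]
  intro d hd
  apply mem_normalizer_of_conj
  have h4 : (⟨d, hd⟩ : D) * x' * (⟨d, hd⟩ : D)⁻¹ ∈ (S : Subgroup D) :=
    hQn.conj_mem _ (heq ▸ Subgroup.mem_zpowers x') _
  rw [← heq] at h4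
  obtain ⟨k, hk⟩ := Subgroup.mem_zpowers_iff.1 h4
  have h5 := congrArg Subtype.val hk
  simp only [Subgroup.coe_zpow, Subgroup.coe_mul, Subgroup.coe_inv, hx'] at h5
  rw [← h5]
  exact Subgroup.zpow_mem _ (Subgroup.mem_zpowers x) k

/-- The case of `8` Sylow subgroups. -/
theorem no_two_in_centralizer [hS : IsSimpleGroup G] [Fact (Nat.Prime 7)] [Fact (Nat.Prime 2)]
    (hn : Nat.card (Sylow 7 G) = 8)
    (hpc : ∀ Q : Sylow 7 G, Nat.card Q = 7) (P : Sylow 7 G) {x : G} (hx : orderOf x = 7)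
    (hzp : Subgroup.zpowers x = (P : Subgroup G)) {z : G} (hz : orderOf z = 2) (hc : Commute z x) : False := by
  classical
  have hxp : x ^ 7 = 1 := by rw [← hx]; exact pow_orderOf_eq_one x
  have hzp7 : z ^ 2 = 1 := by rw [← hz]; exact pow_orderOf_eq_one z
  have hx1 : x ≠ 1 := by
    rintro rfl
    rw [orderOf_one] at hx
    omega
  have hz1 : z ≠ 1 := by
    rintro rfl
    rw [orderOf_one] at hz
    omega
  have hxP : x ∈ (P : Subgroup G) := hzp ▸ Subgroup.mem_zpowers x
  set Fz : Set (Sylow 7 G) := {Q ∈ (Set.univ : Set (Sylow 7 G)) | z • Q = Q} with hFz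
  have h1 : (Set.univ : Set (Sylow 7 G)).ncard ≡ Fz.ncard [MOD 2] :=
    smul_ncard_modEq hzp7 (fun _ _ => Set.mem_univ _)
  rw [Set.ncard_univ, hn] at h1
  have hinv : ∀ Q ∈ Fz, x • Q ∈ Fz := by
    intro Q hQ
    refine ⟨Set.mem_univ _, ?_⟩
    rw [smul_smul, hc.eq, mul_smul, hQ.2]
  have h2 : Fz.ncard ≡ {Q ∈ Fz | x • Q = Q}.ncard [MOD 7] := smul_ncard_modEq hxp hinv
  have hPF : P ∈ Fz := by
    refine ⟨Set.mem_univ _, ?_⟩
    rw [Sylow.smul_eq_iff_mem_normalizer]
    have h : z ∈ Subgroup.normalizer ((Subgroup.zpowers x : Subgroup G) : Set G) := by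
      apply mem_normalizer_of_conj
      rw [hc.eq, mul_inv_cancel_right]
      exact Subgroup.mem_zpowers x
    rw [hzp] at h
    exact h
  have hfix : {Q ∈ Fz | x • Q = Q} = {P} := by
    ext Q
    constructor
    · rintro ⟨_, h⟩
      rw [Set.mem_singleton_iff]
      exact (Cfsg.Agent.H17.Mob.eq_of_fix hpc P Q x hxP hx1 h).symm
    · intro h
      rw [Set.mem_singleton_iff] at h
      subst h
      refine ⟨hPF, ?_⟩
      rw [Sylow.smul_eq_iff_mem_normalizer]
      exact Subgroup.le_normalizer hxP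
  rw [hfix, Set.ncard_singleton] at h2
  have h3 : Fz.ncard ≤ 8 := by
    have h4 := Set.ncard_le_ncard (Set.subset_univ Fz) (Set.toFinite _)
    rwa [Set.ncard_univ, hn] at h4
  have h4 : Fz.ncard = 8 := by
    have h5 : 8 % 2 = Fz.ncard % 2 := h1
    have h6 : Fz.ncard % 7 = 1 % 7 := h2
    omega
  have h5 : Fz = Set.univ := by
    apply Set.eq_of_subset_of_ncard_le (Set.subset_univ Fz) _ (Set.toFinite _)
    rw [Set.ncard_univ, hn, h4]
  have hinj := Cfsg.Agent.H17.Mob.faithful_of_simple (p := 7) (X := G) (by rw [hn]; norm_num)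
  apply hz1
  apply hinj
  rw [map_one]
  apply Equiv.ext
  intro Q
  have h6 : Q ∈ Fz := h5 ▸ Set.mem_univ Q
  exact h6.2

theorem no_big7 [hS : IsSimpleGroup G] [Fact (Nat.Prime 7)] [Fact (Nat.Prime 2)] (hG : Nat.card G = 7 * 288)
    (P : Sylow 7 G) (hcyc : ∀ S : Sylow 7 G, IsCyclic (S : Subgroup G))
    (hPc : Nat.card (P : Subgroup G) = 7) {x : G} (hx : orderOf x = 7) (hzp : Subgroup.zpowers x = P)
    (hC : Nat.card (Subgroup.centralizer ({x} : Set G)) = 28)
    (hN : Nat.card (Subgroup.normalizer ((P : Subgroup G) : Set G)) = 56)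
    {y₀ : G} (hy : orderOf y₀ = 2) (hc : Commute x y₀)
    (hbig : 112 ≤ Nat.card (Subgroup.centralizer ({y₀} : Set G))) : False := by
  classical
  have hxp : x ^ 7 = 1 := by rw [← hx]; exact pow_orderOf_eq_one x
  have hx1 : x ≠ 1 := by
    rintro rfl
    rw [orderOf_one] at hx
    omega
  have hyp : y₀ ^ 2 = 1 := by rw [← hy]; exact pow_orderOf_eq_one y₀
  have hy1 : y₀ ≠ 1 := by
    rintro rfl
    rw [orderOf_one] at hy
    omega
  set D := Subgroup.centralizer ({y₀} : Set G) with hD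
  have hmemD : ∀ c, c ∈ D ↔ c * y₀ = y₀ * c := fun c => Subgroup.mem_centralizer_singleton_iff
  have hxD : x ∈ D := (hmemD x).2 hc.eq
  set K : Set G := {u | IsConj u y₀} with hK
  set F : Set G := {u ∈ K | x * u * x⁻¹ = u} with hF
  have hKcard : K.ncard = D.index := by
    rw [← Nat.card_coe_set_eq]
    exact card_isConj_eq_index y₀
  have hKinv : ∀ u ∈ K, x * u * x⁻¹ ∈ K := fun u hu => (isConj_iff.2 ⟨x, rfl⟩ : IsConj u _).symm.trans hu
  have hmod : K.ncard ≡ F.ncard [MOD 7] := conj_ncard_modEq' hxp hKinv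
  have hy0K : y₀ ∈ K := IsConj.refl _
  have hy0F : y₀ ∈ F := ⟨hy0K, by rw [hc.eq, mul_inv_cancel_right]⟩
  have hFpos : 1 ≤ F.ncard := Set.ncard_pos (Set.toFinite _) |>.2 ⟨y₀, hy0F⟩
  obtain ⟨hF3, hFcomm⟩ : F.ncard ≤ 3 ∧ ∀ u ∈ F, y₀ * u * y₀⁻¹ = u := by
    obtain ⟨O, hOn, hcop, hidx, -⟩ := Cfsg.Agent.H08.Mom.Cyc.npc_data P hcyc (t := x) (k := 1) (by rw [pow_one]; exact hx) hx1
    haveI := hOn
    rw [hPc] at hidx
    have hO4 : Nat.card O = 4 := by
      have h1 := O.card_mul_index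
      rw [hidx, hC] at h1
      omega
    set O' : Subgroup G := O.map (Subgroup.centralizer ({x} : Set G)).subtype with hO'
    have hO'4 : Nat.card O' = 4 := by
      rw [← hO4]
      exact Nat.card_congr (O.equivMapOfInjective _ (Subgroup.centralizer ({x} : Set G)).subtype_injective).toEquiv.symm
    have hsub : F ⊆ (O' : Set G) \ {1} := by
      intro u hu
      obtain ⟨huK, hux⟩ := hu
      have huC : u ∈ Subgroup.centralizer ({x} : Set G) := by
        rw [Subgroup.mem_centralizer_singleton_iff]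
        calc u * x = (x * u * x⁻¹) * x := by rw [hux]
          _ = x * u := by group
      have huo : orderOf u = 2 := by
        rw [Cfsg.Agent.H08.Mom.Cyc.order_of_conj huK, hy]
      refine ⟨⟨⟨u, huC⟩, ?_, rfl⟩, ?_⟩
      · by_contra hn
        have h2 := dvd_orderOf_of_not_mem (⟨1, by rw [hidx, pow_one]⟩ : ∃ k, O.index = 7 ^ k) hn
        rw [Subgroup.orderOf_mk, huo] at h2
        omega
      · intro h
        rw [Set.mem_singleton_iff] at h
        rw [h, orderOf_one] at huo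
        omega
    have h3 : ((O' : Set G) \ {1}).ncard = 3 := by
      rw [Set.ncard_diff_singleton_of_mem (one_mem O')]
      have h4 : (O' : Set G).ncard = 4 := by
        rw [← Nat.card_coe_set_eq]
        exact hO'4
      rw [h4]
    refine ⟨?_, ?_⟩
    · calc F.ncard ≤ ((O' : Set G) \ {1}).ncard := Set.ncard_le_ncard hsub (Set.toFinite _)
        _ = 3 := h3
    · intro u hu
      have hcomm := IsPGroup.commutative_of_card_eq_prime_sq (p := 2) (G := O') (by rw [hO'4]; norm_num)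
      have h1 := hsub hu
      have h2 := hsub hy0F
      have h3 := hcomm ⟨y₀, h2.1⟩ ⟨u, h1.1⟩
      have h4 := congrArg Subtype.val h3
      simp only [Subgroup.coe_mul] at h4
      rw [h4, mul_inv_cancel_right]
  have hne : F ≠ K := by
    intro hFK
    have hall : ∀ g : G, g * y₀ * g⁻¹ ∈ Subgroup.centralizer ({x} : Set G) := by
      intro g
      have h1 : g * y₀ * g⁻¹ ∈ K := (isConj_iff.2 ⟨g, rfl⟩ : IsConj y₀ _).symm
      rw [← hFK] at h1
      rw [Subgroup.mem_centralizer_singleton_iff]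
      calc g * y₀ * g⁻¹ * x = (x * (g * y₀ * g⁻¹) * x⁻¹) * x := by rw [h1.2]
        _ = _ := by group
    have hcore : y₀ ∈ (Subgroup.centralizer ({x} : Set G)).normalCore := hall
    rcases hS.eq_bot_or_eq_top_of_normal _ (Subgroup.normalCore_normal _) with h | h
    · rw [h, Subgroup.mem_bot] at hcore
      exact hy1 hcore
    · have h2 : Subgroup.centralizer ({x} : Set G) = ⊤ := by
        rw [eq_top_iff, ← h]
        exact Subgroup.normalCore_le _
      rw [h2, Subgroup.card_top, hG] at hC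
      omega
  have hlt : F.ncard < K.ncard := by
    refine Set.ncard_lt_ncard (Set.ssubset_iff_subset_ne.2 ⟨fun u hu => hu.1, hne⟩) (Set.toFinite _)
  have hDcard : Nat.card D * D.index = 7 * 288 := by rw [D.card_mul_index, hG]
  have h7D : 7 ∣ Nat.card D := by
    have h1 : Subgroup.zpowers x ≤ D := Subgroup.zpowers_le.2 hxD
    have h2 := Subgroup.card_dvd_of_le h1
    rwa [Nat.card_zpowers, hx] at h2
  obtain ⟨m, hm⟩ := h7D
  have hmi : m * D.index = 288 := by
    rw [hm, mul_assoc] at hDcard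
    exact Nat.eq_of_mul_eq_mul_left (by norm_num) hDcard
  have hidvd : D.index ∈ Nat.divisors 288 :=
    Nat.mem_divisors.2 ⟨⟨m, by rw [mul_comm]; exact hmi.symm⟩, by norm_num⟩
  have hmod' : K.ncard % 7 = F.ncard % 7 := hmod
  rw [hKcard] at hmod' hlt
  have hi18 : D.index ≤ 18 := by
    by_contra hcon
    push Not at hcon
    have h1 : 112 * 19 ≤ Nat.card D * D.index := Nat.mul_le_mul hbig hcon
    rw [hDcard] at h1
    omega
  have hFr : F.ncard ∈ [1, 2, 3] := by
    have : F.ncard = 1 ∨ F.ncard = 2 ∨ F.ncard = 3 := by omega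
    rcases this with h | h | h <;> rw [h] <;> simp
  rcases idx_cases7 _ hidvd hi18 _ hFr hmod' hlt with hI | hI | hI
  rotate_left 2
  · -- index 16: a unique Sylow subgroup
    have hm18 : m = 18 := by
      rw [hI] at hmi
      omega
    subst hm18
    have hle := card_le_of_unique_sylow' hx hxD hm (by norm_num) div18 (by norm_num)
    rw [hzp] at hle
    have h3 := Subgroup.card_le_of_le hle
    rw [hN, hm] at h3
    omega
  all_goals
    -- index 8 or 9: all conjugates commute with `y₀`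
    have hI9 : D.index ≤ 9 := by omega
    set Fx : Set G := {u ∈ K | y₀ * u * y₀⁻¹ = u} with hFx
    have hm2 : K.ncard ≡ Fx.ncard [MOD 2] := conj_ncard_modEq' hyp
      (fun u hu => (isConj_iff.2 ⟨y₀, rfl⟩ : IsConj u _).symm.trans hu)
    have hinv : ∀ u ∈ Fx, x * u * x⁻¹ ∈ Fx := by
      intro u hu
      refine ⟨hKinv u hu.1, ?_⟩
      have h1 : y₀ * x = x * y₀ := hc.eq.symm
      calc y₀ * (x * u * x⁻¹) * y₀⁻¹ = (y₀ * x) * u * (y₀ * x)⁻¹ := by group
        _ = (x * y₀) * u * (x * y₀)⁻¹ := by rw [h1]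
        _ = x * (y₀ * u * y₀⁻¹) * x⁻¹ := by group
        _ = x * u * x⁻¹ := by rw [hu.2]
    have hm7 : Fx.ncard ≡ {u ∈ Fx | x * u * x⁻¹ = u}.ncard [MOD 7] := conj_ncard_modEq' hxp hinv
    have hfixx : {u ∈ Fx | x * u * x⁻¹ = u} = F := by
      ext u
      constructor
      · rintro ⟨h1, h2⟩
        exact ⟨h1.1, h2⟩
      · intro h
        exact ⟨⟨h.1, hFcomm u h⟩, h.2⟩
    rw [hfixx] at hm7
    have hFxle : Fx.ncard ≤ K.ncard := Set.ncard_le_ncard (fun u hu => hu.1) (Set.toFinite _)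
    have hFxK : Fx.ncard = K.ncard := by
      have h1 : K.ncard % 2 = Fx.ncard % 2 := hm2
      have h2 : Fx.ncard % 7 = F.ncard % 7 := hm7
      rw [hKcard] at h1 hFxle ⊢
      omega
    have hFxeq : Fx = K := Set.eq_of_subset_of_ncard_le (fun u hu => hu.1) hFxK.ge (Set.toFinite _)
    have hall : ∀ g : G, g * y₀ * g⁻¹ ∈ D := by
      intro g
      have h1 : g * y₀ * g⁻¹ ∈ K := (isConj_iff.2 ⟨g, rfl⟩ : IsConj y₀ _).symm
      rw [← hFxeq] at h1
      rw [hmemD]
      calc g * y₀ * g⁻¹ * y₀ = (y₀ * (g * y₀ * g⁻¹) * y₀⁻¹) * y₀ := by rw [h1.2]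
        _ = _ := by group
    have hcore : y₀ ∈ D.normalCore := hall
    rcases hS.eq_bot_or_eq_top_of_normal _ (Subgroup.normalCore_normal D) with h | h
    · rw [h, Subgroup.mem_bot] at hcore
      exact hy1 hcore
    · have h2 : D = ⊤ := by
        rw [eq_top_iff, ← h]
        exact Subgroup.normalCore_le _
      rw [h2, Subgroup.index_top] at hI
      omega

end Cfsg.Agent.H17.Br7
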