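import Cfsg.Agent.Lib.H17.Brd0

/-! # Abstract forms of the star relation for vectors of generalized decomposition numbers -/

set_option autoImplicit false
set_option linter.unusedSectionVars false
set_option linter.style.haveILetI false
set_option linter.unusedSimpArgs false
set_option linter.unusedVariables false
set_option linter.style.longLine false

namespace Cfsg.Agent.H17.BrK

open Cfsg.Agent.H17.Brd Finset

variable {I : Type*} [Fintype I] [DecidableEq I]

theorem ip_smul_single_left' (η : ℤ) (B : I) (u : I → ℤ) :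
    ip (η • Pi.single B (1 : ℤ)) u = η * u B := by
  unfold ip
  simp [Pi.single_apply, mul_sum]

/-- **Abstract star relation.** -/
theorem star_abs {p : ℕ} [hp : Fact p.Prime] (oo : I) (dd : I → ℤ) (dd_pos : ∀ χ, 0 < dd χ)
    (v : ZMod p → I → ℤ) (Rs : Finset (ZMod p)) (e : ℕ) (he : Rs.card = e)
    (h1R : (1 : ZMod p) ∈ Rs) (h0R : (0 : ZMod p) ∉ Rs)
    (hipv : ∀ {j k : ZMod p}, j ≠ 0 → k ≠ 0 →
      ip (v j) (v k) = (e : ℤ) + if k * j⁻¹ ∈ Rs then 1 else 0)
    (h0 : ∀ {j : ZMod p}, j ≠ 0 → ip (v j) dd = 0)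
    (hoo : ∀ {j : ZMod p}, j ≠ 0 → v j oo = -1)
    (hde : ∀ χ, (∃ j : ZMod p, j ≠ 0 ∧ v j χ ≠ 0) →
      ∃ m : ℤ, dd χ = p * m + ∑ j ∈ (univ.erase (0 : ZMod p)), v j χ)
    (hbig : e * (e + 2) < p - 1) :
    ∃ (w : I → ℤ) (η : ℤ) (B : I), (η = 1 ∨ η = -1) ∧
      w oo = -1 ∧ w B = 0 ∧ ip w w = e ∧ ip w dd + η * dd B = 0 ∧
      (∀ χ, w χ ≠ 0 → dd χ ≡ - w χ [ZMOD p]) ∧ dd B ≡ e * η [ZMOD p] := by
  classical
  have hp1 : 1 < p := hp.out.one_lt
  have hone : (1 : ZMod p) ≠ 0 := one_ne_zero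
  set J : Finset (ZMod p) := univ.erase 0 with hJ
  have hJmem : ∀ {j : ZMod p}, j ∈ J ↔ j ≠ 0 := fun {j} => by simp [hJ]
  have hJcard : J.card = p - 1 := by
    rw [hJ, card_erase_of_mem (mem_univ _), card_univ, ZMod.card]
  have hnorm : ∀ {j : ZMod p}, j ≠ 0 → ip (v j) (v j) = (e : ℤ) + 1 := by
    intro j hj
    rw [hipv hj hj, mul_inv_cancel₀ hj, if_pos h1R]
  have heq : ∀ {j k : ZMod p}, j ≠ 0 → k ≠ 0 → (v j = v k ↔ k * j⁻¹ ∈ Rs) := by
    intro j k hj hk
    constructor
    · intro h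
      have h1 := hipv hj hk
      rw [← h, hnorm hj] at h1
      by_contra hcon
      rw [if_neg hcon] at h1
      omega
    · intro h
      have h1 := hipv hj hk
      rw [if_pos h] at h1
      have h2 : ip (v j - v k) (v j - v k) = 0 := by
        rw [ip_sub_left, ip_sub_right, ip_sub_right, hnorm hj, hnorm hk, ip_comm (v k) (v j), h1]
        ring
      exact sub_eq_zero.1 (eq_zero_of_ip_self _ h2)
  set V : Finset (I → ℤ) := J.image v with hV
  have hVmem : ∀ {u}, u ∈ V ↔ ∃ j, j ≠ 0 ∧ v j = u := fun {u} => by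
    simp [hV, hJmem]
  have hVcard : (e : ℤ) + 3 ≤ V.card := by
    have hfib : ∀ a ∈ J.image v, (J.filter fun k => v k = a).card ≤ e := by
      intro a ha
      obtain ⟨j, hj, rfl⟩ := hVmem.1 ha
      rw [← he]
      refine card_le_card_of_injOn (fun k => k * j⁻¹) ?_ ?_
      · intro k hk
        have hk' := mem_filter.1 hk
        exact (heq hj (hJmem.1 hk'.1)).1 hk'.2.symm
      · intro k _ k' _ h
        exact mul_right_cancel₀ (inv_ne_zero hj) h
    have h1 := card_le_mul_card_image J e hfib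
    rw [hJcard] at h1
    by_contra hcon
    push Not at hcon
    have h2 : V.card ≤ e + 2 := by omega
    have h3 : e * (J.image v).card ≤ e * (e + 2) := Nat.mul_le_mul_left e h2
    omega
  obtain ⟨w, η, b, hη, hwb, hbinj⟩ := coherent V (e : ℤ)
    (by
      intro u hu
      obtain ⟨j, hj, rfl⟩ := hVmem.1 hu
      exact hnorm hj)
    (by
      intro u hu u' hu' hne
      obtain ⟨j, hj, rfl⟩ := hVmem.1 hu
      obtain ⟨k, hk, rfl⟩ := hVmem.1 hu'
      rw [hipv hj hk, if_neg (fun h => hne ((heq hj hk).2 h)), add_zero])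
    dd dd_pos
    (by
      intro u hu
      obtain ⟨j, hj, rfl⟩ := hVmem.1 hu
      exact h0 hj)
    hVcard (by positivity)
  have hvV : ∀ {j : ZMod p}, j ≠ 0 → v j ∈ V := fun {j} hj => hVmem.2 ⟨j, hj, rfl⟩
  have hval : ∀ {j : ZMod p}, j ≠ 0 → ∀ χ, v j χ = w χ + η * if χ = b (v j) then 1 else 0 := by
    intro j hj χ
    have h1 := (hwb _ (hvV hj)).2
    have h2 := congrFun h1 χ
    conv_lhs => rw [h2]
    simp [Pi.single_apply]
  set B := b (v 1) with hB
  have hwB : w B = 0 := (hwb _ (hvV hone)).1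
  have hη2 : η * η = 1 := by
    rcases hη with rfl | rfl <;> norm_num
  have hbinj' : ∀ {j : ZMod p}, j ≠ 0 → (b (v j) = B ↔ v j = v 1) := by
    intro j hj
    constructor
    · intro h
      exact hbinj _ (hvV hj) _ (hvV hone) h
    · intro h
      rw [hB, h]
  refine ⟨w, η, B, hη, ?_, hwB, ?_, ?_, ?_, ?_⟩
  · -- w oo = -1
    by_cases hBo : B = oo
    · exfalso
      have h1 : 1 < V.card := by
        have : (e : ℤ) + 3 ≤ V.card := hVcard
        have h2 : (3 : ℤ) ≤ V.card := by omega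
        have h3 : 3 ≤ V.card := by exact_mod_cast h2
        omega
      obtain ⟨u, hu, hne⟩ := exists_mem_ne h1 (v 1)
      obtain ⟨j, hj, rfl⟩ := hVmem.1 hu
      have h2 := hval hj oo
      have h3 : v j oo = -1 := hoo hj
      have h4 : oo ≠ b (v j) := by
        intro h
        rw [← hBo] at h
        exact hne ((hbinj' hj).1 h.symm)
      rw [if_neg h4, mul_zero, add_zero, h3] at h2
      rw [hBo] at hwB
      omega
    · have h2 := hval hone oo
      have h3 : v 1 oo = -1 := hoo hone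
      have h4 : oo ≠ b (v 1) := fun h => hBo h.symm
      rw [if_neg h4, mul_zero, add_zero, h3] at h2
      exact h2.symm
  · -- norm of w
    have h1 := hnorm hone
    have h2 : v 1 = w + η • Pi.single B 1 := (hwb _ (hvV hone)).2
    rw [h2, ip_add_left, ip_add_right, ip_add_right, ip_smul_single_left', ip_smul_single_left',
      ip_comm w (η • Pi.single B 1), ip_smul_single_left'] at h1
    have h3 : (η • Pi.single B (1 : ℤ) : I → ℤ) B = η := by simp
    rw [hwB, h3] at h1
    have h4 : (e : ℤ) = ip w w := by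
      nlinarith
    exact h4.symm
  · -- relation
    have h1 := h0 hone
    have h2 : v 1 = w + η • Pi.single B 1 := (hwb _ (hvV hone)).2
    rw [h2, ip_add_left, ip_smul_single_left'] at h1
    exact h1
  · -- congruence for the common part
    intro χ hχ
    have h1 : ∀ j ∈ J, v j χ = w χ := by
      intro j hj
      have hj' := hJmem.1 hj
      have h2 := hval hj' χ
      have h3 : χ ≠ b (v j) := by
        rintro rfl
        exact hχ (hwb _ (hvV hj')).1
      rw [if_neg h3, mul_zero, add_zero] at h2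
      exact h2
    obtain ⟨m, h2⟩ := hde χ ⟨1, hone, by rw [h1 1 (hJmem.2 hone)]; exact hχ⟩
    rw [sum_congr rfl h1, sum_const, hJcard, nsmul_eq_mul] at h2
    rw [Int.modEq_iff_dvd, h2]
    refine ⟨-m - w χ, ?_⟩
    push_cast [Nat.cast_sub hp1.le]
    ring
  · -- congruence for the exceptional character
    have h1 : ∀ j ∈ J, v j B = if j ∈ Rs then η else 0 := by
      intro j hj
      have hj' := hJmem.1 hj
      have h2 := hval hj' B
      rw [hwB, zero_add] at h2
      rw [h2]
      by_cases h3 : j ∈ Rs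
      · rw [if_pos h3]
        have h4 : v 1 = v j := (heq hone hj').2 (by simpa using h3)
        have h5 : B = b (v j) := by rw [hB, h4]
        rw [if_pos h5, mul_one]
      · rw [if_neg h3]
        have h5 : B ≠ b (v j) := by
          intro h
          have h6 := (hbinj' hj').1 h.symm
          exact h3 (by simpa using (heq hone hj').1 h6.symm)
        rw [if_neg h5, mul_zero]
    have hv1B : v 1 B ≠ 0 := by
      rw [h1 1 (hJmem.2 hone), if_pos h1R]
      rcases hη with rfl | rfl <;> norm_num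
    obtain ⟨m, h2⟩ := hde B ⟨1, hone, hv1B⟩
    rw [sum_congr rfl h1, sum_ite, sum_const_zero, add_zero, sum_const, nsmul_eq_mul] at h2
    have h3 : (J.filter fun j => j ∈ Rs) = Rs := by
      ext j
      simp only [mem_filter, and_iff_right_iff_imp]
      intro hj
      rw [hJmem]
      rintro rfl
      exact h0R hj
    rw [h3, he] at h2
    rw [Int.modEq_iff_dvd, h2]
    refine ⟨-m, ?_⟩
    ring

/-- Three vectors with the inner products of the star configuration. -/
theorem three_abs (u₁ u₂ u₃ : I → ℤ) (e : ℤ) (h11 : ip u₁ u₁ = e + 1) (h22 : ip u₂ u₂ = e + 1)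
    (h33 : ip u₃ u₃ = e + 1) (h12 : ip u₁ u₂ = e) (h13 : ip u₁ u₃ = e) (h23 : ip u₂ u₃ = e)
    (d : I → ℤ) (hd : ∀ i, 0 < d i) (h1d : ip u₁ d = 0) (h2d : ip u₂ d = 0) (h3d : ip u₃ d = 0) :
    ∃ (w : I → ℤ) (δ : ℤ) (a₁ a₂ a₃ : I), (δ = 1 ∨ δ = -1) ∧ a₁ ≠ a₂ ∧ a₁ ≠ a₃ ∧ a₂ ≠ a₃ ∧
      u₁ = w + δ • Pi.single a₁ 1 ∧ u₂ = w + δ • Pi.single a₂ 1 ∧ u₃ = w + δ • Pi.single a₃ 1 := by
  classical
  have h21 : ip u₂ u₁ = e := by rw [ip_comm]; exact h12
  have h31 : ip u₃ u₁ = e := by rw [ip_comm]; exact h13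
  obtain ⟨a, b, hab, h2⟩ := norm_two_form (u₂ - u₁) d hd (by
      rw [ip_sub_left, ip_sub_right, ip_sub_right, h22, h11, h21, h12]
      ring) (by
      rw [ip_sub_left, h2d, h1d]
      ring)
  obtain ⟨c, f, hcf, h3⟩ := norm_two_form (u₃ - u₁) d hd (by
      rw [ip_sub_left, ip_sub_right, ip_sub_right, h33, h11, h31, h13]
      ring) (by
      rw [ip_sub_left, h3d, h1d]
      ring)
  have hdich := diff_dichotomy hab hcf (by
    rw [← h2, ← h3, ip_sub_left, ip_sub_right, ip_sub_right, h23, h11, h21, h13]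
    ring)
  have e2 : u₂ = u₁ + (Pi.single a 1 - Pi.single b 1) := by rw [← h2]; abel
  have e3 : u₃ = u₁ + (Pi.single c 1 - Pi.single f 1) := by rw [← h3]; abel
  rcases hdich with ⟨rfl, hbf⟩ | ⟨rfl, hac⟩
  · refine ⟨u₁ + Pi.single a 1, -1, a, b, f, Or.inr rfl, hab, hcf, hbf, ?_, ?_, ?_⟩
    · funext i
      simp
    · rw [e2]
      funext i
      simp only [Pi.add_apply, Pi.sub_apply, Pi.smul_apply, smul_eq_mul]
      ring
    · rw [e3]
      funext i
      simp only [Pi.add_apply, Pi.sub_apply, Pi.smul_apply, smul_eq_mul]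
      ring
  · refine ⟨u₁ - Pi.single b 1, 1, b, a, c, Or.inl rfl, hab.symm, hcf.symm, hac, ?_, ?_, ?_⟩
    · funext i
      simp
    · rw [e2]
      funext i
      simp only [Pi.add_apply, Pi.sub_apply, Pi.smul_apply, smul_eq_mul]
      ring
    · rw [e3]
      funext i
      simp only [Pi.add_apply, Pi.sub_apply, Pi.smul_apply, smul_eq_mul]
      ring

end Cfsg.Agent.H17.BrK
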