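import Cfsg.Agent.Lib.H17.Brd4
import Cfsg.Agent.Lib.H17.BrK1
import Cfsg.Agent.Lib.H08.Mom.CycBlock

/-! # The star relation in the principal block for a cyclic Sylow subgroup of prime order -/

set_option autoImplicit false
set_option linter.unusedSectionVars false
set_option linter.style.haveILetI false
set_option linter.unusedSimpArgs false
set_option linter.unusedVariables false
set_option linter.style.longLine false

namespace Cfsg.Agent.H17.Brd

open Cfsg Cfsg.Agent.H21 Cfsg.Agent.H22 Finset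
open scoped ComplexConjugate

universe u

variable {G : Type u} [Group G] {p : ℕ} [hp : Fact p.Prime]

theorem orderOf_X_of_ne [Finite G] {x : G} (hx : orderOf x = p) {a : ZMod p} (ha : a ≠ 0) :
    orderOf (X x a) = p := by
  have h1 : X x a ≠ 1 := fun h => ha ((X_eq_one_iff hx a).1 h)
  have hxp : x ^ p = 1 := by
    rw [← hx]
    exact pow_orderOf_eq_one x
  have h2 : (X x a) ^ p = 1 := by
    unfold X
    rw [← pow_mul, mul_comm, pow_mul, hxp, one_pow]
  haveI : Fact p.Prime := hp
  exact orderOf_eq_prime h2 h1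

theorem zero_not_mem_Rs {x : G} (hx : orderOf x = p) : (0 : ZMod p) ∉ Rs (p := p) x := by
  intro hj
  have h5 := mem_Rs.1 hj
  rw [X_zero] at h5
  have h6 : x = 1 := isConj_one_right.1 h5
  have h7 : orderOf x = 1 := by rw [h6]; exact orderOf_one
  rw [hx] at h7
  exact hp.out.one_lt.ne' h7

/-- The set of multipliers is closed under products. -/
theorem mul_mem_Rs {x : G} (hx : orderOf x = p) {a b : ZMod p} (ha : a ∈ Rs (p := p) x)
    (hb : b ∈ Rs (p := p) x) : a * b ∈ Rs (p := p) x := by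
  have hxp : x ^ p = 1 := by
    rw [← hx]
    exact pow_orderOf_eq_one x
  rw [mem_Rs] at ha hb ⊢
  have h1 := ha.pow b.val
  rw [X_mul_pow hxp] at h1
  have h2 : x ^ b.val = X x b := rfl
  rw [h2] at h1
  exact h1.trans hb

/-- The multipliers as a subgroup of the units. -/
def RsU {x : G} (hx : orderOf x = p) : Subgroup (ZMod p)ˣ where
  carrier := {u | (u : ZMod p) ∈ Rs (p := p) x}
  one_mem' := by simpa using one_mem_Rs (p := p) x
  mul_mem' := by
    intro a b ha hb
    simpa using mul_mem_Rs hx ha hb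
  inv_mem' := by
    intro a ha
    have h1 : ∀ k : ℕ, ((a ^ k : (ZMod p)ˣ) : ZMod p) ∈ Rs (p := p) x := by
      intro k
      induction k with
      | zero => simpa using one_mem_Rs (p := p) x
      | succ k ih =>
        rw [pow_succ]
        simpa using mul_mem_Rs hx ih ha
    have h2 := h1 (orderOf a - 1)
    have h3 : a⁻¹ = a ^ (orderOf a - 1) := by
      rw [inv_eq_iff_mul_eq_one, ← pow_succ', Nat.sub_add_cancel (orderOf_pos a), pow_orderOf_eq_one]
    rw [h3]
    exact h2

theorem card_RsU {x : G} (hx : orderOf x = p) : Nat.card (RsU hx) = (Rs (p := p) x).card := by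
  classical
  have h0 := zero_not_mem_Rs hx
  rw [Nat.card_eq_fintype_card, Fintype.card_subtype]
  refine card_bij (fun u _ => (u : ZMod p)) ?_ ?_ ?_
  · intro u hu
    exact (mem_filter.1 hu).2
  · intro a _ b _ h
    exact Units.ext h
  · intro r hr
    have hr0 : r ≠ 0 := by
      rintro rfl
      exact h0 hr
    exact ⟨Units.mk0 r hr0, mem_filter.2 ⟨mem_univ _, hr⟩, rfl⟩

/-- The number of multipliers divides `p - 1`. -/
theorem card_Rs_dvd {x : G} (hx : orderOf x = p) : (Rs (p := p) x).card ∣ p - 1 := by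
  classical
  have h2 := Subgroup.card_subgroup_dvd_card (RsU hx)
  rw [card_RsU hx, Nat.card_eq_fintype_card, ZMod.card_units_eq_totient, Nat.totient_prime hp.out] at h2
  exact h2

/-- Every multiplier has order dividing the number of multipliers. -/
theorem pow_card_Rs {x : G} (hx : orderOf x = p) {r : ZMod p} (hr : r ∈ Rs (p := p) x) :
    r ^ (Rs (p := p) x).card = 1 := by
  have hr0 : r ≠ 0 := by
    rintro rfl
    exact zero_not_mem_Rs hx hr
  have h1 : (⟨Units.mk0 r hr0, hr⟩ : RsU hx) ^ Nat.card (RsU hx) = 1 := pow_card_eq_one'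
  have h2 := congrArg (fun u : RsU hx => ((u : (ZMod p)ˣ) : ZMod p)) h1
  simp only [card_RsU hx] at h2
  simpa using h2

section Block

variable [Fintype G] [Fintype (IrrCharacter G)] {M : Ideal AlgInt} [M.IsPrime]

/-- Block orthogonality on the powers of `x`. -/
theorem blk_column (hM : IsPModular p M) (P : Sylow p G) (hcyc : ∀ S : Sylow p G, IsCyclic (S : Subgroup G))
    (hPc : Nat.card (P : Subgroup G) = p) {x : G} (hx : orderOf x = p) (a : ZMod p) {b : ZMod p} (hb : b ≠ 0) :
    ∑ χ : IrrCharacter G, eB (principalBlock M G) χ * (χ.1 (X x a) * conj (χ.1 (X x b))) =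
      if a * b⁻¹ ∈ Rs (p := p) x then (p : ℂ) else 0 := by
  have hb1 : orderOf (X x b) = p ^ 1 := by rw [pow_one]; exact orderOf_X_of_ne hx hb
  have hb2 : X x b ≠ 1 := fun h => hb ((X_eq_one_iff hx b).1 h)
  have hr1 : ¬ p ∣ orderOf (1 : G) := by
    rw [orderOf_one]
    exact fun h => hp.out.one_lt.ne' (Nat.dvd_one.mp h)
  by_cases ha : a = 0
  · subst ha
    rw [zero_mul, if_neg (zero_not_mem_Rs hx), X_zero]
    have ho : orderOf (1 : G) = p ^ 0 := by simp
    convert Cfsg.Agent.H08.Mom.Cyc.inner_not hM (g := 1) (t := 1) (r := 1) (one_mul 1) (Commute.one_left 1) ho hr1 hb1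
      (fun h => hb2 (isConj_one_right.mp h))
  · have ha1 : orderOf (X x a) = p ^ 1 := by rw [pow_one]; exact orderOf_X_of_ne hx ha
    by_cases hab : a * b⁻¹ ∈ Rs (p := p) x
    · rw [if_pos hab]
      have h2 := (isConj_X_iff hx hb).2 hab
      have h3 := Cfsg.Agent.H08.Mom.Cyc.inner_conj hM P hcyc (g := X x a) (t := X x a) (r := 1) (mul_one _)
        (Commute.one_right _) ha1 hr1 hb1 hb2 h2
      rw [hPc] at h3
      convert h3
    · rw [if_neg hab]
      have h2 : ¬ IsConj (X x a) (X x b) := fun h => hab ((isConj_X_iff hx hb).1 h)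
      convert Cfsg.Agent.H08.Mom.Cyc.inner_not hM (g := X x a) (t := X x a) (r := 1) (mul_one _)
        (Commute.one_right _) ha1 hr1 hb1 h2

/-- The main computation in the principal block. -/
theorem blk_sum_cf_sub_mul (hM : IsPModular p M) (P : Sylow p G) (hcyc : ∀ S : Sylow p G, IsCyclic (S : Subgroup G))
    (hPc : Nat.card (P : Subgroup G) = p) {x : G} (hx : orderOf x = p) {j k : ZMod p}
    (hj : j ≠ 0) (hk : k ≠ 0) :
    ∑ χ : IrrCharacter G, eB (principalBlock M G) χ * ((cf χ.1 x j - cf χ.1 x (0 : ZMod p)) * conj (cf χ.1 x k - cf χ.1 x (0 : ZMod p))) =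
      ((Rs (p := p) x).card : ℂ) + (((Rs (p := p) x).filter fun r => r * j = k).card : ℂ) := by
  classical
  have hp0 : p ≠ 0 := hp.out.ne_zero
  have hpc : (p : ℂ) ≠ 0 := by exact_mod_cast hp0
  -- the double sum
  have h1 : ∀ χ : IrrCharacter G, eB (principalBlock M G) χ * ((cf χ.1 x j - cf χ.1 x (0 : ZMod p)) * conj (cf χ.1 x k - cf χ.1 x (0 : ZMod p))) =
      (p : ℂ)⁻¹ * (p : ℂ)⁻¹ * ∑ a : ZMod p, ∑ b : ZMod p,
        cc j a * conj (cc k b) * (eB (principalBlock M G) χ * (χ.1 (X x a) * conj (χ.1 (X x b)))) := by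
    intro χ
    rw [cf_sub, cf_sub, map_mul, map_sum, map_inv₀, Complex.conj_natCast]
    simp_rw [map_mul]
    rw [mul_mul_mul_comm, sum_mul_sum, mul_left_comm]
    congr 1
    rw [mul_sum]
    refine sum_congr rfl fun a _ => ?_
    rw [mul_sum]
    refine sum_congr rfl fun b _ => ?_
    ring
  simp_rw [h1]
  rw [← mul_sum]
  have hswap : (∑ χ : IrrCharacter G, ∑ a : ZMod p, ∑ b : ZMod p,
        cc j a * conj (cc k b) * (eB (principalBlock M G) χ * (χ.1 (X x a) * conj (χ.1 (X x b))))) =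
      ∑ b : ZMod p, ∑ a : ZMod p, cc j a * conj (cc k b) *
        (∑ χ : IrrCharacter G, eB (principalBlock M G) χ * (χ.1 (X x a) * conj (χ.1 (X x b)))) := by
    calc _ = ∑ a : ZMod p, ∑ χ : IrrCharacter G, ∑ b : ZMod p,
          cc j a * conj (cc k b) * (eB (principalBlock M G) χ * (χ.1 (X x a) * conj (χ.1 (X x b)))) := sum_comm
      _ = ∑ a : ZMod p, ∑ b : ZMod p, ∑ χ : IrrCharacter G,
          cc j a * conj (cc k b) * (eB (principalBlock M G) χ * (χ.1 (X x a) * conj (χ.1 (X x b)))) :=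
          sum_congr rfl fun a _ => sum_comm
      _ = ∑ b : ZMod p, ∑ a : ZMod p, ∑ χ : IrrCharacter G,
          cc j a * conj (cc k b) * (eB (principalBlock M G) χ * (χ.1 (X x a) * conj (χ.1 (X x b)))) := sum_comm
      _ = _ := by simp_rw [mul_sum]
  rw [hswap]
  have hS : ∀ a b : ZMod p, cc j a * conj (cc k b) *
      (∑ χ : IrrCharacter G, eB (principalBlock M G) χ * (χ.1 (X x a) * conj (χ.1 (X x b)))) =
      if b = 0 then 0 else (if a * b⁻¹ ∈ Rs (p := p) x then
        cc j a * conj (cc k b) * (p : ℂ) else 0) := by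
    intro a b
    by_cases hb : b = 0
    · subst hb
      simp [cc_zero]
    rw [if_neg hb, blk_column hM P hcyc hPc hx a hb]
    split_ifs <;> simp
  simp_rw [hS]
  -- change of variables `a = r b`
  have h3 : ∀ b : ZMod p, (∑ a : ZMod p, if b = 0 then (0 : ℂ) else (if a * b⁻¹ ∈ Rs (p := p) x then
        cc j a * conj (cc k b) * (p : ℂ) else 0)) =
      (p : ℂ) * ∑ r ∈ Rs (p := p) x, (conj (cc k b) * cc j (r * b)) := by
    intro b
    by_cases hb : b = 0
    · subst hb
      simp [cc_zero]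
    simp only [if_neg hb]
    rw [← sum_filter, mul_sum]
    refine sum_bij (fun a _ => a * b⁻¹) ?_ ?_ ?_ ?_
    · intro a ha
      exact (mem_filter.1 ha).2
    · intro a _ a' _ h
      exact mul_right_cancel₀ (inv_ne_zero hb) h
    · intro r hr
      refine ⟨r * b, mem_filter.2 ⟨mem_univ _, ?_⟩, ?_⟩
      · rwa [mul_assoc, mul_inv_cancel₀ hb, mul_one]
      · rw [mul_assoc, mul_inv_cancel₀ hb, mul_one]
    · intro a _
      rw [inv_mul_cancel_right₀ hb]
      ring
  simp_rw [h3]
  rw [← mul_sum, sum_comm]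
  -- the inner sum for fixed `r`
  have h4 : ∀ r ∈ Rs (p := p) x, (∑ b : ZMod p, conj (cc k b) * cc j (r * b)) =
      (p : ℂ) * ((if r * j = k then 1 else 0) + 1) := by
    intro r hr
    have hr0 : r ≠ 0 := by
      rintro rfl
      exact zero_not_mem_Rs hx hr
    have h5 : ∀ b : ZMod p, conj (cc k b) * cc j (r * b) =
        ψ (b * (k - r * j)) - ψ (b * k) - ψ (b * (-(r * j))) + 1 := by
      intro b
      rw [conj_cc]
      unfold cc
      have h6 : ψ (b * k) * ψ (-(r * b * j)) = ψ (b * (k - r * j)) := by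
        rw [← AddChar.map_add_eq_mul]
        congr 1
        ring
      have h7 : -(r * b * j) = b * (-(r * j)) := by ring
      rw [← h6, h7]
      ring
    simp_rw [h5]
    rw [sum_add_distrib, sum_sub_distrib, sum_sub_distrib, sum_psi, sum_psi, sum_psi]
    have hrj : -(r * j) ≠ 0 := neg_ne_zero.2 (mul_ne_zero hr0 hj)
    simp only [if_neg hk, if_neg hrj, sub_zero, sum_const, card_univ, ZMod.card, nsmul_eq_mul,
      mul_one, sub_eq_zero]
    by_cases h8 : k = r * j
    · simp [h8]
      ring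
    · have h9 : ¬ r * j = k := fun h => h8 h.symm
      simp [h8, h9]
  rw [sum_congr rfl fun r hr => by rw [h4 r hr]]
  rw [← mul_sum, sum_add_distrib, sum_ite, sum_const_zero, add_zero, sum_const, sum_const]
  simp only [nsmul_eq_mul, mul_one]
  generalize (((Rs (p := p) x).filter fun r => r * j = k).card : ℂ) = c1
  generalize ((Rs (p := p) x).card : ℂ) = c2
  field_simp
  ring

open Classical in
/-- The vectors of generalized decomposition numbers in the principal block. -/
noncomputable def vB (M : Ideal AlgInt) {x : G} (hx : orderOf x = p) (j : ZMod p) : IrrCharacter G → ℤ :=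
  fun χ => if χ ∈ principalBlock M G then vv hx j χ else 0

theorem vB_of_mem {x : G} (hx : orderOf x = p) (j : ZMod p) {χ : IrrCharacter G}
    (h : χ ∈ principalBlock M G) : vB M hx j χ = vv hx j χ := if_pos h

theorem vB_of_not_mem {x : G} (hx : orderOf x = p) (j : ZMod p) {χ : IrrCharacter G}
    (h : χ ∉ principalBlock M G) : vB M hx j χ = 0 := if_neg h

theorem vB_cast {x : G} (hx : orderOf x = p) (j : ZMod p) (χ : IrrCharacter G) :
    ((vB M hx j χ : ℤ) : ℂ) = eB (principalBlock M G) χ * (cf χ.1 x j - cf χ.1 x (0 : ZMod p)) := by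
  by_cases h : χ ∈ principalBlock M G
  · rw [vB_of_mem hx j h, vv_cast, eB_apply_mem h, one_mul]
  · rw [vB_of_not_mem hx j h, eB_apply_not_mem h]
    simp

theorem count_filter_Rs {j : ZMod p} (k : ZMod p) (S : Finset (ZMod p)) (hj : j ≠ 0) :
    (S.filter fun r => r * j = k).card = if k * j⁻¹ ∈ S then 1 else 0 := by
  classical
  split_ifs with h
  · rw [card_eq_one]
    refine ⟨k * j⁻¹, ?_⟩
    ext r
    simp only [mem_filter, mem_singleton]
    constructor
    · rintro ⟨_, rfl⟩
      rw [mul_inv_cancel_right₀ hj]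
    · rintro rfl
      exact ⟨h, inv_mul_cancel_right₀ hj k⟩
  · rw [card_eq_zero, filter_eq_empty_iff]
    rintro r hr rfl
    rw [mul_inv_cancel_right₀ hj] at h
    exact h hr

theorem ip_vB (hM : IsPModular p M) (P : Sylow p G) (hcyc : ∀ S : Sylow p G, IsCyclic (S : Subgroup G))
    (hPc : Nat.card (P : Subgroup G) = p) {x : G} (hx : orderOf x = p) {j k : ZMod p}
    (hj : j ≠ 0) (hk : k ≠ 0) :
    ip (vB M hx j) (vB M hx k) = ((Rs (p := p) x).card : ℤ) + if k * j⁻¹ ∈ Rs (p := p) x then 1 else 0 := by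
  classical
  have h := blk_sum_cf_sub_mul hM P hcyc hPc hx hj hk
  rw [count_filter_Rs k _ hj] at h
  have h1 : ((ip (vB M hx j) (vB M hx k) : ℤ) : ℂ) =
      ∑ χ : IrrCharacter G, eB (principalBlock M G) χ * ((cf χ.1 x j - cf χ.1 x (0 : ZMod p)) *
        conj (cf χ.1 x k - cf χ.1 x (0 : ZMod p))) := by
    unfold ip
    push_cast
    refine sum_congr rfl fun χ _ => ?_
    by_cases hχ : χ ∈ principalBlock M G
    · rw [vB_of_mem hx j hχ, vB_of_mem hx k hχ, vv_cast, ← vv_cast hx k, map_intCast, eB_apply_mem hχ, one_mul]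
    · rw [vB_of_not_mem hx j hχ, eB_apply_not_mem hχ]
      simp
  rw [h] at h1
  have h2 : ((ip (vB M hx j) (vB M hx k) : ℤ) : ℂ) =
      (((Rs (p := p) x).card : ℤ) + (if k * j⁻¹ ∈ Rs (p := p) x then 1 else 0 : ℤ) : ℤ) := by
    rw [h1]
    push_cast
    split_ifs <;> simp
  exact_mod_cast h2

theorem ip_vB_dd (hM : IsPModular p M) {x : G} (hx : orderOf x = p) (j : ZMod p) : ip (vB M hx j) dd = 0 := by
  classical
  have hp0 : p ≠ 0 := hp.out.ne_zero
  have hpc : (p : ℂ) ≠ 0 := by exact_mod_cast hp0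
  have h1 : ((ip (vB M hx j) dd : ℤ) : ℂ) =
      (p : ℂ)⁻¹ * ∑ a : ZMod p, cc j a * ∑ χ : IrrCharacter G, eB (principalBlock M G) χ * (χ.1 (X x a) * conj (χ.1 1)) := by
    unfold ip
    push_cast
    have h2 : ∀ χ : IrrCharacter G, ((vB M hx j χ : ℤ) : ℂ) * ((dd χ : ℤ) : ℂ) =
        (p : ℂ)⁻¹ * ∑ a : ZMod p, cc j a * (eB (principalBlock M G) χ * (χ.1 (X x a) * conj (χ.1 1))) := by
      intro χ
      rw [vB_cast, cf_sub]
      have h3 : ((dd χ : ℤ) : ℂ) = conj (χ.1 1) := by
        rw [← dd_cast, map_intCast]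
      rw [h3, mul_left_comm, mul_assoc]
      congr 1
      rw [mul_sum, sum_mul]
      refine sum_congr rfl fun a _ => ?_
      ring
    simp_rw [h2]
    rw [← mul_sum]
    congr 1
    simp_rw [mul_sum]
    rw [sum_comm]
  have hr1 : ¬ p ∣ orderOf (1 : G) := by
    rw [orderOf_one]
    exact fun h => hp.out.one_lt.ne' (Nat.dvd_one.mp h)
  have ho : orderOf (1 : G) = p ^ 0 := by simp
  have h4 : ∑ a : ZMod p, cc j a * ∑ χ : IrrCharacter G, eB (principalBlock M G) χ * (χ.1 (X x a) * conj (χ.1 1)) = 0 := by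
    refine sum_eq_zero fun a _ => ?_
    by_cases ha : a = 0
    · subst ha
      rw [cc_zero, zero_mul]
    · have h5 : ¬ IsConj (X x a) (1 : G) := fun h =>
        ha ((X_eq_one_iff hx a).1 (isConj_one_left.1 h))
      have ha1 : orderOf (X x a) = p ^ 1 := by rw [pow_one]; exact orderOf_X_of_ne hx ha
      have h6 : ∑ χ : IrrCharacter G, eB (principalBlock M G) χ * (χ.1 (X x a) * conj (χ.1 1)) = 0 := by
        convert Cfsg.Agent.H08.Mom.Cyc.inner_not hM (g := X x a) (t := X x a) (r := 1) (mul_one _)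
          (Commute.one_right _) ha1 hr1 ho h5
      rw [h6, mul_zero]
  rw [h4, mul_zero] at h1
  exact_mod_cast h1

theorem oo_mem_principal : (oo : IrrCharacter G) ∈ principalBlock M G := oneIrr_mem_principal

theorem vB_oo {x : G} (hx : orderOf x = p) {j : ZMod p} (hj : j ≠ 0) : vB M hx j (oo (G := G)) = -1 := by
  rw [vB_of_mem hx j oo_mem_principal, vv_oo hx hj]

theorem vB_dd_eq {x : G} (hx : orderOf x = p) (χ : IrrCharacter G) (h : ∃ j : ZMod p, j ≠ 0 ∧ vB M hx j χ ≠ 0) :
    ∃ m : ℤ, dd χ = p * m + ∑ j ∈ univ.erase (0 : ZMod p), vB M hx j χ := by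
  obtain ⟨j, hj, hne⟩ := h
  have hχ : χ ∈ principalBlock M G := by
    by_contra hn
    exact hne (vB_of_not_mem hx j hn)
  refine ⟨(mm hx χ 0 : ℤ), ?_⟩
  rw [dd_eq hx χ]
  congr 1
  refine sum_congr rfl fun k _ => ?_
  rw [vB_of_mem hx k hχ]

/-- **The star relation in the principal block.** -/
theorem star_block (hM : IsPModular p M) (P : Sylow p G) (hcyc : ∀ S : Sylow p G, IsCyclic (S : Subgroup G))
    (hPc : Nat.card (P : Subgroup G) = p) {x : G} (hx : orderOf x = p) (e : ℕ)
    (he : (Rs (p := p) x).card = e) (hbig : e * (e + 2) < p - 1) :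
    ∃ (w : IrrCharacter G → ℤ) (η : ℤ) (B : IrrCharacter G), (η = 1 ∨ η = -1) ∧
      w oo = -1 ∧ w B = 0 ∧ ip w w = e ∧ ip w dd + η * dd B = 0 ∧
      (∀ χ, w χ ≠ 0 → dd χ ≡ - w χ [ZMOD p]) ∧ dd B ≡ e * η [ZMOD p] := by
  classical
  have := BrK.star_abs (I := IrrCharacter G) (p := p) oo dd dd_pos (vB M hx) (Rs (p := p) x) e he
    (one_mem_Rs x) (zero_not_mem_Rs hx)
    (fun {j k} hj hk => by rw [ip_vB hM P hcyc hPc hx hj hk, he])
    (fun {j} hj => ip_vB_dd hM hx j)
    (fun {j} hj => vB_oo hx hj)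
    (fun χ h => vB_dd_eq hx χ h)
    hbig
  exact this

end Block

end Cfsg.Agent.H17.Brd
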