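import Cfsg.Agent.Lib.H17.BrK2

/-! # Three cosets of multipliers: the relation for `p = 19`, `e = 6` -/

set_option autoImplicit false
set_option linter.unusedSectionVars false
set_option linter.style.haveILetI false
set_option linter.unusedSimpArgs false
set_option linter.unusedVariables false
set_option linter.style.longLine false
set_option linter.unnecessarySimpa false

namespace Cfsg.Agent.H17.Brd

open Cfsg Cfsg.Agent.H21 Cfsg.Agent.H22 Finset
open scoped ComplexConjugate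

universe u

/-- The subgroup of order six. -/
def S6 : Finset (ZMod 19) := {1, 7, 8, 11, 12, 18}

theorem sum_cosets_19 (F : ZMod 19 → ℤ) (hF : ∀ r ∈ S6, ∀ k : ZMod 19, k ≠ 0 → F (r * k) = F k) :
    ∑ j ∈ univ.erase (0 : ZMod 19), F j = 6 * (F 1 + F 2 + F 4) := by
  have e7 : F 7 = F 1 := by
    have h := hF 7 (by decide) 1 (by decide)
    rwa [show ((7 : ZMod 19) * 1) = 7 from by decide] at h
  have e8 : F 8 = F 1 := by
    have h := hF 8 (by decide) 1 (by decide)
    rwa [show ((8 : ZMod 19) * 1) = 8 from by decide] at h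
  have e11 : F 11 = F 1 := by
    have h := hF 11 (by decide) 1 (by decide)
    rwa [show ((11 : ZMod 19) * 1) = 11 from by decide] at h
  have e12 : F 12 = F 1 := by
    have h := hF 12 (by decide) 1 (by decide)
    rwa [show ((12 : ZMod 19) * 1) = 12 from by decide] at h
  have e18 : F 18 = F 1 := by
    have h := hF 18 (by decide) 1 (by decide)
    rwa [show ((18 : ZMod 19) * 1) = 18 from by decide] at h
  have e14 : F 14 = F 2 := by
    have h := hF 7 (by decide) 2 (by decide)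
    rwa [show ((7 : ZMod 19) * 2) = 14 from by decide] at h
  have e16 : F 16 = F 2 := by
    have h := hF 8 (by decide) 2 (by decide)
    rwa [show ((8 : ZMod 19) * 2) = 16 from by decide] at h
  have e3 : F 3 = F 2 := by
    have h := hF 11 (by decide) 2 (by decide)
    rwa [show ((11 : ZMod 19) * 2) = 3 from by decide] at h
  have e5 : F 5 = F 2 := by
    have h := hF 12 (by decide) 2 (by decide)
    rwa [show ((12 : ZMod 19) * 2) = 5 from by decide] at h
  have e17 : F 17 = F 2 := by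
    have h := hF 18 (by decide) 2 (by decide)
    rwa [show ((18 : ZMod 19) * 2) = 17 from by decide] at h
  have e9 : F 9 = F 4 := by
    have h := hF 7 (by decide) 4 (by decide)
    rwa [show ((7 : ZMod 19) * 4) = 9 from by decide] at h
  have e13 : F 13 = F 4 := by
    have h := hF 8 (by decide) 4 (by decide)
    rwa [show ((8 : ZMod 19) * 4) = 13 from by decide] at h
  have e6 : F 6 = F 4 := by
    have h := hF 11 (by decide) 4 (by decide)
    rwa [show ((11 : ZMod 19) * 4) = 6 from by decide] at h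
  have e10 : F 10 = F 4 := by
    have h := hF 12 (by decide) 4 (by decide)
    rwa [show ((12 : ZMod 19) * 4) = 10 from by decide] at h
  have e15 : F 15 = F 4 := by
    have h := hF 18 (by decide) 4 (by decide)
    rwa [show ((18 : ZMod 19) * 4) = 15 from by decide] at h
  have hset : (univ.erase (0 : ZMod 19)) = ({1,7,8,11,12,18,2,14,16,3,5,17,4,9,13,6,10,15} : Finset (ZMod 19)) := by decide
  rw [hset, sum_insert (by decide),sum_insert (by decide),sum_insert (by decide),sum_insert (by decide),sum_insert (by decide),sum_insert (by decide),sum_insert (by decide),sum_insert (by decide),sum_insert (by decide),sum_insert (by decide),sum_insert (by decide),sum_insert (by decide),sum_insert (by decide),sum_insert (by decide),sum_insert (by decide),sum_insert (by decide),sum_insert (by decide),sum_singleton, e7,e8,e11,e12,e18,e14,e16,e3,e5,e17,e9,e13,e6,e10,e15]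
  ring

theorem z19_pow6 : ∀ r : ZMod 19, r ^ 6 = 1 → r ∈ S6 := by decide
theorem z19_card : S6.card ≤ 6 := by decide
theorem z19_1 : (1 : ZMod 19) ≠ 0 := by decide
theorem z19_2 : (2 : ZMod 19) ≠ 0 := by decide
theorem z19_4 : (4 : ZMod 19) ≠ 0 := by decide
theorem z19_m1 : ∃ r ∈ S6, (1 : ZMod 19) = r * 1 := by decide
theorem z19_m2 : ∃ r ∈ S6, (2 : ZMod 19) = r * 2 := by decide
theorem z19_m4 : ∃ r ∈ S6, (4 : ZMod 19) = r * 4 := by decide
theorem z19_n12 : ¬ ∃ r ∈ S6, (2 : ZMod 19) = r * 1 := by decide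
theorem z19_n14 : ¬ ∃ r ∈ S6, (4 : ZMod 19) = r * 1 := by decide
theorem z19_n24 : ¬ ∃ r ∈ S6, (4 : ZMod 19) = r * 2 := by decide

theorem mul_inv_mem_iff {S : Finset (ZMod 19)} {j k : ZMod 19} (hj : j ≠ 0) :
    k * j⁻¹ ∈ S ↔ ∃ r ∈ S, k = r * j := by
  haveI : Fact (Nat.Prime 19) := ⟨by norm_num⟩
  constructor
  · intro h
    exact ⟨k * j⁻¹, h, by rw [inv_mul_cancel_right₀ hj]⟩
  · rintro ⟨r, hr, rfl⟩
    rwa [mul_inv_cancel_right₀ hj]

section Block

variable {G : Type u} [Group G] [Fact (Nat.Prime 19)] [Fintype G] [Fintype (IrrCharacter G)]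
  {M : Ideal AlgInt} [M.IsPrime]

theorem Rs_eq_S6 {x : G} (hx : orderOf x = 19) (he : (Rs (p := 19) x).card = 6) :
    Rs (p := 19) x = S6 := by
  have h1 : Rs (p := 19) x ⊆ S6 := by
    intro r hr
    have h2 := pow_card_Rs hx hr
    rw [he] at h2
    exact z19_pow6 r h2
  refine eq_of_subset_of_card_le h1 ?_
  rw [he]
  exact z19_card

theorem vB_mul_eq (hM : IsPModular 19 M) (P : Sylow 19 G) (hcyc : ∀ S : Sylow 19 G, IsCyclic (S : Subgroup G))
    (hPc : Nat.card (P : Subgroup G) = 19) {x : G} (hx : orderOf x = 19) {r j : ZMod 19}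
    (hr : r ∈ Rs (p := 19) x) (hj : j ≠ 0) : vB M hx (r * j) = vB M hx j := by
  have hr0 : r ≠ 0 := by
    rintro rfl
    exact zero_not_mem_Rs hx hr
  have hk : r * j ≠ 0 := mul_ne_zero hr0 hj
  have h1 := ip_vB hM P hcyc hPc hx hj hk
  have h2 := ip_vB hM P hcyc hPc hx hj hj
  have h3 := ip_vB hM P hcyc hPc hx hk hk
  rw [mul_inv_cancel_right₀ hj, if_pos hr] at h1
  rw [mul_inv_cancel₀ hj, if_pos (one_mem_Rs x)] at h2
  rw [mul_inv_cancel₀ hk, if_pos (one_mem_Rs x)] at h3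
  have h4 : ip (vB M hx (r * j) - vB M hx j) (vB M hx (r * j) - vB M hx j) = 0 := by
    rw [ip_sub_left, ip_sub_right, ip_sub_right, h2, h3, ip_comm (vB M hx (r * j)) (vB M hx j), h1]
    ring
  exact sub_eq_zero.1 (eq_zero_of_ip_self _ h4)

/-- The structure of the three vectors for `p = 19`, `e = 6`. -/
theorem rel_e6 (hM : IsPModular 19 M) (P : Sylow 19 G) (hcyc : ∀ S : Sylow 19 G, IsCyclic (S : Subgroup G))
    (hPc : Nat.card (P : Subgroup G) = 19) {x : G} (hx : orderOf x = 19)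
    (he : (Rs (p := 19) x).card = 6) :
    ∃ (w : IrrCharacter G → ℤ) (δ σ y : ℤ) (a₁ a₂ a₃ : IrrCharacter G), (δ = 1 ∨ δ = -1) ∧
      a₁ ≠ a₂ ∧ a₁ ≠ a₃ ∧ a₂ ≠ a₃ ∧ a₁ ≠ oo ∧ a₂ ≠ oo ∧ a₃ ≠ oo ∧
      a₁ ∈ principalBlock M G ∧ a₂ ∈ principalBlock M G ∧ a₃ ∈ principalBlock M G ∧
      w oo = -1 ∧ dd a₁ = y ∧ dd a₂ = y ∧ dd a₃ = y ∧
      w a₁ = δ * σ ∧ w a₂ = δ * σ ∧ w a₃ = δ * σ ∧
      ip w w = 6 - 2 * σ ∧ ip w dd = -(δ * y) ∧
      (∀ χ, χ ≠ a₁ → χ ≠ a₂ → χ ≠ a₃ → w χ ≠ 0 → χ ∈ principalBlock M G ∧ dd χ ≡ - w χ [ZMOD 19]) ∧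
      y ≡ δ * (6 - σ) [ZMOD 19] := by
  classical
  have hRs := Rs_eq_S6 hx he
  have h1ne : (1 : ZMod 19) ≠ 0 := z19_1
  have h2ne : (2 : ZMod 19) ≠ 0 := z19_2
  have h4ne : (4 : ZMod 19) ≠ 0 := z19_4
  have hip : ∀ {j k : ZMod 19}, j ≠ 0 → k ≠ 0 → ip (vB M hx j) (vB M hx k) = 6 + if k * j⁻¹ ∈ S6 then 1 else 0 := by
    intro j k hj hk
    rw [ip_vB hM P hcyc hPc hx hj hk, he, hRs]
    rfl
  have h11 : ip (vB M hx 1) (vB M hx 1) = 6 + 1 := by
    rw [hip h1ne h1ne, if_pos ((mul_inv_mem_iff h1ne).2 z19_m1)]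
  have h22 : ip (vB M hx 2) (vB M hx 2) = 6 + 1 := by
    rw [hip h2ne h2ne, if_pos ((mul_inv_mem_iff h2ne).2 z19_m2)]
  have h33 : ip (vB M hx 4) (vB M hx 4) = 6 + 1 := by
    rw [hip h4ne h4ne, if_pos ((mul_inv_mem_iff h4ne).2 z19_m4)]
  have h12 : ip (vB M hx 1) (vB M hx 2) = 6 := by
    rw [hip h1ne h2ne, if_neg (fun h => z19_n12 ((mul_inv_mem_iff h1ne).1 h))]
    rfl
  have h13 : ip (vB M hx 1) (vB M hx 4) = 6 := by
    rw [hip h1ne h4ne, if_neg (fun h => z19_n14 ((mul_inv_mem_iff h1ne).1 h))]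
    rfl
  have h23 : ip (vB M hx 2) (vB M hx 4) = 6 := by
    rw [hip h2ne h4ne, if_neg (fun h => z19_n24 ((mul_inv_mem_iff h2ne).1 h))]
    rfl
  obtain ⟨w, δ, a₁, a₂, a₃, hδ, h12', h13', h23', hu1, hu2, hu3⟩ := BrK.three_abs (vB M hx 1) (vB M hx 2) (vB M hx 4) 6
    h11 h22 h33 h12 h13 h23 dd dd_pos (ip_vB_dd hM hx 1) (ip_vB_dd hM hx 2) (ip_vB_dd hM hx 4)
  have hδ2 : δ * δ = 1 := by
    rcases hδ with rfl | rfl <;> norm_num
  have hδ0 : δ ≠ 0 := by
    rcases hδ with rfl | rfl <;> norm_num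
  have hv1 : ∀ χ, vB M hx 1 χ = w χ + δ * if χ = a₁ then 1 else 0 := by
    intro χ
    rw [hu1]
    simp [Pi.single_apply]
  have hv2 : ∀ χ, vB M hx 2 χ = w χ + δ * if χ = a₂ then 1 else 0 := by
    intro χ
    rw [hu2]
    simp [Pi.single_apply]
  have hv3 : ∀ χ, vB M hx 4 χ = w χ + δ * if χ = a₃ then 1 else 0 := by
    intro χ
    rw [hu3]
    simp [Pi.single_apply]
  -- the principal character
  have hoo1 := vB_oo (M := M) hx h1ne
  have hoo2 := vB_oo (M := M) hx h2ne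
  have hoo3 := vB_oo (M := M) hx h4ne
  rw [hv1] at hoo1
  rw [hv2] at hoo2
  rw [hv3] at hoo3
  have ha1o : a₁ ≠ oo := by
    intro h
    rw [← h] at hoo1 hoo2
    rw [if_pos rfl] at hoo1
    rw [if_neg h12'] at hoo2
    apply hδ0
    linarith
  have ha2o : a₂ ≠ oo := by
    intro h
    rw [← h] at hoo1 hoo2
    rw [if_pos rfl] at hoo2
    rw [if_neg (Ne.symm h12')] at hoo1
    apply hδ0
    linarith
  have ha3o : a₃ ≠ oo := by
    intro h
    rw [← h] at hoo1 hoo3
    rw [if_pos rfl] at hoo3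
    rw [if_neg (Ne.symm h13')] at hoo1
    apply hδ0
    linarith
  have hwo : w oo = -1 := by
    rw [if_neg (Ne.symm ha1o)] at hoo1
    linarith
  -- inner products with the degrees
  have hd1 : ip w dd + δ * dd a₁ = 0 := by
    have h1 := ip_vB_dd hM hx (1 : ZMod 19)
    rw [hu1, ip_add_left, BrK.ip_smul_single_left'] at h1
    exact h1
  have hd2 : ip w dd + δ * dd a₂ = 0 := by
    have h1 := ip_vB_dd hM hx (2 : ZMod 19)
    rw [hu2, ip_add_left, BrK.ip_smul_single_left'] at h1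
    exact h1
  have hd3 : ip w dd + δ * dd a₃ = 0 := by
    have h1 := ip_vB_dd hM hx (4 : ZMod 19)
    rw [hu3, ip_add_left, BrK.ip_smul_single_left'] at h1
    exact h1
  have hy2 : dd a₂ = dd a₁ := by
    have h1 : δ * dd a₂ = δ * dd a₁ := by linarith
    exact mul_left_cancel₀ hδ0 h1
  have hy3 : dd a₃ = dd a₁ := by
    have h1 : δ * dd a₃ = δ * dd a₁ := by linarith
    exact mul_left_cancel₀ hδ0 h1
  -- norms
  have hsingle : ∀ a : IrrCharacter G, ip (δ • Pi.single a (1 : ℤ)) (δ • Pi.single a (1 : ℤ)) = 1 := by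
    intro a
    rw [BrK.ip_smul_single_left']
    simp [hδ2]
  have hn : ∀ a : IrrCharacter G, ∀ u : IrrCharacter G → ℤ, u = w + δ • Pi.single a 1 → ip u u = 6 + 1 →
      ip w w + 2 * (δ * w a) = 6 := by
    intro a u hu h
    rw [hu, ip_add_left, ip_add_right, ip_add_right, hsingle, BrK.ip_smul_single_left',
      ip_comm w (δ • Pi.single a 1), BrK.ip_smul_single_left'] at h
    have h3 : (δ • Pi.single a (1 : ℤ) : IrrCharacter G → ℤ) a = δ := by simp
    linarith
  have hn1 := hn a₁ _ hu1 h11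
  have hn2 := hn a₂ _ hu2 h22
  have hn3 := hn a₃ _ hu3 h33
  refine ⟨w, δ, δ * w a₁, dd a₁, a₁, a₂, a₃, hδ, h12', h13', h23', ha1o, ha2o, ha3o, ?_, ?_, ?_, hwo, rfl, hy2, hy3, ?_, ?_, ?_, ?_, ?_, ?_, ?_⟩
  · -- `a₁` in the block
    by_contra hn0
    have h3 := vB_of_not_mem (M := M) hx (1 : ZMod 19) hn0
    have h4 := vB_of_not_mem (M := M) hx (2 : ZMod 19) hn0
    rw [hv1, if_pos rfl] at h3
    rw [hv2, if_neg h12'] at h4
    apply hδ0
    linarith
  · by_contra hn0
    have h3 := vB_of_not_mem (M := M) hx (1 : ZMod 19) hn0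
    have h4 := vB_of_not_mem (M := M) hx (2 : ZMod 19) hn0
    rw [hv1, if_neg (Ne.symm h12')] at h3
    rw [hv2, if_pos rfl] at h4
    apply hδ0
    linarith
  · by_contra hn0
    have h3 := vB_of_not_mem (M := M) hx (1 : ZMod 19) hn0
    have h4 := vB_of_not_mem (M := M) hx (4 : ZMod 19) hn0
    rw [hv1, if_neg (Ne.symm h13')] at h3
    rw [hv3, if_pos rfl] at h4
    apply hδ0
    linarith
  · rw [← mul_assoc, hδ2, one_mul]
  · rw [← mul_assoc, hδ2, one_mul]
    have h1 : δ * w a₂ = δ * w a₁ := by linarith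
    exact mul_left_cancel₀ hδ0 h1
  · rw [← mul_assoc, hδ2, one_mul]
    have h1 : δ * w a₃ = δ * w a₁ := by linarith
    exact mul_left_cancel₀ hδ0 h1
  · linarith
  · linarith
  · -- the congruences off the exceptional characters
    intro χ h1 h2 h3 hχ
    have h5 : vB M hx 1 χ = w χ := by
      rw [hv1, if_neg h1]
      ring
    have h6 : vB M hx 2 χ = w χ := by
      rw [hv2, if_neg h2]
      ring
    have h7 : vB M hx 4 χ = w χ := by
      rw [hv3, if_neg h3]
      ring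
    have hmem : χ ∈ principalBlock M G := by
      by_contra hn0
      have h8 := vB_of_not_mem (M := M) hx (1 : ZMod 19) hn0
      rw [h5] at h8
      exact hχ h8
    refine ⟨hmem, ?_⟩
    obtain ⟨m, hm⟩ := vB_dd_eq (M := M) hx χ ⟨1, h1ne, by rw [h5]; exact hχ⟩
    rw [sum_cosets_19 (fun j => vB M hx j χ) (fun r hr k hk => by
      rw [← hRs] at hr
      rw [vB_mul_eq hM P hcyc hPc hx hr hk]), h5, h6, h7] at hm
    rw [Int.modEq_iff_dvd, hm]
    refine ⟨-m - w χ, ?_⟩
    push_cast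
    ring
  · -- the congruence for `a₁`
    have hmem : a₁ ∈ principalBlock M G := by
      by_contra hn0
      have h3 := vB_of_not_mem (M := M) hx (1 : ZMod 19) hn0
      have h4 := vB_of_not_mem (M := M) hx (2 : ZMod 19) hn0
      rw [hv1, if_pos rfl] at h3
      rw [hv2, if_neg h12'] at h4
      apply hδ0
      linarith
    have h5 : vB M hx 1 a₁ = w a₁ + δ := by
      rw [hv1, if_pos rfl]
      ring
    have h6 : vB M hx 2 a₁ = w a₁ := by
      rw [hv2, if_neg h12']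
      ring
    have h7 : vB M hx 4 a₁ = w a₁ := by
      rw [hv3, if_neg h13']
      ring
    have hne : vB M hx 1 a₁ ≠ 0 ∨ vB M hx 2 a₁ ≠ 0 := by
      by_contra hcon
      push Not at hcon
      apply hδ0
      rw [h5, h6] at hcon
      linarith [hcon.1, hcon.2]
    have hex : ∃ j : ZMod 19, j ≠ 0 ∧ vB M hx j a₁ ≠ 0 := by
      rcases hne with h | h
      · exact ⟨1, h1ne, h⟩
      · exact ⟨2, h2ne, h⟩
    obtain ⟨m, hm⟩ := vB_dd_eq (M := M) hx a₁ hex
    rw [sum_cosets_19 (fun j => vB M hx j a₁) (fun r hr k hk => by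
      rw [← hRs] at hr
      rw [vB_mul_eq hM P hcyc hPc hx hr hk]), h5, h6, h7] at hm
    rw [Int.modEq_iff_dvd, hm]
    refine ⟨-m - w a₁ * δ * δ, ?_⟩
    have : w a₁ * (δ * δ) = w a₁ := by rw [hδ2, mul_one]
    push_cast
    nlinarith

end Block

end Cfsg.Agent.H17.Brd
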