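import Cfsg.Agent.Lib.H17.BrK4
import Cfsg.Agent.Lib.H17.Brd6

/-! # A lower bound for the centralizer of an involution in a simple group of order 459648 -/

set_option autoImplicit false
set_option linter.unusedSectionVars false
set_option linter.style.haveILetI false
set_option linter.unusedSimpArgs false
set_option linter.unusedVariables false
set_option linter.style.longLine false

namespace Cfsg.Agent.H17.Brd

open Cfsg Cfsg.Agent.H21 Cfsg.Agent.H22 Finset

universe u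

/-- The square of the distance from `d` to the nearest multiple of `38`. -/
def mu38 (d : ℤ) : ℤ := (min (d % 38) (38 - d % 38)) ^ 2

theorem mu38_le (d n : ℤ) : mu38 d ≤ (d - 38 * n) ^ 2 := by
  unfold mu38
  have hr0 : 0 ≤ d % 38 := Int.emod_nonneg _ (by norm_num)
  have hr1 : d % 38 < 38 := Int.emod_lt_of_pos _ (by norm_num)
  have hd : d = 38 * (d / 38) + d % 38 := (Int.mul_ediv_add_emod d 38).symm
  set r := d % 38
  set q := d / 38
  have hA0 : 0 ≤ min r (38 - r) := le_min hr0 (by omega)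
  have hle1 : min r (38 - r) ≤ r := min_le_left _ _
  have hle2 : min r (38 - r) ≤ 38 - r := min_le_right _ _
  have e : d - 38 * n = r + 38 * (q - n) := by rw [hd]; ring
  rw [e]
  by_cases hm : 0 ≤ q - n
  · have h1 : min r (38 - r) ≤ r + 38 * (q - n) := by omega
    exact pow_le_pow_left₀ hA0 h1 2
  · have h1 : min r (38 - r) ≤ -(r + 38 * (q - n)) := by omega
    have h2 := pow_le_pow_left₀ hA0 h1 2
    rwa [neg_sq] at h2

/-- The possible pairs `(w, d)`. -/
def T19 : List (ℤ × ℤ) :=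
  [(-2, 21), (2, 36), (1, 56), (-1, 96), (2, 112), (1, 189), (-2, 192), (2, 378), (-1, 1008), (1, 1728),
    (-2, 2016), (2, 3456)]

/-- One more step of accumulation. -/
def stepT19 (R : List (ℤ × ℤ × ℤ)) : List (ℤ × ℤ × ℤ) :=
  R.flatMap fun r => (T19.filter fun t => r.1 + t.1 * t.1 ≤ 5).map fun t =>
    (r.1 + t.1 * t.1, r.2.1 + t.1 * t.2, r.2.2 + mu38 t.2)

/-- Accumulated triples. -/
def Rc19 : ℕ → List (ℤ × ℤ × ℤ)
  | 0 => [(0, 0, 0)]
  | n + 1 => stepT19 (Rc19 n)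

theorem Rc19_mem {I : Type*} [DecidableEq I] (W : Finset I) (w d : I → ℤ) (hT : ∀ χ ∈ W, (w χ, d χ) ∈ T19)
    (hN : ∑ χ ∈ W, w χ * w χ ≤ 5) :
    (∑ χ ∈ W, w χ * w χ, ∑ χ ∈ W, w χ * d χ, ∑ χ ∈ W, mu38 (d χ)) ∈ Rc19 W.card := by
  induction W using Finset.induction_on with
  | empty => simp [Rc19]
  | insert a s ha ih =>
    rw [sum_insert ha] at hN
    have hs : ∑ χ ∈ s, w χ * w χ ≤ 5 := by
      have := mul_self_nonneg (w a)
      omega
    have h1 := ih (fun χ hχ => hT χ (mem_insert_of_mem hχ)) hs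
    rw [card_insert_of_notMem ha, sum_insert ha, sum_insert ha, sum_insert ha]
    show _ ∈ stepT19 (Rc19 s.card)
    unfold stepT19
    refine List.mem_flatMap.2 ⟨_, h1, List.mem_map.2 ⟨(w a, d a), List.mem_filter.2 ⟨hT a (mem_insert_self _ _), ?_⟩, ?_⟩⟩
    · simp only [decide_eq_true_eq]
      omega
    · simp only
      ext
      · simp only; ring
      · simp only; ring
      · simp only; ring

/-- The divisors of `24192` of size at least `19`. -/
def Y19 : List ℤ :=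
  [21, 24, 27, 28, 32, 36, 42, 48, 54, 56, 63, 64, 72, 84, 96, 108, 112, 126, 128, 144, 168, 189, 192, 216, 224, 252, 288, 336, 378, 384, 432, 448, 504, 576, 672, 756, 864, 896, 1008, 1152, 1344, 1512, 1728, 2016, 2688, 3024, 3456, 4032, 6048, 8064, 12096, 24192]

theorem mem_Y19 : ∀ d ∈ Nat.divisors 24192, 19 ≤ d → (d : ℤ) ∈ Y19 := by decide +kernel

theorem mem_T19 : ∀ d ∈ Nat.divisors 24192, 19 ≤ d → ∀ w ∈ [(-2 : ℤ), -1, 1, 2], ((d : ℤ) + w) % 19 = 0 →
    (w, (d : ℤ)) ∈ T19 := by decide +kernel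

set_option maxRecDepth 100000 in
theorem check_e6 : ∀ y ∈ Y19, ∀ δ ∈ [(1 : ℤ), -1], ∀ σ ∈ [(-1 : ℤ), 0, 1], (y - δ * (6 - σ)) % 19 = 0 →
    ∀ n ∈ List.range 6, ∀ r ∈ Rc19 n, r.1 = 5 - 2 * σ - 3 * (σ * σ) → -1 + δ * (3 * σ + 1) * y + r.2.1 = 0 →
      456 < r.2.2 + 1 + 3 * mu38 y := by decide +kernel

section Block

variable {G : Type u} [Group G] [Fact (Nat.Prime 19)] [Fintype G] [Fintype (IrrCharacter G)]
  {M : Ideal AlgInt} [M.IsPrime]

/-- Splitting a sum over four distinct points. -/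
theorem sum_split4 {I : Type*} [Fintype I] [DecidableEq I] {A : Type*} [AddCommMonoid A] (o a b c : I)
    (hao : a ≠ o) (hbo : b ≠ o) (hco : c ≠ o) (hab : a ≠ b) (hac : a ≠ c) (hbc : b ≠ c) (F : I → A) :
    ∑ i, F i = F o + (F a + (F b + (F c + ∑ i ∈ (((univ.erase o).erase a).erase b).erase c, F i))) := by
  rw [add_sum_erase _ F (mem_erase.2 ⟨hbc.symm, mem_erase.2 ⟨hac.symm, mem_erase.2 ⟨hco, mem_univ _⟩⟩⟩),
    add_sum_erase _ F (mem_erase.2 ⟨hab.symm, mem_erase.2 ⟨hbo, mem_univ _⟩⟩),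
    add_sum_erase _ F (mem_erase.2 ⟨hao, mem_univ _⟩),
    add_sum_erase _ F (mem_univ _)]

theorem dd_oo : dd (oo : IrrCharacter G) = 1 := by
  have h1 := one_eq_charDegree (isCharacter_of_irr (oo : IrrCharacter G).2)
  have h2 : (charDegree (oo : IrrCharacter G).1 : ℂ) = 1 := by
    rw [← h1]
    rfl
  simp only [dd]
  exact_mod_cast h2

theorem dd_dvd [Finite G] (χ : IrrCharacter G) {a : ℤ} (hG : Nat.card G = 19 * 24192) (hcong : dd χ ≡ a [ZMOD 19])
    (ha : ¬ (19 : ℤ) ∣ a) : (dd χ).toNat ∈ Nat.divisors 24192 ∧ ((dd χ).toNat : ℤ) = dd χ := by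
  have h1 := charDegree_dvd_card χ
  rw [hG] at h1
  have h2 := dvd_of_cong (p := 19) (m := 24192) (d := charDegree χ.1) (by norm_num) h1 (a := a) (by simpa [dd] using hcong) (by simpa using ha)
  have h3 : (dd χ).toNat = charDegree χ.1 := by simp [dd]
  rw [h3]
  exact ⟨Nat.mem_divisors.2 ⟨h2, by norm_num⟩, by simp [dd]⟩

/-- The centralizer of an involution commuting with `x` is large, when `e = 6`. -/
theorem big_centralizer [hS : IsSimpleGroup G] (hG : Nat.card G = 19 * 24192) (hM : IsPModular 19 M) (P : Sylow 19 G)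
    (hcyc : ∀ S : Sylow 19 G, IsCyclic (S : Subgroup G))
    (hPc : Nat.card (P : Subgroup G) = 19) {x : G} (hx : orderOf x = 19)
    (he : (Rs (p := 19) x).card = 6) {y₀ : G} (hy : orderOf y₀ = 2) (hc : Commute x y₀) :
    456 < Nat.card (Subgroup.centralizer ({y₀} : Set G)) := by
  classical
  obtain ⟨w, δ, σ, y, a₁, a₂, a₃, hδ, h12, h13, h23, ha1o, ha2o, ha3o, hm1, hm2, hm3, hwo, hd1, hd2, hd3,
    hw1, hw2, hw3, hww, hwd, hcong, hyc⟩ := rel_e6 hM P hcyc hPc hx he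
  have hδ2 : δ * δ = 1 := by
    rcases hδ with rfl | rfl <;> norm_num
  set E := (((univ.erase (oo : IrrCharacter G)).erase a₁).erase a₂).erase a₃ with hE
  set W := E.filter fun χ => w χ ≠ 0 with hW
  have hmemW : ∀ {χ}, χ ∈ W → χ ≠ oo ∧ χ ≠ a₁ ∧ χ ≠ a₂ ∧ χ ≠ a₃ ∧ w χ ≠ 0 := by
    intro χ hχ
    have h1 := mem_filter.1 hχ
    have h2 := mem_erase.1 h1.1
    have h3 := mem_erase.1 h2.2
    have h4 := mem_erase.1 h3.2
    have h5 := mem_erase.1 h4.2
    exact ⟨h5.1, h4.1, h3.1, h2.1, h1.2⟩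
  set N := ∑ χ ∈ W, w χ * w χ with hN
  set L := ∑ χ ∈ W, w χ * dd χ with hL
  set b := ∑ χ ∈ W, mu38 (dd χ) with hb
  have hNE : ∑ χ ∈ E, w χ * w χ = N := by
    rw [hN, hW, sum_filter_of_ne]
    intro χ _ h1 h2
    exact h1 (by rw [h2, mul_zero])
  have hLE : ∑ χ ∈ E, w χ * dd χ = L := by
    rw [hL, hW, sum_filter_of_ne]
    intro χ _ h1 h2
    exact h1 (by rw [h2, zero_mul])
  have h1N : (1 : ℤ) + 3 * (σ * σ) + N = 6 - 2 * σ := by
    have h1 : ip w w = _ := sum_split4 oo a₁ a₂ a₃ ha1o ha2o ha3o h12 h13 h23 (fun χ => w χ * w χ)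
    rw [hww, hNE, hwo, hw1, hw2, hw3] at h1
    have h2 : δ * σ * (δ * σ) = σ * σ := by
      calc δ * σ * (δ * σ) = (δ * δ) * (σ * σ) := by ring
        _ = σ * σ := by rw [hδ2, one_mul]
    rw [h2] at h1
    linarith
  have h1L : -1 + δ * (3 * σ + 1) * y + L = 0 := by
    have h1 : ip w dd = _ := sum_split4 oo a₁ a₂ a₃ ha1o ha2o ha3o h12 h13 h23 (fun χ => w χ * dd χ)
    rw [hwd, hLE, hwo, hw1, hw2, hw3, hd1, hd2, hd3, dd_oo] at h1
    linarith
  have hN0 : 0 ≤ N := sum_nonneg fun χ _ => mul_self_nonneg _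
  have hσ : σ = -1 ∨ σ = 0 ∨ σ = 1 := by
    have h3 : σ < 2 := by nlinarith
    have h4 : -2 < σ := by nlinarith
    omega
  have hN5 : N ≤ 5 := by
    rcases hσ with rfl | rfl | rfl <;> omega
  -- the cardinality of `W`
  have hcardW : W.card ≤ 5 := by
    have h1 : (W.card : ℤ) ≤ N := by
      rw [hN, card_eq_sum_ones]
      push_cast
      refine sum_le_sum fun χ hχ => ?_
      have h2 := (hmemW hχ).2.2.2.2
      have h3 : 0 < w χ * w χ := mul_self_pos.2 h2
      omega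
    omega
  have hmemb : ∀ {χ}, χ ∈ W → χ ∈ principalBlock M G ∧ dd χ ≡ - w χ [ZMOD 19] := by
    intro χ hχ
    obtain ⟨-, h2, h3, h4, h5⟩ := hmemW hχ
    exact hcong χ h2 h3 h4 h5
  -- the pairs are in the list
  have hT : ∀ χ ∈ W, (w χ, dd χ) ∈ T19 := by
    intro χ hχ
    obtain ⟨h1, h2, h3, h4, h5⟩ := hmemW hχ
    obtain ⟨h6, h7⟩ := hmemb hχ
    obtain ⟨n, -, -, h8⟩ := two_val2 hM P hcyc hx hy hc h6 h1
    have h9 : w χ * w χ ≤ N := by
      rw [hN]
      exact single_le_sum (f := fun χ => w χ * w χ) (fun i _ => mul_self_nonneg _) hχ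
    have h10 : w χ = -2 ∨ w χ = -1 ∨ w χ = 1 ∨ w χ = 2 := by
      have h11 : w χ < 3 := by nlinarith
      have h12 : -3 < w χ := by nlinarith
      omega
    have h13 : ¬ (19 : ℤ) ∣ - w χ := by
      rcases h10 with h | h | h | h <;> rw [h] <;> norm_num
    obtain ⟨h14, h15⟩ := dd_dvd χ hG h7 h13
    have h16 : 19 ≤ (dd χ).toNat := by omega
    have h17 := mem_T19 _ h14 h16 (w χ) (by
      rcases h10 with h | h | h | h <;> rw [h] <;> simp) (by
      rw [h15]
      have := Int.emod_emod_of_dvd (dd χ + w χ) (dvd_refl (19 : ℤ))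
      have h18 := h7.symm.dvd
      have h19 : (19 : ℤ) ∣ dd χ + w χ := by
        have h20 : dd χ - (- w χ) = dd χ + w χ := by ring
        rw [← h20]
        exact h18
      exact Int.emod_eq_zero_of_dvd h19)
    rwa [h15] at h17
  have hR := Rc19_mem W w dd hT hN5
  -- the exceptional degree
  have hyd : y ∈ Y19 := by
    have h13 : ¬ (19 : ℤ) ∣ δ * (6 - σ) := by
      rcases hδ with rfl | rfl <;> rcases hσ with rfl | rfl | rfl <;> norm_num
    have h14 := hd1 ▸ hyc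
    obtain ⟨h15, h16⟩ := dd_dvd a₁ hG h14 h13
    obtain ⟨n, -, -, h8⟩ := two_val2 hM P hcyc hx hy hc hm1 ha1o
    have h17 := mem_Y19 _ h15 (by omega)
    rwa [h16, hd1] at h17
  have hyc' : (y - δ * (6 - σ)) % 19 = 0 := by
    have h18 := hyc.symm.dvd
    exact Int.emod_eq_zero_of_dvd h18
  have hcheck := check_e6 y hyd δ (by
    rcases hδ with rfl | rfl <;> simp) σ (by
    rcases hσ with rfl | rfl | rfl <;> simp) hyc' W.card (List.mem_range.2 (by omega)) _ hR (by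
      simp only
      linarith) h1L
  have hcheck' : 456 < b + 1 + 3 * mu38 y := hcheck
  -- the column sum
  have hcol := col_normSq (G := G) y₀
  have hsplit := sum_split4 oo a₁ a₂ a₃ ha1o ha2o ha3o h12 h13 h23 (fun χ : IrrCharacter G => Complex.normSq (χ.1 y₀))
  rw [hcol] at hsplit
  have hoo : Complex.normSq ((oo : IrrCharacter G).1 y₀) = 1 := by
    show Complex.normSq 1 = 1
    exact Complex.normSq_one
  have hlow : ∀ χ : IrrCharacter G, χ ∈ principalBlock M G → χ ≠ oo → ((mu38 (dd χ) : ℤ) : ℝ) ≤ Complex.normSq (χ.1 y₀) := by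
    intro χ h1 h2
    obtain ⟨n, -, h3, -⟩ := two_val2 hM P hcyc hx hy hc h1 h2
    rw [h3, Complex.normSq_intCast]
    have h4 := mu38_le (dd χ) n
    have h5 : ((mu38 (dd χ) : ℤ) : ℝ) ≤ (((dd χ - 38 * n) ^ 2 : ℤ) : ℝ) := by exact_mod_cast h4
    rw [Int.cast_pow] at h5
    rw [← pow_two]
    exact h5
  have hE1 : (b : ℝ) ≤ ∑ χ ∈ E, Complex.normSq (χ.1 y₀) := by
    have h1 : (b : ℝ) = ∑ χ ∈ W, ((mu38 (dd χ) : ℤ) : ℝ) := by
      rw [hb]
      push_cast
      rfl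
    rw [h1]
    calc ∑ χ ∈ W, ((mu38 (dd χ) : ℤ) : ℝ) ≤ ∑ χ ∈ W, Complex.normSq (χ.1 y₀) :=
          sum_le_sum fun χ hχ => hlow χ (hmemb hχ).1 (hmemW hχ).1
      _ ≤ ∑ χ ∈ E, Complex.normSq (χ.1 y₀) :=
          sum_le_sum_of_subset_of_nonneg (filter_subset _ _) fun i _ _ => Complex.normSq_nonneg _
  have h1' := hlow a₁ hm1 ha1o
  have h2' := hlow a₂ hm2 ha2o
  have h3' := hlow a₃ hm3 ha3o
  rw [hd1] at h1'
  rw [hd2] at h2'
  rw [hd3] at h3'
  have hfinal : (456 : ℝ) < (Nat.card (Subgroup.centralizer ({y₀} : Set G)) : ℝ) := by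
    have hc2 : ((456 : ℤ) : ℝ) < ((b + 1 + 3 * mu38 y : ℤ) : ℝ) := by exact_mod_cast hcheck'
    push_cast at hc2
    rw [hsplit, hoo]
    linarith
  exact_mod_cast hfinal

end Block

end Cfsg.Agent.H17.Brd
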