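import Cfsg.Agent.Lib.H17.BrK5

/-! # A simple group of order 459648 has no involution with a large centralizer commuting with `x` -/

set_option autoImplicit false
set_option linter.unusedSectionVars false
set_option linter.style.haveILetI false
set_option linter.unusedSimpArgs false
set_option linter.unusedVariables false
set_option linter.style.longLine false

namespace Cfsg.Agent.H17.Brd

open Cfsg Cfsg.Agent.H21 Cfsg.Agent.H22

universe u

variable {G : Type u} [Group G] [Finite G]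

/-- Fixed point counting for conjugation by an element of order `19`. -/
theorem conj_ncard_modEq [Fact (Nat.Prime 19)] {x : G} (hx : x ^ 19 = 1) {A : Set G}
    (hA : ∀ u ∈ A, x * u * x⁻¹ ∈ A) :
    A.ncard ≡ {u ∈ A | x * u * x⁻¹ = u}.ncard [MOD 19] := by
  classical
  haveI : Fintype A := Fintype.ofFinite _
  let f : Function.End A := fun u => ⟨x * u.1 * x⁻¹, hA u.1 u.2⟩
  have hpow : ∀ (k : ℕ) (u : A), ((f ^ k) u).1 = x ^ k * u.1 * (x ^ k)⁻¹ := by
    intro k u
    induction k with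
    | zero =>
      show (u : G) = x ^ 0 * u * (x ^ 0)⁻¹
      simp
    | succ k ih =>
      rw [pow_succ']
      show x * ((f ^ k) u).1 * x⁻¹ = _
      rw [ih, pow_succ']
      group
  have hf : f ^ 19 ^ 1 = 1 := by
    funext u
    apply Subtype.ext
    rw [pow_one, hpow, hx]
    show _ = (u : G)
    simp
  have h := Equiv.Perm.card_fixedPoints_modEq (p := 19) (n := 1) hf
  have h1 : Fintype.card A = A.ncard := by
    rw [← Nat.card_eq_fintype_card, Nat.card_coe_set_eq]
  have h2 : ∀ inst : Fintype (Function.fixedPoints f), @Fintype.card _ inst = {u ∈ A | x * u * x⁻¹ = u}.ncard := by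
    intro inst
    rw [← Nat.card_eq_fintype_card, ← Nat.card_coe_set_eq]
    refine Nat.card_congr ⟨fun u => ⟨u.1.1, u.1.2, congrArg Subtype.val u.2⟩,
      fun u => ⟨⟨u.1, u.2.1⟩, Subtype.ext u.2.2⟩, ?_, ?_⟩
    · intro u
      rfl
    · intro u
      rfl
  rw [h1] at h
  exact h.trans (congrArg (· % 19) (h2 _))

theorem mem_normalizer_of_conj {x g : G} (hg : g * x * g⁻¹ ∈ Subgroup.zpowers x) :
    g ∈ Subgroup.normalizer ((Subgroup.zpowers x : Subgroup G) : Set G) := by
  have hgz : Subgroup.zpowers (g * x * g⁻¹) ≤ Subgroup.zpowers x :=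
    Subgroup.zpowers_le.2 hg
  have hcard : Nat.card (Subgroup.zpowers (g * x * g⁻¹)) = Nat.card (Subgroup.zpowers x) := by
    rw [Nat.card_zpowers, Nat.card_zpowers]
    have : g * x * g⁻¹ = MulAut.conj g x := rfl
    rw [this, MulEquiv.orderOf_eq]
  have heq := Subgroup.eq_of_le_of_card_ge hgz hcard.ge
  rw [Subgroup.mem_normalizer_iff]
  intro y
  constructor
  · intro hy
    obtain ⟨k, rfl⟩ := Subgroup.mem_zpowers_iff.1 hy
    have : g * x ^ k * g⁻¹ = (g * x * g⁻¹) ^ k := by
      rw [conj_zpow]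
    rw [this]
    exact Subgroup.zpow_mem _ hg k
  · intro hy
    rw [← heq] at hy
    obtain ⟨k, hk⟩ := Subgroup.mem_zpowers_iff.1 hy
    have h2 : g * x ^ k * g⁻¹ = g * y * g⁻¹ := by
      rw [← hk, conj_zpow]
    have h3 : x ^ k = y := mul_left_cancel (mul_right_cancel h2)
    rw [← h3]
    exact Subgroup.zpow_mem _ (Subgroup.mem_zpowers x) k

/-- Numerics for the index. -/
theorem idx_cases : ∀ i ∈ Nat.divisors 24192, 20 ≤ i → i < 1008 → (i % 19 = 1 ∨ i % 19 = 2 ∨ i % 19 = 3) →
    i = 21 ∨ (i * (24192 / i) = 24192 ∧ ∀ n ∈ Nat.divisors (24192 / i), n % 19 = 1 → n = 1) := by decide +kernel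

/-- If the Sylow `19`-subgroups of the centralizer are unique then it is small. -/
theorem card_le_of_unique_sylow [Fact (Nat.Prime 19)] {x : G} (hx : orderOf x = 19) {D : Subgroup G} (hxD : x ∈ D)
    {m : ℕ} (hD : Nat.card D = 19 * m) (hm : ¬ 19 ∣ m) (hn : ∀ n ∈ Nat.divisors m, n % 19 = 1 → n = 1)
    (hmpos : m ≠ 0) :
    D ≤ Subgroup.normalizer ((Subgroup.zpowers x : Subgroup G) : Set G) := by
  classical
  obtain ⟨Q⟩ : Nonempty (Sylow 19 D) := inferInstance
  have hQc : Nat.card Q = 19 := Cfsg.Agent.H17.Mob.card_sylow_eq m hD hm Q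
  have h1 : Nat.card (Sylow 19 D) ∣ m := by
    have h1 := Sylow.card_dvd_index Q
    have h2 := (Q : Subgroup D).card_mul_index
    rw [hQc, hD] at h2
    have h3 : (Q : Subgroup D).index = m := Nat.eq_of_mul_eq_mul_left (by norm_num) h2
    rwa [h3] at h1
  have h2 : Nat.card (Sylow 19 D) % 19 = 1 := by
    have h1 := card_sylow_modEq_one 19 D
    rwa [Nat.ModEq] at h1
  have h3 : Nat.card (Sylow 19 D) = 1 := hn _ (Nat.mem_divisors.2 ⟨h1, hmpos⟩) h2
  haveI : Subsingleton (Sylow 19 D) := (Nat.card_eq_one_iff_unique.mp h3).1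
  have hQn : (Q : Subgroup D).Normal := Sylow.normal_of_subsingleton Q
  set x' : D := ⟨x, hxD⟩ with hx'
  have hx'o : orderOf x' = 19 := by
    rw [hx', Subgroup.orderOf_mk, hx]
  have hpg : IsPGroup 19 (Subgroup.zpowers x') := by
    refine IsPGroup.of_card (n := 1) ?_
    rw [Nat.card_zpowers, hx'o, pow_one]
  obtain ⟨S, hS⟩ := hpg.exists_le_sylow
  have hSQ : S = Q := Subsingleton.elim _ _
  subst hSQ
  have heq : Subgroup.zpowers x' = (S : Subgroup D) := by
    apply Subgroup.eq_of_le_of_card_ge hS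
    rw [hQc, Nat.card_zpowers, hx'o]
  intro d hd
  apply mem_normalizer_of_conj
  have h4 : (⟨d, hd⟩ : D) * x' * (⟨d, hd⟩ : D)⁻¹ ∈ (S : Subgroup D) :=
    hQn.conj_mem _ (heq ▸ Subgroup.mem_zpowers x') _
  rw [← heq] at h4
  obtain ⟨k, hk⟩ := Subgroup.mem_zpowers_iff.1 h4
  have h5 := congrArg Subtype.val hk
  simp only [Subgroup.coe_zpow, Subgroup.coe_mul, Subgroup.coe_inv, hx'] at h5
  rw [← h5]
  exact Subgroup.zpow_mem _ (Subgroup.mem_zpowers x) k

end Cfsg.Agent.H17.Brd
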