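import Cfsg.Agent.Lib.H17.BrK6

/-! # A simple group of order 459648 has no involution with a large centralizer commuting with `x` -/

set_option autoImplicit false
set_option linter.unusedSectionVars false
set_option linter.style.haveILetI false
set_option linter.unusedSimpArgs false
set_option linter.unusedVariables false
set_option linter.style.longLine false

namespace Cfsg.Agent.H17.Brd

open Cfsg Cfsg.Agent.H21 Cfsg.Agent.H22

universe u

variable {G : Type u} [Group G] [Finite G]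

theorem conj_comm_iff (g c u : G) :
    (g * c * g⁻¹) * (g * u * g⁻¹) = (g * u * g⁻¹) * (g * c * g⁻¹) ↔ c * u = u * c := by
  have e1 : (g * c * g⁻¹) * (g * u * g⁻¹) = g * (c * u) * g⁻¹ := by group
  have e2 : (g * u * g⁻¹) * (g * c * g⁻¹) = g * (u * c) * g⁻¹ := by group
  rw [e1, e2]
  constructor
  · intro h
    exact mul_left_cancel (mul_right_cancel h)
  · intro h
    rw [h]

theorem no_big_centralizer [hS : IsSimpleGroup G] [Fact (Nat.Prime 19)] (hG : Nat.card G = 19 * 24192)
    (P : Sylow 19 G) (hcyc : ∀ S : Sylow 19 G, IsCyclic (S : Subgroup G))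
    (hPc : Nat.card (P : Subgroup G) = 19) {x : G} (hx : orderOf x = 19) (hzp : Subgroup.zpowers x = P)
    (hC : Nat.card (Subgroup.centralizer ({x} : Set G)) = 76)
    (hN : Nat.card (Subgroup.normalizer ((P : Subgroup G) : Set G)) = 456)
    {y₀ : G} (hy : orderOf y₀ = 2) (hc : Commute x y₀)
    (hbig : 456 < Nat.card (Subgroup.centralizer ({y₀} : Set G))) : False := by
  classical
  have hxp : x ^ 19 = 1 := by rw [← hx]; exact pow_orderOf_eq_one x
  have hx1 : x ≠ 1 := by
    rintro rfl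
    rw [orderOf_one] at hx
    omega
  have hyp : y₀ ^ 2 = 1 := by rw [← hy]; exact pow_orderOf_eq_one y₀
  have hy1 : y₀ ≠ 1 := by
    rintro rfl
    rw [orderOf_one] at hy
    omega
  set D := Subgroup.centralizer ({y₀} : Set G) with hD
  have hmemD : ∀ c, c ∈ D ↔ c * y₀ = y₀ * c := fun c => Subgroup.mem_centralizer_singleton_iff
  have hxD : x ∈ D := (hmemD x).2 hc.eq
  set K : Set G := {u | IsConj u y₀} with hK
  set F : Set G := {u ∈ K | x * u * x⁻¹ = u} with hF
  have hKcard : K.ncard = D.index := by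
    rw [← Nat.card_coe_set_eq]
    exact card_isConj_eq_index y₀
  have hKinv : ∀ u ∈ K, x * u * x⁻¹ ∈ K := fun u hu => (isConj_iff.2 ⟨x, rfl⟩ : IsConj u _).symm.trans hu
  have hmod : K.ncard ≡ F.ncard [MOD 19] := conj_ncard_modEq hxp hKinv
  have hy0K : y₀ ∈ K := IsConj.refl _
  have hy0F : y₀ ∈ F := ⟨hy0K, by rw [hc.eq, mul_inv_cancel_right]⟩
  have hFpos : 1 ≤ F.ncard := Set.ncard_pos (Set.toFinite _) |>.2 ⟨y₀, hy0F⟩
  have hF3 : F.ncard ≤ 3 := by
    obtain ⟨O, hOn, hcop, hidx, -⟩ := Cfsg.Agent.H08.Mom.Cyc.npc_data P hcyc (t := x) (k := 1) (by rw [pow_one]; exact hx) hx1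
    haveI := hOn
    rw [hPc] at hidx
    have hO4 : Nat.card O = 4 := by
      have h1 := O.card_mul_index
      rw [hidx, hC] at h1
      omega
    set O' : Subgroup G := O.map (Subgroup.centralizer ({x} : Set G)).subtype with hO'
    have hO'4 : Nat.card O' = 4 := by
      rw [← hO4]
      exact Nat.card_congr (O.equivMapOfInjective _ (Subgroup.centralizer ({x} : Set G)).subtype_injective).toEquiv.symm
    have hsub : F ⊆ (O' : Set G) \ {1} := by
      intro u hu
      obtain ⟨huK, hux⟩ := hu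
      have huC : u ∈ Subgroup.centralizer ({x} : Set G) := by
        rw [Subgroup.mem_centralizer_singleton_iff]
        calc u * x = (x * u * x⁻¹) * x := by rw [hux]
          _ = x * u := by group
      have huo : orderOf u = 2 := by
        rw [Cfsg.Agent.H08.Mom.Cyc.order_of_conj huK, hy]
      refine ⟨⟨⟨u, huC⟩, ?_, rfl⟩, ?_⟩
      · by_contra hn
        have h2 := dvd_orderOf_of_not_mem (⟨1, by rw [hidx, pow_one]⟩ : ∃ k, O.index = 19 ^ k) hn
        rw [Subgroup.orderOf_mk, huo] at h2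
        omega
      · intro h
        rw [Set.mem_singleton_iff] at h
        rw [h, orderOf_one] at huo
        omega
    have h3 : ((O' : Set G) \ {1}).ncard = 3 := by
      rw [Set.ncard_diff_singleton_of_mem (one_mem O')]
      have h4 : (O' : Set G).ncard = 4 := by
        rw [← Nat.card_coe_set_eq]
        exact hO'4
      rw [h4]
    calc F.ncard ≤ ((O' : Set G) \ {1}).ncard := Set.ncard_le_ncard hsub (Set.toFinite _)
      _ = 3 := h3
  have hne : F ≠ K := by
    intro hFK
    have hall : ∀ g : G, g * y₀ * g⁻¹ ∈ Subgroup.centralizer ({x} : Set G) := by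
      intro g
      have h1 : g * y₀ * g⁻¹ ∈ K := (isConj_iff.2 ⟨g, rfl⟩ : IsConj y₀ _).symm
      rw [← hFK] at h1
      rw [Subgroup.mem_centralizer_singleton_iff]
      calc g * y₀ * g⁻¹ * x = (x * (g * y₀ * g⁻¹) * x⁻¹) * x := by rw [h1.2]
        _ = _ := by group
    have hcore : y₀ ∈ (Subgroup.centralizer ({x} : Set G)).normalCore := hall
    rcases hS.eq_bot_or_eq_top_of_normal _ (Subgroup.normalCore_normal _) with h | h
    · rw [h, Subgroup.mem_bot] at hcore
      exact hy1 hcore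
    · have h2 : Subgroup.centralizer ({x} : Set G) = ⊤ := by
        rw [eq_top_iff, ← h]
        exact Subgroup.normalCore_le _
      rw [h2, Subgroup.card_top, hG] at hC
      omega
  have hlt : F.ncard < K.ncard := by
    refine Set.ncard_lt_ncard (Set.ssubset_iff_subset_ne.2 ⟨fun u hu => hu.1, hne⟩) (Set.toFinite _)
  have hDcard : Nat.card D * D.index = 19 * 24192 := by rw [D.card_mul_index, hG]
  have h19D : 19 ∣ Nat.card D := by
    have h1 : Subgroup.zpowers x ≤ D := Subgroup.zpowers_le.2 hxD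
    have h2 := Subgroup.card_dvd_of_le h1
    rwa [Nat.card_zpowers, hx] at h2
  obtain ⟨m, hm⟩ := h19D
  have hmi : m * D.index = 24192 := by
    rw [hm, mul_assoc] at hDcard
    exact Nat.eq_of_mul_eq_mul_left (by norm_num) hDcard
  have hidvd : D.index ∈ Nat.divisors 24192 :=
    Nat.mem_divisors.2 ⟨⟨m, by rw [mul_comm]; exact hmi.symm⟩, by norm_num⟩
  have hmod' : K.ncard % 19 = F.ncard % 19 := hmod
  rw [hKcard] at hmod' hlt
  have hi20 : 20 ≤ D.index := by omega
  have hi1008 : D.index < 1008 := by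
    by_contra hcon
    push Not at hcon
    have h1 : 457 * 1008 ≤ Nat.card D * D.index := Nat.mul_le_mul hbig hcon
    rw [hDcard] at h1
    omega
  have himod : D.index % 19 = 1 ∨ D.index % 19 = 2 ∨ D.index % 19 = 3 := by omega
  rcases idx_cases _ hidvd hi20 hi1008 himod with h21 | ⟨h1, h2⟩
  swap
  · -- unique Sylow subgroup
    have hipos : 0 < D.index := by omega
    have hm' : 24192 / D.index = m := by
      rw [← hmi]
      exact Nat.mul_div_cancel _ hipos
    rw [hm'] at h2
    have hm19 : ¬ 19 ∣ m := by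
      intro h
      have h3 : 19 ∣ 24192 := hmi ▸ Dvd.dvd.mul_right h _
      omega
    have hm0 : m ≠ 0 := by
      rintro rfl
      omega
    have hle := card_le_of_unique_sylow hx hxD hm hm19 h2 hm0
    rw [hzp] at hle
    have h3 := Subgroup.card_le_of_le hle
    rw [hN] at h3
    omega
  -- the main case
  have hD21 : Nat.card D = 21888 := by
    rw [h21] at hDcard
    omega
  have hF2 : F.ncard = 2 := by
    rw [h21] at hmod'
    omega
  obtain ⟨a, b, hab, hFab⟩ := Set.ncard_eq_two.1 hF2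
  have hex : ∃ y₁, y₁ ≠ y₀ ∧ F = {y₀, y₁} := by
    have h1 : y₀ ∈ ({a, b} : Set G) := hFab ▸ hy0F
    rcases h1 with rfl | h1
    · exact ⟨b, hab.symm, hFab⟩
    · rw [Set.mem_singleton_iff] at h1
      subst h1
      exact ⟨a, hab, by rw [hFab, Set.pair_comm]⟩
  obtain ⟨y₁, hy10, hFeq⟩ := hex
  have hy1F : y₁ ∈ F := by
    rw [hFeq]
    simp
  have hy1K : IsConj y₁ y₀ := hy1F.1
  have hmemF : ∀ u, u ∈ F → u = y₀ ∨ u = y₁ := by
    intro u hu
    rw [hFeq] at hu
    simpa using hu
  have hcomm01 : y₀ * y₁ * y₀⁻¹ = y₁ := by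
    have h1 : y₀ * y₁ * y₀⁻¹ ∈ F := by
      refine ⟨(isConj_iff.2 ⟨y₀, rfl⟩ : IsConj y₁ _).symm.trans hy1K, ?_⟩
      have h2 : x * y₁ * x⁻¹ = y₁ := hy1F.2
      have h3 : x * y₀ * x⁻¹ = y₀ := hy0F.2
      calc x * (y₀ * y₁ * y₀⁻¹) * x⁻¹ = (x * y₀ * x⁻¹) * (x * y₁ * x⁻¹) * (x * y₀ * x⁻¹)⁻¹ := by group
        _ = _ := by rw [h2, h3]
    rcases hmemF _ h1 with h | h
    · exfalso
      apply hy10
      have h2 : y₀ * y₁ * y₀⁻¹ = y₀ * y₀ * y₀⁻¹ := by rw [h]; group
      exact mul_left_cancel (mul_right_cancel h2)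
    · exact h
  have hy1D : y₁ ∈ D := by
    rw [hmemD]
    calc y₁ * y₀ = (y₀ * y₁ * y₀⁻¹) * y₀ := by rw [hcomm01]
      _ = y₀ * y₁ := by group
  set x' : D := ⟨x, hxD⟩ with hx'
  set y1' : D := ⟨y₁, hy1D⟩ with hy1'
  have hx'p : x' ^ 19 = 1 := Subtype.ext (by simp [hx', hxp])
  set T : Set D := {u | IsConj u y1'} with hT
  have hTcard : T.ncard = (Subgroup.centralizer ({y1'} : Set D)).index := by
    rw [← Nat.card_coe_set_eq]
    exact card_isConj_eq_index y1'
  have hTdvd : T.ncard ∣ 21888 := by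
    rw [hTcard, ← hD21]
    exact Subgroup.index_dvd_card _
  have hTinv : ∀ u ∈ T, x' * u * x'⁻¹ ∈ T := fun u hu =>
    (isConj_iff.2 ⟨x', rfl⟩ : IsConj u _).symm.trans hu
  have hTmod := conj_ncard_modEq hx'p hTinv
  have hval : ∀ u : D, u ∈ T → IsConj (u : G) y₀ ∧ (u : G) ≠ y₀ := by
    intro u hu
    refine ⟨(MonoidHom.map_isConj D.subtype hu).trans hy1K, ?_⟩
    intro h
    obtain ⟨c, hc'⟩ := isConj_iff.1 hu
    have h1 := congrArg Subtype.val hc'
    simp only [Subgroup.coe_mul, Subgroup.coe_inv, h, hy1'] at h1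
    have h2 : (c : G) * y₀ = y₀ * c := (hmemD c).1 c.2
    rw [h2, mul_inv_cancel_right] at h1
    exact hy10 h1.symm
  have hTfix : {u ∈ T | x' * u * x'⁻¹ = u} = {y1'} := by
    ext u
    constructor
    · rintro ⟨hu, hux⟩
      obtain ⟨h1, h2⟩ := hval u hu
      have h3 : (u : G) ∈ F := ⟨h1, congrArg Subtype.val hux⟩
      rcases hmemF _ h3 with h | h
      · exact absurd h h2
      · exact Subtype.ext h
    · intro hu
      rw [Set.mem_singleton_iff] at hu
      subst hu
      exact ⟨IsConj.refl _, Subtype.ext hy1F.2⟩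
  rw [hTfix, Set.ncard_singleton] at hTmod
  have hTle : T.ncard ≤ 20 := by
    have h1 : ((fun u : D => (u : G)) '' T) ⊆ K \ {y₀} := by
      rintro _ ⟨u, hu, rfl⟩
      obtain ⟨h2, h3⟩ := hval u hu
      exact ⟨h2, h3⟩
    have h2 : ((fun u : D => (u : G)) '' T).ncard = T.ncard :=
      Set.ncard_image_of_injective _ Subtype.val_injective
    have h3 : (K \ {y₀}).ncard = 20 := by
      rw [Set.ncard_diff_singleton_of_mem hy0K, hKcard, h21]
    rw [← h2, ← h3]
    exact Set.ncard_le_ncard h1 (Set.toFinite _)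
  have hT1 : T.ncard = 1 := by
    have h1 : T.ncard % 19 = 1 := hTmod
    have h2 : T.ncard = 1 ∨ T.ncard = 20 := by omega
    rcases h2 with h2 | h2
    · exact h2
    · rw [h2] at hTdvd
      omega
  obtain ⟨a', ha'⟩ := Set.ncard_eq_one.1 hT1
  have hDleC : ∀ d : D, d * y1' * d⁻¹ = y1' := by
    intro d
    have h1 : y1' ∈ T := IsConj.refl _
    have h2 : d * y1' * d⁻¹ ∈ T := (isConj_iff.2 ⟨d, rfl⟩ : IsConj y1' _).symm
    rw [ha', Set.mem_singleton_iff] at h1 h2
    rw [h2, h1]
  have hDC1 : D ≤ Subgroup.centralizer ({y₁} : Set G) := by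
    intro d hd
    rw [Subgroup.mem_centralizer_singleton_iff]
    have h := congrArg Subtype.val (hDleC ⟨d, hd⟩)
    simp only [Subgroup.coe_mul, Subgroup.coe_inv, hy1'] at h
    calc d * y₁ = (d * y₁ * d⁻¹) * d := by group
      _ = y₁ * d := by rw [h]
  have hC1card : Nat.card (Subgroup.centralizer ({y₁} : Set G)) = Nat.card D := by
    have h1 := (Subgroup.centralizer ({y₁} : Set G)).card_mul_index
    have h2 : (Subgroup.centralizer ({y₁} : Set G)).index = D.index := by
      rw [← card_isConj_eq_index, ← card_isConj_eq_index]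
      exact Nat.card_congr (Equiv.subtypeEquivRight fun u => ⟨fun h => h.trans hy1K, fun h => h.trans hy1K.symm⟩)
    rw [h2] at h1
    have h3 := D.card_mul_index
    exact Nat.eq_of_mul_eq_mul_right (by omega) (h1.trans h3.symm)
  have hDeq : D = Subgroup.centralizer ({y₁} : Set G) := Subgroup.eq_of_le_of_card_ge hDC1 hC1card.le
  have hmemD1 : ∀ c, c ∈ D ↔ c * y₁ = y₁ * c := by
    intro c
    rw [hDeq]
    exact Subgroup.mem_centralizer_singleton_iff
  obtain ⟨g, hg⟩ := isConj_iff.1 hy1K.symm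
  have hgD : ∀ c, c ∈ D ↔ g * c * g⁻¹ ∈ D := by
    intro c
    rw [hmemD1 (g * c * g⁻¹), ← hg, conj_comm_iff, hmemD]
  have hgnot : g ∉ D := by
    intro h
    have h1 := (hmemD g).1 h
    apply hy10
    rw [← hg, h1, mul_inv_cancel_right]
  -- the next conjugate
  have hx2 : g⁻¹ * x * g ∈ D := by
    rw [hgD]
    have h1 : g * (g⁻¹ * x * g) * g⁻¹ = x := by group
    rw [h1]
    exact hxD
  have hy2F : g * y₁ * g⁻¹ ∈ F := by
    refine ⟨(isConj_iff.2 ⟨g, rfl⟩ : IsConj y₁ _).symm.trans hy1K, ?_⟩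
    have h1 := (hmemD1 _).1 hx2
    have h2 := (conj_comm_iff g _ _).2 h1
    have h3 : g * (g⁻¹ * x * g) * g⁻¹ = x := by group
    rw [h3] at h2
    rw [h2, mul_inv_cancel_right]
    
  have hgg : g * g ∈ D := by
    rcases hmemF _ hy2F with h | h
    · rw [hmemD]
      have h1 : (g * g) * y₀ * (g * g)⁻¹ = y₀ := by
        calc (g * g) * y₀ * (g * g)⁻¹ = g * (g * y₀ * g⁻¹) * g⁻¹ := by group
          _ = y₀ := by rw [hg, h]
      calc g * g * y₀ = ((g * g) * y₀ * (g * g)⁻¹) * (g * g) := by group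
        _ = y₀ * (g * g) := by rw [h1]
    · exfalso
      apply hy10
      have h1 : g * y₁ * g⁻¹ = g * y₀ * g⁻¹ := by rw [h, hg]
      exact mul_left_cancel (mul_right_cancel h1)
  -- the normalizer
  have hgH : g ∈ Subgroup.normalizer (D : Set G) := Subgroup.mem_normalizer_iff.2 hgD
  set H := Subgroup.normalizer (D : Set G) with hHdef
  set A := D.subgroupOf H with hA
  haveI : A.Normal := Subgroup.normal_in_normalizer
  let gb : H ⧸ A := QuotientGroup.mk ⟨g, hgH⟩
  have h1 : gb ≠ 1 := by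
    intro h
    rw [QuotientGroup.eq_one_iff] at h
    exact hgnot (Subgroup.mem_subgroupOf.1 h)
  have h2 : gb ^ 2 = 1 := by
    rw [← QuotientGroup.mk_pow, QuotientGroup.eq_one_iff, Subgroup.mem_subgroupOf]
    simp only [Subgroup.coe_pow]
    rw [pow_two]
    exact hgg
  have h3 : orderOf gb = 2 := orderOf_eq_prime h2 h1
  have h4 : 2 ∣ A.index := by
    have h5 := orderOf_dvd_natCard gb
    rwa [h3] at h5
  have h5 := Subgroup.relIndex_mul_index (Subgroup.le_normalizer : D ≤ H)
  have h6 : 2 ∣ 21 := by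
    rw [← h21, ← h5]
    exact Dvd.dvd.mul_right h4 _
  omega

end Cfsg.Agent.H17.Brd
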