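import Cfsg.Agent.Lib.H17.N21d

/-! # Reductions: from configurations to perfect ones -/

set_option autoImplicit false
set_option linter.unusedSectionVars false
set_option linter.style.haveILetI false
set_option linter.unusedSimpArgs false
set_option linter.unusedVariables false

namespace Cfsg.Agent.H17.N21

open Equiv Equiv.Perm MulAction Subgroup

variable {Γ X : Type*} [Group Γ] [MulAction Γ X]

/-- Restriction of a configuration to a subgroup that contains all its members. -/
def Cfg.restrict [Finite Γ] (C : Cfg Γ X) (T : Subgroup Γ) (hT : ∀ b, C.P b ≤ T) : Cfg T X where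
  P := fun b => (C.P b).subgroupOf T
  card5 := fun b => by
    rw [Nat.card_congr (Subgroup.subgroupOfEquivOfLe (hT b)).toEquiv]
    exact C.card5 b
  conj := fun g b h hh => by
    rw [Subgroup.mem_subgroupOf] at hh ⊢
    exact C.conj g b h hh
  self_fix := fun b h hh => by
    rw [Subgroup.mem_subgroupOf] at hh
    exact C.self_fix b h hh
  fix := fun b c hc => by
    apply C.fix
    intro h hh
    exact hc ⟨h, hT b hh⟩ (by rw [Subgroup.mem_subgroupOf]; exact hh)
  no25 := fun h => C.no25 (h.trans (Subgroup.card_subgroup_dvd_card T))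

/-- There is no configuration at all. -/
theorem Cfg.false [Finite Γ] [Finite X] [FaithfulSMul Γ X] [IsPretransitive Γ X]
    (C : Cfg Γ X) (hX : Nat.card X = 21) : False := by
  obtain ⟨a⟩ := Cfg.nonempty_of_card hX
  obtain ⟨x, hx, hP⟩ := C.exists_gen a
  have hx1 : x ≠ 1 := by
    rintro rfl
    simp at hx
  let T : Subgroup Γ := Subgroup.normalClosure (C.P a : Set Γ)
  have hTn : T.Normal := Subgroup.normalClosure_normal
  have hxT : x ∈ T := Subgroup.subset_normalClosure (by
    rw [SetLike.mem_coe, hP]; exact mem_zpowers x)
  have hTne : T ≠ ⊥ := by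
    intro h
    rw [h, Subgroup.mem_bot] at hxT
    exact hx1 hxT
  by_cases hT1 : ⁅T, T⁆ = ⊥
  · -- T is commutative
    haveI trans := C.transitive_of_normal hX T hTne
    rw [Subgroup.commutator_eq_bot_iff_le_centralizer] at hT1
    apply hx1
    apply FaithfulSMul.eq_of_smul_eq_smul (α := X)
    intro c
    rw [one_smul]
    obtain ⟨t, rfl⟩ := MulAction.exists_smul_eq T a c
    have h1 : (t : Γ) * x = x * t := by
      have := Subgroup.mem_centralizer_iff.1 (hT1 t.2) x hxT
      exact this.symm
    change x • (t : Γ) • a = (t : Γ) • a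
    rw [← mul_smul, ← h1, mul_smul, C.gen_fix hP]
  · -- T is perfect
    have hn : (⁅T, T⁆).Normal := inferInstance
    have hle := C.le_of_normal hX ⁅T, T⁆ hT1
    have hTle : T ≤ ⁅T, T⁆ := Subgroup.normalClosure_le_normal (hle a)
    have hTeq : ⁅T, T⁆ = T := le_antisymm (Subgroup.commutator_le_self T) hTle
    have hPT : ∀ b, C.P b ≤ T := fun b => (hle b).trans (Subgroup.commutator_le_self T)
    haveI trans := C.transitive_of_normal hX T hTne
    have hperf : commutator T = ⊤ := by
      apply Subgroup.map_injective T.subtype_injective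
      rw [Subgroup.map_subtype_commutator, hTeq]
      rw [← MonoidHom.range_eq_map, Subgroup.range_subtype]
    exact (C.restrict T hPT).no_perfect hX hperf

end Cfsg.Agent.H17.N21
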