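import Cfsg.Agent.Lib.H17.N21e

/-! # Twenty-one Sylow 5-subgroups: the pairwise intersections -/

set_option autoImplicit false
set_option linter.unusedSectionVars false
set_option linter.style.haveILetI false
set_option linter.unusedSimpArgs false
set_option linter.unusedVariables false

namespace Cfsg.Agent.H17.N21

open Equiv Equiv.Perm MulAction Subgroup

variable {G : Type*} [Group G] [Finite G]

theorem stabilizer_sylow (P Q : Sylow 5 G) :
    stabilizer (P : Subgroup G) Q = (Q : Subgroup G).subgroupOf (P : Subgroup G) := by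
  ext p
  rw [mem_stabilizer_iff, Subgroup.mem_subgroupOf]
  change ((p : G) • Q = Q) ↔ _
  rw [Sylow.smul_eq_iff_mem_normalizer]
  constructor
  · intro h
    have h1 : (p : G) ∈ (P : Subgroup G) ⊓ Subgroup.normalizer (Q : Set G) :=
      ⟨p.2, h⟩
    rw [IsPGroup.inf_normalizer_sylow P.2 Q] at h1
    exact h1.2
  · intro h
    exact Subgroup.le_normalizer h

theorem relIndex_five (hS : Nat.card (Sylow 5 G) = 21) (P Q : Sylow 5 G) (h : P ≠ Q) :
    (Q : Subgroup G).relIndex (P : Subgroup G) = 5 := by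
  classical
  have h1 : (Q : Subgroup G).relIndex (P : Subgroup G) =
      (orbit (P : Subgroup G) Q).ncard := by
    rw [← index_stabilizer, stabilizer_sylow]
    rfl
  obtain ⟨n, hn⟩ := P.2.index ((Q : Subgroup G).subgroupOf (P : Subgroup G))
  have hn' : (Q : Subgroup G).relIndex (P : Subgroup G) = 5 ^ n := hn
  have hn0 : n ≠ 0 := by
    rintro rfl
    rw [pow_zero] at hn'
    have h2 := Subgroup.relIndex_eq_one.1 hn'
    have h3 := P.is_maximal' Q.2 h2
    exact h (Sylow.ext h3.symm)
  have hnot : P ∉ orbit (P : Subgroup G) Q := by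
    rintro ⟨p, hp⟩
    apply h
    have h4 : (p : G) • Q = P := hp
    have h5 : (p : G)⁻¹ • P = P := by
      rw [Sylow.smul_eq_iff_mem_normalizer]
      exact Subgroup.le_normalizer (inv_mem p.2)
    calc P = (p : G)⁻¹ • P := h5.symm
      _ = (p : G)⁻¹ • ((p : G) • Q) := by rw [h4]
      _ = Q := inv_smul_smul _ _
  have hle : (orbit (P : Subgroup G) Q).ncard + 1 ≤ 21 := by
    rw [← Set.ncard_insert_of_notMem hnot, ← hS]
    exact Set.ncard_le_card _
  have hn2 : n < 2 := by
    by_contra hc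
    push Not at hc
    have h6 : 5 ^ 2 ≤ 5 ^ n := Nat.pow_le_pow_right (by norm_num) hc
    have h7 : (orbit (P : Subgroup G) Q).ncard = 5 ^ n := by rw [← h1, hn']
    omega
  have : n = 1 := by omega
  subst this
  simpa using hn'

theorem card_inf (hS : Nat.card (Sylow 5 G) = 21) (P Q : Sylow 5 G) (h : P ≠ Q) :
    Nat.card ↥((P : Subgroup G) ⊓ Q) * 5 = Nat.card (P : Subgroup G) := by
  have h1 := Subgroup.card_mul_index ((Q : Subgroup G).subgroupOf (P : Subgroup G))
  have h2 : ((Q : Subgroup G).subgroupOf (P : Subgroup G)).index = 5 := relIndex_five hS P Q h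
  rw [h2] at h1
  rw [← h1]
  congr 1
  exact Nat.card_congr
    ⟨fun y => ⟨⟨y.1, y.2.1⟩, y.2.2⟩, fun x => ⟨x.1.1, x.1.2, x.2⟩, fun _ => rfl, fun _ => rfl⟩

theorem card_sylow_eq (P Q : Sylow 5 G) : Nat.card (P : Subgroup G) = Nat.card (Q : Subgroup G) := by
  rw [Sylow.card_eq_multiplicity, Sylow.card_eq_multiplicity]

open scoped Pointwise in
theorem inf_smul (hS : Nat.card (Sylow 5 G) = 21) (Z R : Sylow 5 G) (h : R ≠ Z) (z : G)
    (hz : z ∈ (Z : Subgroup G)) :
    (Z : Subgroup G) ⊓ ((z • R : Sylow 5 G) : Subgroup G) = (Z : Subgroup G) ⊓ R := by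
  have h5 : ((R : Subgroup G).subgroupOf (Z : Subgroup G)).index = 5 := relIndex_five hS Z R h.symm
  have hnorm : ((R : Subgroup G).subgroupOf (Z : Subgroup G)).Normal := by
    apply Subgroup.normal_of_index_eq_minFac_card
    rw [h5]
    obtain ⟨n, hn⟩ := IsPGroup.iff_card.1 Z.2
    have h1 := Subgroup.card_mul_index ((R : Subgroup G).subgroupOf (Z : Subgroup G))
    rw [h5] at h1
    have hn0 : n ≠ 0 := by
      rintro rfl
      rw [hn] at h1
      simp at h1
    rw [hn, Nat.Prime.pow_minFac (by norm_num) hn0]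
  have hkey : ∀ g : G, g ∈ (Z : Subgroup G) → (z⁻¹ * g * z ∈ (R : Subgroup G) ↔ g ∈ (R : Subgroup G)) := by
    intro g hg
    let g' : (Z : Subgroup G) := ⟨g, hg⟩
    let z' : (Z : Subgroup G) := ⟨z, hz⟩
    constructor
    · intro h1
      have h2 : z' * (z'⁻¹ * g' * z') * z'⁻¹ ∈ (R : Subgroup G).subgroupOf (Z : Subgroup G) :=
        hnorm.conj_mem _ (by rw [Subgroup.mem_subgroupOf]; exact h1) z'
      rw [Subgroup.mem_subgroupOf] at h2
      have h3 : ((z' * (z'⁻¹ * g' * z') * z'⁻¹ : (Z : Subgroup G)) : G) = g := by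
        simp [g', z', mul_assoc]
      rwa [h3] at h2
    · intro h1
      have h2 : z'⁻¹ * g' * z'⁻¹⁻¹ ∈ (R : Subgroup G).subgroupOf (Z : Subgroup G) :=
        hnorm.conj_mem _ (by rw [Subgroup.mem_subgroupOf]; exact h1) z'⁻¹
      rw [Subgroup.mem_subgroupOf] at h2
      simpa [g', z', mul_assoc] using h2
  ext g
  simp only [Subgroup.mem_inf]
  rw [Sylow.coe_subgroup_smul, Subgroup.mem_pointwise_smul_iff_inv_smul_mem]
  have h4 : (MulAut.conj z)⁻¹ • g = z⁻¹ * g * z := by
    simp [MulAut.smul_def, MulAut.conj_symm_apply]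
  rw [h4]
  constructor
  · rintro ⟨h1, h2⟩
    exact ⟨h1, (hkey g h1).1 h2⟩
  · rintro ⟨h1, h2⟩
    exact ⟨h1, (hkey g h1).2 h2⟩

/-- The fibres of `S ↦ Z ⊓ S` have at least five elements. -/
theorem fibre_card [DecidableEq (Sylow 5 G)] [Fintype (Sylow 5 G)]
    [DecidableEq (Subgroup G)] (hS : Nat.card (Sylow 5 G) = 21) (Z R : Sylow 5 G) (h : R ≠ Z) :
    5 ≤ (Finset.univ.filter (fun S : Sylow 5 G =>
      S ≠ Z ∧ (Z : Subgroup G) ⊓ S = (Z : Subgroup G) ⊓ R)).card := by
  classical
  have h1 : (Set.ncard (orbit (Z : Subgroup G) R)) = 5 := by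
    rw [← index_stabilizer, stabilizer_sylow]
    exact relIndex_five hS Z R h.symm
  suffices h9 : Set.ncard (orbit (Z : Subgroup G) R) ≤ (Finset.univ.filter (fun S : Sylow 5 G =>
      S ≠ Z ∧ (Z : Subgroup G) ⊓ S = (Z : Subgroup G) ⊓ R)).card by omega
  rw [← Set.ncard_coe_finset]
  apply Set.ncard_le_ncard _ (Finset.finite_toSet _)
  rintro S ⟨z, rfl⟩
  simp only [Finset.coe_filter, Finset.mem_univ, true_and, Set.mem_setOf_eq]
  refine ⟨?_, inf_smul hS Z R h z z.2⟩
  intro hSZ
  apply h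
  have h2 : (z : G) • R = Z := hSZ
  have h3 : (z : G)⁻¹ • Z = Z := by
    rw [Sylow.smul_eq_iff_mem_normalizer]
    exact Subgroup.le_normalizer (inv_mem z.2)
  calc R = (z : G)⁻¹ • ((z : G) • R) := (inv_smul_smul _ _).symm
    _ = (z : G)⁻¹ • Z := by rw [h2]
    _ = Z := h3

theorem image_card [DecidableEq (Sylow 5 G)] [Fintype (Sylow 5 G)]
    [DecidableEq (Subgroup G)] (hS : Nat.card (Sylow 5 G) = 21) (Z : Sylow 5 G) :
    ((Finset.univ.erase Z).image (fun S : Sylow 5 G => (Z : Subgroup G) ⊓ S)).card ≤ 4 := by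
  have h1 := Finset.card_eq_sum_card_image (fun S : Sylow 5 G => (Z : Subgroup G) ⊓ S)
    (Finset.univ.erase Z)
  have h2 : (Finset.univ.erase Z).card = 20 := by
    rw [Finset.card_erase_of_mem (Finset.mem_univ _), Finset.card_univ,
      ← Nat.card_eq_fintype_card, hS]
  have h3 : ∀ v ∈ (Finset.univ.erase Z).image (fun S : Sylow 5 G => (Z : Subgroup G) ⊓ S),
      5 ≤ ((Finset.univ.erase Z).filter (fun S : Sylow 5 G => (Z : Subgroup G) ⊓ S = v)).card := by
    intro v hv
    obtain ⟨R, hR, rfl⟩ := Finset.mem_image.1 hv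
    have h4 := fibre_card hS Z R (Finset.ne_of_mem_erase hR)
    refine h4.trans (Finset.card_le_card ?_)
    intro S hS'
    simp only [Finset.mem_filter, Finset.mem_univ, true_and, Finset.mem_erase] at hS' ⊢
    exact ⟨⟨hS'.1, trivial⟩, hS'.2⟩
  have h4 := Finset.card_nsmul_le_sum _ _ 5 h3
  rw [← h1, h2, smul_eq_mul] at h4
  omega

/-- Any two Sylow subgroups meet in a subgroup contained in all of them. -/
theorem inf_le_all (hS : Nat.card (Sylow 5 G) = 21) (P Q R : Sylow 5 G) (h : P ≠ Q) :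
    (P : Subgroup G) ⊓ Q ≤ R := by
  classical
  have : Fintype (Sylow 5 G) := Fintype.ofFinite _
  by_contra hc
  set D := (P : Subgroup G) ⊓ Q with hD
  let L := Finset.univ.filter (fun S : Sylow 5 G => S ≠ P ∧ (P : Subgroup G) ⊓ S = (P : Subgroup G) ⊓ Q)
  have hL : 5 ≤ L.card := fibre_card hS P Q h.symm
  have hDle : ∀ S ∈ L, D ≤ (S : Subgroup G) := by
    intro S hS'
    have h1 : (P : Subgroup G) ⊓ S = D := (Finset.mem_filter.1 hS').2.2
    rw [← h1]
    exact inf_le_right
  have hne : ∀ S ∈ L, S ≠ R := by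
    rintro S hS' rfl
    exact hc (hDle S hS')
  have hinj : Set.InjOn (fun S : Sylow 5 G => (R : Subgroup G) ⊓ S) (L : Set (Sylow 5 G)) := by
    intro S hS1 S' hS2 heq
    by_contra hSS
    have hq := card_inf hS S S' hSS
    have hq2 : Nat.card ↥D * 5 = _ := card_inf hS P Q h
    have hq3 := card_inf hS R S (hne S hS1).symm
    have hc1 := card_sylow_eq P S
    have hc2 := card_sylow_eq R S
    have hD1 : D ≤ (S : Subgroup G) ⊓ S' := le_inf (hDle S hS1) (hDle S' hS2)
    have hD2 : D = (S : Subgroup G) ⊓ S' := by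
      apply Subgroup.eq_of_le_of_card_ge hD1
      omega
    have hE : (R : Subgroup G) ⊓ S ≤ D := by
      rw [hD2]
      intro g hg
      refine ⟨hg.2, ?_⟩
      have : g ∈ (R : Subgroup G) ⊓ S' := by
        have heq' : (R : Subgroup G) ⊓ S = (R : Subgroup G) ⊓ S' := heq
        rwa [← heq']
      exact this.2
    have hE2 : (R : Subgroup G) ⊓ S = D := by
      apply Subgroup.eq_of_le_of_card_ge hE
      omega
    apply hc
    rw [← hE2]
    exact inf_le_left
  have hcard : L.card ≤ ((Finset.univ.erase R).image (fun S : Sylow 5 G => (R : Subgroup G) ⊓ S)).card := by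
    rw [← Finset.card_image_of_injOn hinj]
    apply Finset.card_le_card
    intro v hv
    obtain ⟨S, hS', rfl⟩ := Finset.mem_image.1 hv
    exact Finset.mem_image.2 ⟨S, Finset.mem_erase.2 ⟨hne S hS', Finset.mem_univ _⟩, rfl⟩
  have := image_card hS R
  omega

open scoped Pointwise in
/-- **No finite group has exactly 21 Sylow 5-subgroups.** -/
theorem no_twenty_one : Nat.card (Sylow 5 G) ≠ 21 := by
  intro hS
  classical
  let ρ : G →* Perm (Sylow 5 G) := MulAction.toPermHom G (Sylow 5 G)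
  let r : G →* ρ.range := ρ.rangeRestrict
  have hr : Function.Surjective r := MonoidHom.rangeRestrict_surjective ρ
  have happ : ∀ (g : G) (c : Sylow 5 G), (r g : ρ.range) • c = g • c := fun _ _ => rfl
  have hnt : Nontrivial (Sylow 5 G) := by
    rw [← Finite.one_lt_card_iff_nontrivial, hS]
    norm_num
  have hfix : ∀ (b : Sylow 5 G) (g : G), g ∈ (b : Subgroup G) → g • b = b := by
    intro b g hg
    rw [Sylow.smul_eq_iff_mem_normalizer]
    exact Subgroup.le_normalizer hg
  have hcard5 : ∀ Q : Sylow 5 G, Nat.card ((Q : Subgroup G).map r) = 5 := by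
    intro Q
    obtain ⟨Q₀, hQ₀⟩ := exists_ne Q
    rw [← Subgroup.relIndex_ker (K := (Q : Subgroup G)) r, ← Subgroup.inf_relIndex_right]
    have hker : r.ker ⊓ (Q : Subgroup G) = (Q₀ : Subgroup G) ⊓ (Q : Subgroup G) := by
      ext g
      constructor
      · rintro ⟨h1, h2⟩
        refine ⟨?_, h2⟩
        have h3 : g • Q₀ = Q₀ := by
          have h4 : r g = 1 := h1
          have h5 := happ g Q₀
          rw [h4, one_smul] at h5
          exact h5.symm
        rw [Sylow.smul_eq_iff_mem_normalizer] at h3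
        have h6 : g ∈ (Q : Subgroup G) ⊓ Subgroup.normalizer (Q₀ : Set G) := ⟨h2, h3⟩
        rw [IsPGroup.inf_normalizer_sylow Q.2 Q₀] at h6
        exact h6.2
      · rintro ⟨h1, h2⟩
        refine ⟨?_, h2⟩
        change r g = 1
        apply Subtype.ext
        ext c : 1
        change g • c = c
        apply hfix
        exact inf_le_all hS Q Q₀ c hQ₀.symm ⟨h2, h1⟩
    rw [hker, Subgroup.inf_relIndex_right]
    exact relIndex_five hS Q Q₀ hQ₀.symm
  have hno25 : ¬ 25 ∣ Nat.card ρ.range := by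
    intro h25
    obtain ⟨Q⟩ : Nonempty (Sylow 5 G) := inferInstance
    have h1 := Subgroup.card_mul_index ((Q : Subgroup G).map r)
    rw [hcard5 Q] at h1
    have h2 : ((Q : Subgroup G).map r).index ∣ (Q : Subgroup G).index :=
      Subgroup.index_map_dvd _ hr
    have h3 : ¬ 5 ∣ (Q : Subgroup G).index := Q.not_dvd_index
    apply h3
    refine Dvd.dvd.trans ?_ h2
    rw [← h1] at h25
    have h4 : 5 * 5 ∣ 5 * ((Q : Subgroup G).map r).index := by simpa using h25
    exact Nat.dvd_of_mul_dvd_mul_left (by norm_num) h4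
  let C : Cfg ρ.range (Sylow 5 G) :=
    { P := fun b => (b : Subgroup G).map r
      card5 := hcard5
      conj := by
        intro g b h hh
        obtain ⟨g₀, rfl⟩ := hr g
        obtain ⟨k, hk, rfl⟩ := hh
        refine ⟨g₀ * k * g₀⁻¹, ?_, by simp⟩
        have h1 : g₀ * k * g₀⁻¹ ∈ ((g₀ • b : Sylow 5 G) : Subgroup G) := by
          rw [Sylow.coe_subgroup_smul]
          have h1 := Subgroup.smul_mem_pointwise_smul k (MulAut.conj g₀) (b : Subgroup G) hk
          simpa [MulAut.smul_def] using h1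
        rw [happ]
        exact h1
      self_fix := by
        intro b h hh
        obtain ⟨k, hk, rfl⟩ := hh
        rw [happ]
        exact hfix b k hk
      fix := by
        intro b c hc
        have h1 : ∀ k ∈ (b : Subgroup G), k • c = c := fun k hk =>
          hc (r k) ⟨k, hk, rfl⟩
        have h2 : (b : Subgroup G) ≤ Subgroup.normalizer (c : Set G) := fun k hk =>
          Sylow.smul_eq_iff_mem_normalizer.1 (h1 k hk)
        have h3 : (b : Subgroup G) ⊓ Subgroup.normalizer (c : Set G) = (b : Subgroup G) :=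
          inf_eq_left.2 h2
        rw [IsPGroup.inf_normalizer_sylow b.2 c] at h3
        have h4 : (b : Subgroup G) ≤ c := inf_eq_left.1 h3
        exact Sylow.ext (b.is_maximal' c.2 h4)
      no25 := hno25 }
  haveI htrans : IsPretransitive ρ.range (Sylow 5 G) := by
    refine ⟨fun c d => ?_⟩
    obtain ⟨g, hg⟩ := MulAction.exists_smul_eq G c d
    exact ⟨r g, hg⟩
  exact C.false hS

end Cfsg.Agent.H17.N21
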