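import Mathlib

/-! Groups with Sylow subgroups whose pairwise intersections have index `p`. -/

set_option autoImplicit false
set_option linter.style.longLine false

namespace Cfsg.Agent.H17.PD

open MulAction
open scoped Pointwise

variable {G : Type*} [Group G] [Finite G] {p : ℕ} [hp : Fact p.Prime]

lemma mem_smul_iff (g : G) (Q : Sylow p G) (x : G) :
    x ∈ ((g • Q : Sylow p G) : Subgroup G) ↔ g⁻¹ * x * g ∈ (Q : Subgroup G) := by
  have h1 : x ∈ ((g • Q : Sylow p G) : Subgroup G) ↔ x ∈ MulAut.conj g • (Q : Subgroup G) := by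
    rw [Sylow.coe_subgroup_smul]
  rw [h1, Subgroup.mem_pointwise_smul_iff_inv_smul_mem]
  simp [MulAut.smul_def, MulAut.conj_inv_apply]

lemma conj_mem_smul (g : G) (Q : Sylow p G) {x : G} (hx : x ∈ (Q : Subgroup G)) :
    g * x * g⁻¹ ∈ ((g • Q : Sylow p G) : Subgroup G) := by
  rw [mem_smul_iff]
  simpa [mul_assoc] using hx

/-- two Sylow subgroups inside `K` are conjugate in `K` -/
lemma conj_in (K : Subgroup G) (S T : Sylow p G) (hS : (S : Subgroup G) ≤ K) (hT : (T : Subgroup G) ≤ K) :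
    ∃ k ∈ K, k • S = T := by
  obtain ⟨h, hh⟩ := MulAction.exists_smul_eq K (S.subtype hS) (T.subtype hT)
  rw [Sylow.smul_subtype] at hh
  exact ⟨h, h.2, Sylow.subtype_injective hh⟩

/-- a `p`-subgroup fixing a Sylow subgroup lies in it -/
lemma le_of_fix (Q : Sylow p G) (T : Subgroup G) (hT : IsPGroup p T) (hfix : ∀ t ∈ T, t • Q = Q) :
    T ≤ (Q : Subgroup G) := by
  apply (IsPGroup.sylow_mem_fixedPoints_iff hT).1
  intro t
  exact hfix t t.2

lemma mem_of_mem_normalizer (Q P : Sylow p G) {x : G} (hxP : x ∈ (P : Subgroup G))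
    (hx : x • Q = Q) : x ∈ (Q : Subgroup G) := by
  have hT : IsPGroup p (Subgroup.zpowers x) :=
    P.isPGroup'.to_le (by
      rw [Subgroup.zpowers_le]
      exact hxP)
  have := le_of_fix Q (Subgroup.zpowers x) hT (by
    intro t ht
    obtain ⟨k, rfl⟩ := ht
    have hN : x ∈ Subgroup.normalizer ((Q : Subgroup G) : Set G) := Sylow.smul_eq_iff_mem_normalizer.1 hx
    exact Sylow.smul_eq_iff_mem_normalizer.2 (Subgroup.zpow_mem _ hN k))
  exact this (Subgroup.mem_zpowers x)

/-- `P ⊓ Q` is the stabiliser of `Q` in `P` -/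
lemma card_inf_mul_orbit (P Q : Sylow p G) :
    Nat.card ((P : Subgroup G) ⊓ (Q : Subgroup G) : Subgroup G) * Nat.card (orbit (P : Subgroup G) Q) = Nat.card (P : Subgroup G) := by
  classical
  have h1 : stabilizer (P : Subgroup G) Q = (Q : Subgroup G).subgroupOf (P : Subgroup G) := by
    ext x
    rw [mem_stabilizer_iff, Subgroup.mem_subgroupOf]
    constructor
    · intro h
      exact mem_of_mem_normalizer Q P x.2 h
    · intro h
      exact Sylow.smul_eq_iff_mem_normalizer.2 (Subgroup.le_normalizer h)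
  have h2 : Nat.card ((P : Subgroup G) ⊓ (Q : Subgroup G) : Subgroup G) = Nat.card (stabilizer (P : Subgroup G) Q) := by
    rw [h1, inf_comm, ← Subgroup.subgroupOf_map_subtype]
    exact Nat.card_congr (Subgroup.equivMapOfInjective _ _ Subtype.coe_injective).toEquiv.symm
  rw [h2, mul_comm]
  have h3 := Subgroup.index_mul_card (stabilizer (P : Subgroup G) Q)
  rw [MulAction.index_stabilizer] at h3
  rw [← h3, Nat.card_coe_set_eq]

/-- the standing hypotheses -/
structure Setup (P : Sylow p G) : Prop where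
  simple : ∀ N : Subgroup G, N.Normal → N = ⊥ ∨ N = ⊤
  top_ne : (P : Subgroup G) ≠ ⊤
  bot_ne : (P : Subgroup G) ≠ ⊥
  orb : ∀ Q : Sylow p G, Q ≠ P → Nat.card (orbit (P : Subgroup G) Q) = p
  norm_orb : ∀ Q : Sylow p G, Q ≠ P → ∀ g ∈ Subgroup.normalizer ((P : Subgroup G) : Set G),
    ∃ u ∈ (P : Subgroup G), g • Q = u • Q

variable {P : Sylow p G}

lemma Setup.card_inf (h : Setup P) (Q : Sylow p G) (hQ : Q ≠ P) :
    Nat.card ((P : Subgroup G) ⊓ (Q : Subgroup G) : Subgroup G) * p = Nat.card (P : Subgroup G) := by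
  have := card_inf_mul_orbit P Q
  rwa [h.orb Q hQ] at this

/-- the intersection of all Sylow subgroups is trivial -/
lemma Setup.mem_all (h : Setup P) {x : G} (hx : ∀ Q : Sylow p G, x ∈ (Q : Subgroup G)) : x = 1 := by
  let K : Subgroup G := ⨅ Q : Sylow p G, (Q : Subgroup G)
  have hK : K.Normal := by
    refine ⟨fun y hy g => ?_⟩
    rw [Subgroup.mem_iInf] at hy ⊢
    intro Q
    have := hy (g⁻¹ • Q)
    rw [mem_smul_iff] at this
    simpa [mul_assoc] using this
  have hle : K ≤ (P : Subgroup G) := iInf_le _ P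
  rcases h.simple K hK with h0 | h0
  · have : x ∈ K := by
      rw [Subgroup.mem_iInf]
      exact hx
    rw [h0] at this
    simpa using this
  · exfalso
    apply h.top_ne
    rw [h0] at hle
    exact top_le_iff.1 hle

/-- `P` is abelian -/
lemma Setup.comm (h : Setup P) {x y : G} (hx : x ∈ (P : Subgroup G)) (hy : y ∈ (P : Subgroup G)) :
    x * y = y * x := by
  have h1 : x * y * x⁻¹ * y⁻¹ = 1 := by
    apply h.mem_all
    intro Q
    by_cases hQ : Q = P
    · subst hQ
      exact Subgroup.mul_mem _ (Subgroup.mul_mem _ (Subgroup.mul_mem _ hx hy) (Subgroup.inv_mem _ hx)) (Subgroup.inv_mem _ hy)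
    · -- index `p` subgroup of a `p`-group
      let T : Subgroup (P : Subgroup G) := (Q : Subgroup G).subgroupOf (P : Subgroup G)
      have hcard := h.card_inf Q hQ
      have hTcard : Nat.card T = Nat.card ((P : Subgroup G) ⊓ (Q : Subgroup G) : Subgroup G) := by
        have : T.map (P : Subgroup G).subtype = (P : Subgroup G) ⊓ (Q : Subgroup G) := by
          rw [inf_comm]
          exact Subgroup.subgroupOf_map_subtype _ _
        rw [← this]
        exact Nat.card_congr (Subgroup.equivMapOfInjective _ _ Subtype.coe_injective).toEquiv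
      have hidx : T.index = p := by
        have h2 := Subgroup.card_mul_index T
        rw [hTcard, ← hcard] at h2
        have hpos : 0 < Nat.card ((P : Subgroup G) ⊓ (Q : Subgroup G) : Subgroup G) := Nat.card_pos
        exact Nat.eq_of_mul_eq_mul_left hpos h2
      have hpf : (Nat.card (P : Subgroup G)).minFac = p := by
        obtain ⟨k, hk⟩ := IsPGroup.iff_card.1 P.isPGroup'
        have hkpos : k ≠ 0 := by
          rintro rfl
          rw [pow_zero] at hk
          rw [hk] at hcard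
          have := Nat.eq_one_of_mul_eq_one_left hcard
          exact hp.out.ne_one this
        rw [hk, Nat.Prime.pow_minFac hp.out hkpos]
      have hTn : T.Normal := Subgroup.normal_of_index_eq_minFac_card (by rw [hidx, hpf])
      have hquot : Nat.card ((P : Subgroup G) ⧸ T) = p := by
        rw [← Subgroup.index_eq_card, hidx]
      haveI : IsCyclic ((P : Subgroup G) ⧸ T) := isCyclic_of_prime_card hquot
      let x' : (P : Subgroup G) := ⟨x, hx⟩
      let y' : (P : Subgroup G) := ⟨y, hy⟩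
      have hcomm : ((x' : (P : Subgroup G)) : (P : Subgroup G) ⧸ T) * (y' : (P : Subgroup G) ⧸ T) = (y' : (P : Subgroup G) ⧸ T) * (x' : (P : Subgroup G) ⧸ T) :=
        IsCyclic.commGroup.mul_comm _ _
      have h3 : x' * y' * x'⁻¹ * y'⁻¹ ∈ T := by
        rw [← QuotientGroup.eq_one_iff, QuotientGroup.mk_mul, QuotientGroup.mk_mul, QuotientGroup.mk_mul, QuotientGroup.mk_inv, QuotientGroup.mk_inv, hcomm]
        group
      exact h3
  have h2 : x * y * x⁻¹ = y := by
    rwa [mul_inv_eq_one] at h1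
  rw [mul_inv_eq_iff_eq_mul] at h2
  exact h2

/-- all Sylow subgroups are abelian -/
lemma Setup.comm' (h : Setup P) (Q : Sylow p G) {x y : G} (hx : x ∈ (Q : Subgroup G)) (hy : y ∈ (Q : Subgroup G)) :
    x * y = y * x := by
  obtain ⟨g, rfl⟩ := MulAction.exists_smul_eq G P Q
  rw [mem_smul_iff] at hx hy
  have := h.comm hx hy
  have h2 : g * (g⁻¹ * x * g * (g⁻¹ * y * g)) * g⁻¹ = g * (g⁻¹ * y * g * (g⁻¹ * x * g)) * g⁻¹ := by rw [this]
  simpa [mul_assoc] using h2

/-- the elements of `N(P)` normalise `P ⊓ Q` -/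
lemma Setup.norm_inf (h : Setup P) {Q₀ : Sylow p G} (hQ₀ : Q₀ ≠ P) {g x : G}
    (hg : g ∈ Subgroup.normalizer ((P : Subgroup G) : Set G))
    (hx : x ∈ (P : Subgroup G) ⊓ (Q₀ : Subgroup G)) :
    g * x * g⁻¹ ∈ (P : Subgroup G) ⊓ (Q₀ : Subgroup G) := by
  obtain ⟨u, hu, hgu⟩ := h.norm_orb Q₀ hQ₀ g hg
  have h1 : g * x * g⁻¹ ∈ (P : Subgroup G) := (Subgroup.mem_normalizer_iff.1 hg x).1 hx.1
  refine ⟨h1, ?_⟩
  have h2 : g * x * g⁻¹ ∈ ((g • Q₀ : Sylow p G) : Subgroup G) := conj_mem_smul g Q₀ hx.2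
  rw [hgu, mem_smul_iff] at h2
  have h3 : u⁻¹ * (g * x * g⁻¹) * u = g * x * g⁻¹ := by
    have := h.comm (Subgroup.inv_mem _ hu) h1
    rw [this]
    group
  rwa [h3] at h2

/-- `P ⊓ Q` is weakly closed in `P` -/
lemma Setup.weak (h : Setup P) {Q₀ : Sylow p G} (hQ₀ : Q₀ ≠ P) (g : G)
    (hg : ∀ y ∈ (P : Subgroup G) ⊓ (Q₀ : Subgroup G), g * y * g⁻¹ ∈ (P : Subgroup G))
    {x : G} (hx : x ∈ (P : Subgroup G) ⊓ (Q₀ : Subgroup G)) :
    g * x * g⁻¹ ∈ (P : Subgroup G) ⊓ (Q₀ : Subgroup G) := by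
  set D := (P : Subgroup G) ⊓ (Q₀ : Subgroup G) with hD
  let R : Sylow p G := g⁻¹ • P
  have hDR : ∀ y ∈ D, y ∈ (R : Subgroup G) := by
    intro y hy
    rw [mem_smul_iff]
    simpa using hg y hy
  let K : Subgroup G := Subgroup.centralizer (D : Set G)
  have hPK : (P : Subgroup G) ≤ K := by
    intro w hw
    rw [Subgroup.mem_centralizer_iff]
    intro y hy
    exact h.comm (Subgroup.mem_inf.1 hy).1 hw
  have hRK : (R : Subgroup G) ≤ K := by
    intro w hw
    rw [Subgroup.mem_centralizer_iff]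
    intro y hy
    exact h.comm' R (hDR y hy) hw
  obtain ⟨c, hc, hcR⟩ := conj_in K R P hRK hPK
  have hn : c * g⁻¹ ∈ Subgroup.normalizer ((P : Subgroup G) : Set G) := by
    apply Sylow.smul_eq_iff_mem_normalizer.1
    rw [mul_smul]
    exact hcR
  have hn' := Subgroup.inv_mem _ hn
  have h1 := h.norm_inf hQ₀ hn' hx
  have h2 : (c * g⁻¹)⁻¹ * x * (c * g⁻¹)⁻¹⁻¹ = g * x * g⁻¹ := by
    have h3 : c * x = x * c := (Subgroup.mem_centralizer_iff.1 hc x hx).symm
    have h4 : c⁻¹ * x * c = x := by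
      rw [mul_assoc, ← h3]
      group
    calc (c * g⁻¹)⁻¹ * x * (c * g⁻¹)⁻¹⁻¹ = g * (c⁻¹ * x * c) * g⁻¹ := by group
      _ = g * x * g⁻¹ := by rw [h4]
  rwa [h2] at h1

/-- index-`p` subgroups of `P` are maximal -/
lemma eq_of_card_mul {A B : Subgroup G} (hAB : A ≤ B) (hB : B ≤ (P : Subgroup G)) (hne : B ≠ (P : Subgroup G))
    (hA : Nat.card A * p = Nat.card (P : Subgroup G)) : A = B := by
  have h1 : Nat.card A ∣ Nat.card B := Subgroup.card_dvd_of_le hAB
  have h2 : Nat.card B ∣ Nat.card (P : Subgroup G) := Subgroup.card_dvd_of_le hB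
  obtain ⟨k, hk⟩ := h1
  obtain ⟨l, hl⟩ := h2
  rw [hk, ← hA, mul_assoc] at hl
  have hpos : 0 < Nat.card A := Nat.card_pos
  have h3 : k * l = p := (Nat.eq_of_mul_eq_mul_left hpos hl).symm
  have hl1 : l ≠ 1 := by
    rintro rfl
    rw [mul_one] at hl
    apply hne
    apply Subgroup.eq_of_le_of_card_ge hB
    rw [hk, ← hA, mul_one] at *
    omega
  have hk1 : k = 1 := by
    rcases (Nat.dvd_prime hp.out).1 (Dvd.intro _ h3) with h4 | h4
    · exact h4
    · exfalso
      rw [h4] at h3
      have hp0 := hp.out.pos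
      apply hl1
      nlinarith
  apply Subgroup.eq_of_le_of_card_ge hAB
  rw [hk, hk1, mul_one]

/-- the main step: `P ⊓ Q` is normal in `G` -/
lemma Setup.inf_normal (h : Setup P) {Q₀ : Sylow p G} (hQ₀ : Q₀ ≠ P) :
    ∀ (g x : G), x ∈ (P : Subgroup G) ⊓ (Q₀ : Subgroup G) → g * x * g⁻¹ ∈ (P : Subgroup G) ⊓ (Q₀ : Subgroup G) := by
  intro g x hx
  by_contra hcon
  set D := (P : Subgroup G) ⊓ (Q₀ : Subgroup G) with hD
  have hnotle : ¬ ∀ y ∈ D, g * y * g⁻¹ ∈ (P : Subgroup G) := fun hle => hcon (h.weak hQ₀ g hle hx)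
  let D' : Subgroup G := D.map (MulAut.conj g).toMonoidHom
  have hmemD' : ∀ w, w ∈ D' ↔ g⁻¹ * w * g ∈ D := by
    intro w
    constructor
    · rintro ⟨y, hy, rfl⟩
      have : g⁻¹ * ((MulAut.conj g).toMonoidHom y) * g = y := by
        simp [MulAut.conj_apply, mul_assoc]
      rwa [this]
    · intro hw
      refine ⟨_, hw, ?_⟩
      simp [MulAut.conj_apply, mul_assoc]
  have hcardD' : Nat.card D' = Nat.card D :=
    Nat.card_congr (Subgroup.equivMapOfInjective D _ (MulAut.conj g).injective).toEquiv.symm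
  let Q' : Sylow p G := g • P
  let Q'' : Sylow p G := g • Q₀
  have hD'Q' : ∀ w ∈ D', w ∈ (Q' : Subgroup G) := fun w hw => (mem_smul_iff g P w).2 ((hmemD' w).1 hw).1
  have hD'Q'' : ∀ w ∈ D', w ∈ (Q'' : Subgroup G) := fun w hw => (mem_smul_iff g Q₀ w).2 ((hmemD' w).1 hw).2
  have hnotle' : ¬ ∀ w ∈ D', w ∈ (P : Subgroup G) := by
    intro hle
    apply hnotle
    intro y hy
    apply hle
    rw [hmemD']
    simpa [mul_assoc] using hy
  have hQ'P : Q' ≠ P := by
    intro he
    apply hnotle'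
    intro w hw
    have := hD'Q' w hw
    rwa [he] at this
  have hQ''P : Q'' ≠ P := by
    intro he
    apply hnotle'
    intro w hw
    have := hD'Q'' w hw
    rwa [he] at this
  let K : Subgroup G := Subgroup.normalizer (D' : Set G)
  have hQ'K : (Q' : Subgroup G) ≤ K := by
    intro w hw
    rw [Subgroup.mem_normalizer_iff]
    intro y
    constructor
    · intro hy
      have : w * y * w⁻¹ = y := by
        rw [h.comm' Q' hw (hD'Q' y hy)]
        group
      rwa [this]
    · intro hy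
      have hy' : y ∈ (Q' : Subgroup G) := by
        have h2 := hD'Q' _ hy
        have h3 := Subgroup.mul_mem _ (Subgroup.mul_mem _ (Subgroup.inv_mem _ hw) h2) hw
        simpa [mul_assoc] using h3
      have : w * y * w⁻¹ = y := by
        rw [h.comm' Q' hw hy']
        group
      rwa [this] at hy
  have hQ''K : (Q'' : Subgroup G) ≤ K := by
    intro w hw
    rw [Subgroup.mem_normalizer_iff]
    intro y
    constructor
    · intro hy
      have : w * y * w⁻¹ = y := by
        rw [h.comm' Q'' hw (hD'Q'' y hy)]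
        group
      rwa [this]
    · intro hy
      have hy' : y ∈ (Q'' : Subgroup G) := by
        have h2 := hD'Q'' _ hy
        have h3 := Subgroup.mul_mem _ (Subgroup.mul_mem _ (Subgroup.inv_mem _ hw) h2) hw
        simpa [mul_assoc] using h3
      have : w * y * w⁻¹ = y := by
        rw [h.comm' Q'' hw hy']
        group
      rwa [this] at hy
  have hPK : ¬ (P : Subgroup G) ≤ K := by
    intro hle
    obtain ⟨y, hy, hyQ⟩ := conj_in K Q' P hQ'K hle
    apply hnotle'
    intro w hw
    have h1 : y⁻¹ * w * y ∈ D' := by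
      have := (Subgroup.mem_normalizer_iff.1 (Subgroup.inv_mem _ hy) w).1 hw
      simpa using this
    have h2 := conj_mem_smul y Q' (hD'Q' _ h1)
    rw [hyQ] at h2
    simpa [mul_assoc] using h2
  let S : Subgroup G := (P : Subgroup G) ⊓ K
  have hSP : S ≤ (P : Subgroup G) := inf_le_left
  have hSne : S ≠ (P : Subgroup G) := by
    intro he
    apply hPK
    rw [← he]
    exact inf_le_right
  have h1 : (P : Subgroup G) ⊓ (Q' : Subgroup G) = S :=
    eq_of_card_mul (inf_le_inf_left _ hQ'K) hSP hSne (h.card_inf Q' hQ'P)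
  have h2 : (P : Subgroup G) ⊓ (Q'' : Subgroup G) = S :=
    eq_of_card_mul (inf_le_inf_left _ hQ''K) hSP hSne (h.card_inf Q'' hQ''P)
  have hSD' : S ≤ D' := by
    intro w hw
    have hw1 : w ∈ (Q' : Subgroup G) := by
      rw [← h1] at hw
      exact hw.2
    have hw2 : w ∈ (Q'' : Subgroup G) := by
      rw [← h2] at hw
      exact hw.2
    rw [hmemD']
    exact ⟨(mem_smul_iff g P w).1 hw1, (mem_smul_iff g Q₀ w).1 hw2⟩
  have hcard : Nat.card S = Nat.card D' := by
    rw [hcardD']
    have h3 := h.card_inf Q' hQ'P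
    have h4 := h.card_inf Q₀ hQ₀
    rw [h1] at h3
    have h5 : Nat.card S * p = Nat.card D * p := by rw [h3, h4]
    exact Nat.eq_of_mul_eq_mul_right hp.out.pos h5
  have hSeq : S = D' := Subgroup.eq_of_le_of_card_ge hSD' hcard.ge
  apply hnotle'
  intro w hw
  rw [← hSeq] at hw
  exact hw.1

/-- there is a second Sylow subgroup -/
lemma Setup.exists_ne (h : Setup P) : ∃ Q : Sylow p G, Q ≠ P := by
  by_contra hcon
  push Not at hcon
  have hn : (P : Subgroup G).Normal := by
    refine ⟨fun x hx g => ?_⟩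
    have h1 := hcon (g • P)
    have h2 := (mem_smul_iff g P (g * x * g⁻¹)).2 (by simpa [mul_assoc] using hx)
    rwa [h1] at h2
  rcases h.simple _ hn with h0 | h0
  · exact h.bot_ne h0
  · exact h.top_ne h0

/-- the Sylow subgroups have order `p` -/
theorem Setup.card_eq (h : Setup P) : Nat.card (P : Subgroup G) = p := by
  obtain ⟨Q₀, hQ₀⟩ := h.exists_ne
  have hn : ((P : Subgroup G) ⊓ (Q₀ : Subgroup G)).Normal := ⟨fun x hx g => h.inf_normal hQ₀ g x hx⟩
  have h2 := h.card_inf Q₀ hQ₀
  rcases h.simple _ hn with h0 | h0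
  · rw [h0, Subgroup.card_bot, one_mul] at h2
    exact h2.symm
  · exfalso
    apply h.top_ne
    exact top_le_iff.1 (h0 ▸ inf_le_left)

lemma Setup.inf_eq_bot (h : Setup P) (Q : Sylow p G) (hQ : Q ≠ P) :
    (P : Subgroup G) ⊓ (Q : Subgroup G) = ⊥ := by
  have h2 := h.card_inf Q hQ
  rw [h.card_eq] at h2
  have h3 : Nat.card ((P : Subgroup G) ⊓ (Q : Subgroup G) : Subgroup G) = 1 := by
    have hp0 := hp.out.pos
    nlinarith
  exact Subgroup.eq_bot_of_card_eq _ h3

/-- `P` is a trivial intersection subgroup -/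
lemma Setup.ti (h : Setup P) {x z : G} (hx : x ∈ (P : Subgroup G)) (hx1 : x ≠ 1)
    (hz : z⁻¹ * x * z ∈ (P : Subgroup G)) : z ∈ Subgroup.normalizer ((P : Subgroup G) : Set G) := by
  by_contra hcon
  have hne : z • P ≠ P := fun he => hcon (Sylow.smul_eq_iff_mem_normalizer.1 he)
  have h1 := h.inf_eq_bot (z • P) hne
  have h2 : x ∈ (P : Subgroup G) ⊓ ((z • P : Sylow p G) : Subgroup G) := ⟨hx, (mem_smul_iff z P x).2 hz⟩
  rw [h1] at h2
  exact hx1 (by simpa using h2)

/-- a `p`-element of `N(P)` lies in `P` -/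
lemma mem_of_normalizer_pow {P : Sylow p G} {y : G} (hy : y ∈ Subgroup.normalizer ((P : Subgroup G) : Set G))
    {k : ℕ} (hk : y ^ p ^ k = 1) : y ∈ (P : Subgroup G) := by
  have hT : IsPGroup p (Subgroup.zpowers y) := by
    rw [IsPGroup.iff_card]
    have h1 : orderOf y ∣ p ^ k := orderOf_dvd_of_pow_eq_one hk
    obtain ⟨i, -, hi⟩ := (Nat.dvd_prime_pow hp.out).1 h1
    exact ⟨i, by rw [Nat.card_zpowers, hi]⟩
  have := le_of_fix P (Subgroup.zpowers y) hT (by
    intro t ht
    obtain ⟨i, rfl⟩ := ht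
    exact Sylow.smul_eq_iff_mem_normalizer.2 (Subgroup.zpow_mem _ hy i))
  exact this (Subgroup.mem_zpowers y)

/-- an element of prime order `≠ p` centralising `P` is trivial -/
lemma Setup.centralizer_prime (h : Setup P) {y : G} (hy : ∀ u ∈ (P : Subgroup G), y * u = u * y)
    {q : ℕ} (hq : q.Prime) (hqp : q ≠ p) (hyq : y ^ q = 1) : y = 1 := by
  have hyN : y ∈ Subgroup.normalizer ((P : Subgroup G) : Set G) := by
    rw [Subgroup.mem_normalizer_iff]
    intro u
    constructor
    · intro hu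
      have : y * u * y⁻¹ = u := by rw [hy u hu]; group
      rwa [this]
    · intro hu
      have hu' : u ∈ (P : Subgroup G) := by
        have h2 := hy _ hu
        have h3 : y * u * y⁻¹ * y = y * (y * u * y⁻¹) := h2.symm
        have h4 : y * u = y * (y * u * y⁻¹) := by simpa [mul_assoc] using h3
        have h5 : u = y * u * y⁻¹ := mul_left_cancel h4
        rwa [← h5] at hu
      exact hu'
  have hfix : ∀ Q : Sylow p G, y • Q = Q := by
    intro Q
    by_cases hQ : Q = P
    · subst hQ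
      exact Sylow.smul_eq_iff_mem_normalizer.2 hyN
    · obtain ⟨u, hu, hyu⟩ := h.norm_orb Q hQ y hyN
      have hit : ∀ k : ℕ, y ^ k • Q = u ^ k • Q := by
        intro k
        induction k with
        | zero => simp
        | succ k ih =>
          rw [pow_succ', mul_smul, ih, pow_succ', mul_smul]
          have hcomm : ∀ j : ℕ, y * u ^ j = u ^ j * y := by
            intro j
            exact ((Commute.pow_right (show Commute y u from hy u hu) j) : _)
          rw [← mul_smul, hcomm, mul_smul, hyu]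
          rw [← mul_smul, ← mul_smul]
          congr 1
          exact ((Commute.pow_left (Commute.refl u) k) : _)
      have h1 := hit q
      rw [hyq, one_smul] at h1
      have h2 : u ^ q ∈ (Q : Subgroup G) := mem_of_mem_normalizer Q P (Subgroup.pow_mem _ hu q) h1.symm
      have h3 : u ^ q ∈ (P : Subgroup G) ⊓ (Q : Subgroup G) := ⟨Subgroup.pow_mem _ hu q, h2⟩
      rw [h.inf_eq_bot Q hQ, Subgroup.mem_bot] at h3
      have h4 : u ^ p = 1 := by
        have : (⟨u, hu⟩ : (P : Subgroup G)) ^ Nat.card (P : Subgroup G) = 1 := pow_card_eq_one'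
        rw [h.card_eq] at this
        have := congrArg Subtype.val this
        simpa using this
      have h5 : u = 1 := by
        have h6 : orderOf u ∣ Nat.gcd q p := Nat.dvd_gcd (orderOf_dvd_of_pow_eq_one h3) (orderOf_dvd_of_pow_eq_one h4)
        rw [(Nat.coprime_primes hq hp.out).2 hqp] at h6
        exact orderOf_eq_one_iff.1 (Nat.dvd_one.1 h6)
      rw [hyu, h5, one_smul]
  let K : Subgroup G := ⨅ Q : Sylow p G, Subgroup.normalizer ((Q : Subgroup G) : Set G)
  have hK : K.Normal := by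
    refine ⟨fun w hw g => ?_⟩
    rw [Subgroup.mem_iInf] at hw ⊢
    intro Q
    apply Sylow.smul_eq_iff_mem_normalizer.1
    have h1 := Sylow.smul_eq_iff_mem_normalizer.2 (hw (g⁻¹ • Q))
    have h2 : (g * w * g⁻¹) • Q = g • (w • (g⁻¹ • Q)) := by simp [mul_smul]
    rw [h2, h1]
    simp
  have hyK : y ∈ K := by
    rw [Subgroup.mem_iInf]
    intro Q
    exact Sylow.smul_eq_iff_mem_normalizer.1 (hfix Q)
  rcases h.simple K hK with h0 | h0
  · rw [h0] at hyK
    simpa using hyK
  · exfalso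
    obtain ⟨Q₀, hQ₀⟩ := h.exists_ne
    have hn : (P : Subgroup G).Normal := by
      have h1 : Subgroup.normalizer ((P : Subgroup G) : Set G) = ⊤ := by
        refine top_le_iff.1 ?_
        rw [← h0]
        exact iInf_le _ P
      exact Subgroup.normalizer_eq_top_iff.1 h1
    rcases h.simple _ hn with h3 | h3
    · exact h.bot_ne h3
    · exact h.top_ne h3

/-- `C_G(P) = P` -/
theorem Setup.centralizer_le (h : Setup P) {y : G} (hy : ∀ u ∈ (P : Subgroup G), y * u = u * y) :
    y ∈ (P : Subgroup G) := by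
  classical
  let C : Subgroup G := Subgroup.centralizer ((P : Subgroup G) : Set G)
  have hyC : y ∈ C := by
    rw [Subgroup.mem_centralizer_iff]
    intro u hu
    exact (hy u hu).symm
  have hPC : (P : Subgroup G) ≤ C := by
    intro w hw
    rw [Subgroup.mem_centralizer_iff]
    intro u hu
    exact h.comm hu hw
  have hC : IsPGroup p C := by
    rw [IsPGroup.iff_card]
    have hu : ∀ {d : ℕ}, d.Prime → d ∣ Nat.card C → d = p := by
      intro d hd hdvd
      by_contra hne
      haveI : Fact d.Prime := ⟨hd⟩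
      obtain ⟨z, hz⟩ := exists_prime_orderOf_dvd_card' d hdvd
      have hz1 : (z : G) ^ d = 1 := by
        have := pow_orderOf_eq_one z
        rw [hz] at this
        simpa using congrArg Subtype.val this
      have hz2 : ∀ u ∈ (P : Subgroup G), (z : G) * u = u * z := by
        intro u hu
        exact (Subgroup.mem_centralizer_iff.1 z.2 u hu).symm
      have hz3 := h.centralizer_prime hz2 hd hne hz1
      have hz4 : z = 1 := Subtype.ext hz3
      rw [hz4, orderOf_one] at hz
      exact hd.one_lt.ne hz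
    exact ⟨_, Nat.eq_prime_pow_of_unique_prime_dvd Nat.card_pos.ne' hu⟩
  have h1 : C = (P : Subgroup G) := P.is_maximal' hC hPC
  rw [← h1]
  exact hyC

/-- `N(P)/P` is abelian -/
lemma Setup.comm_mod (h : Setup P) {a b : G} (ha : a ∈ Subgroup.normalizer ((P : Subgroup G) : Set G))
    (hb : b ∈ Subgroup.normalizer ((P : Subgroup G) : Set G)) : a⁻¹ * b⁻¹ * a * b ∈ (P : Subgroup G) := by
  apply h.centralizer_le
  intro u hu
  -- cyclic of prime order
  haveI : Fact p.Prime := hp
  have hcard := h.card_eq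
  haveI : IsCyclic (P : Subgroup G) := isCyclic_of_prime_card hcard
  obtain ⟨x, hx⟩ := IsCyclic.exists_generator (α := (P : Subgroup G))
  have hact : ∀ c ∈ Subgroup.normalizer ((P : Subgroup G) : Set G), ∃ k : ℤ, ∀ w ∈ (P : Subgroup G), c * w * c⁻¹ = w ^ k := by
    intro c hc
    have h1 : c * (x : G) * c⁻¹ ∈ (P : Subgroup G) := (Subgroup.mem_normalizer_iff.1 hc x).1 x.2
    obtain ⟨k, hk⟩ := hx ⟨_, h1⟩
    have hk' : ((x : G)) ^ k = c * (x : G) * c⁻¹ := by
      have := congrArg Subtype.val hk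
      simpa using this
    refine ⟨k, fun w hw => ?_⟩
    obtain ⟨j, hj⟩ := hx ⟨w, hw⟩
    have hj' : (x : G) ^ j = w := by
      have := congrArg Subtype.val hj
      simpa using this
    rw [← hj', ← conj_zpow, ← hk', ← zpow_mul, ← zpow_mul, mul_comm]
  obtain ⟨k₁, hk₁⟩ := hact a ha
  obtain ⟨k₂, hk₂⟩ := hact b hb
  have hcomm : (a * b) * u * (a * b)⁻¹ = (b * a) * u * (b * a)⁻¹ := by
    have h1 : (a * b) * u * (a * b)⁻¹ = a * (b * u * b⁻¹) * a⁻¹ := by group
    have h2 : (b * a) * u * (b * a)⁻¹ = b * (a * u * a⁻¹) * b⁻¹ := by group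
    rw [h1, h2, hk₂ u hu, hk₁ u hu, hk₁ _ (Subgroup.zpow_mem _ hu k₂), hk₂ _ (Subgroup.zpow_mem _ hu k₁), ← zpow_mul, ← zpow_mul, mul_comm]
  have h3 : (b * a)⁻¹ * (a * b) * u = u * ((b * a)⁻¹ * (a * b)) := by
    have h4 : (a * b) * u = (b * a) * u * (b * a)⁻¹ * (a * b) := by
      rw [← hcomm]
      group
    calc (b * a)⁻¹ * (a * b) * u = (b * a)⁻¹ * ((a * b) * u) := by group
      _ = (b * a)⁻¹ * ((b * a) * u * (b * a)⁻¹ * (a * b)) := by rw [h4]
      _ = u * ((b * a)⁻¹ * (a * b)) := by group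
  have h5 : (b * a)⁻¹ * (a * b) = a⁻¹ * b⁻¹ * a * b := by group
  rwa [h5] at h3

/-- `N(P) ≠ P` (Burnside's transfer theorem) -/
lemma Setup.normalizer_ne (h : Setup P) :
    ¬ Subgroup.normalizer ((P : Subgroup G) : Set G) ≤ (P : Subgroup G) := by
  intro hle
  have hc : Subgroup.normalizer ((P : Subgroup G) : Set G) ≤ Subgroup.centralizer ((P : Subgroup G) : Set G) := by
    intro w hw
    rw [Subgroup.mem_centralizer_iff]
    intro u hu
    exact h.comm hu (hle hw)
  have hfi : (P : Subgroup G).FiniteIndex := inferInstance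
  have hcomp := MonoidHom.ker_transferSylow_isComplement' P hc
  have hnorm : (MonoidHom.transferSylow P hc).ker.Normal := inferInstance
  have hcard := hcomp.card_mul
  rcases h.simple _ hnorm with h0 | h0
  · rw [h0, Subgroup.card_bot, one_mul] at hcard
    apply h.top_ne
    exact Subgroup.eq_top_of_card_eq _ hcard
  · rw [h0, Subgroup.card_top] at hcard
    have hpos : 0 < Nat.card G := Nat.card_pos
    have h1 : Nat.card (P : Subgroup G) = 1 := by nlinarith
    exact h.bot_ne (Subgroup.eq_bot_of_card_eq _ h1)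

end Cfsg.Agent.H17.PD
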