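import Mathlib
import Cfsg.Agent.Lib.H17.Pd1
import Cfsg.Agent.Lib.H03.PC3
import Cfsg.Agent.Lib.H04.Cliff.Perm
import Cfsg.Agent.Lib.H04.Cliff.QP
import Cfsg.Agent.Lib.H23.CharAvg
import Cfsg.Agent.Lib.H10.CharGen
import Cfsg.Agent.Lib.H06.CharClifford
import Cfsg.Agent.Lib.H23.Ito2

/-! Induced characters from a TI Sylow subgroup of prime order. -/

set_option autoImplicit false
set_option linter.style.longLine false
set_option linter.unusedSectionVars false
set_option linter.unusedVariables false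

namespace Cfsg.Agent.H17.PD

open Cfsg Cfsg.Agent.H21 MulAction
open scoped ComplexConjugate

section Norm

variable {G : Type*} [Group G] [Fintype G] (H : Subgroup G) [Fintype H]

lemma inner_ind_self (θ : H → ℂ) :
    classInner (indFun H θ) (indFun H θ) =
      ((Nat.card H : ℂ)⁻¹) ^ 2 * ∑ n : H, ∑ x : G, θ n * conj (extendByZero H θ (x⁻¹ * n * x)) := by
  rw [frobenius_reciprocity H θ _ (indFun_isClass H θ)]
  unfold classInner
  simp only [indFun, map_mul, map_sum, map_inv₀, map_natCast]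
  rw [sq, mul_assoc]
  congr 1
  rw [Finset.mul_sum]
  refine Finset.sum_congr rfl fun n _ => ?_
  rw [← mul_assoc, mul_comm (θ n), mul_assoc, Finset.mul_sum]

lemma extend_one_apply (y : G) [Decidable (y ∈ H)] :
    extendByZero H (fun _ => (1 : ℂ)) y = if y ∈ H then 1 else 0 := by
  split_ifs with h
  · exact extendByZero_coe (H := H) (fun _ => (1 : ℂ)) ⟨y, h⟩
  · exact extendByZero_of_not_mem (H := H) _ h

/-- the norm of an induced linear character is at most that of the induced principal character -/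
lemma norm_inner_ind_le (θ : H → ℂ) (hθ : ∀ n, ‖θ n‖ ≤ 1) :
    ‖classInner (indFun H θ) (indFun H θ)‖ ≤ ‖classInner (indFun H (fun _ => (1 : ℂ))) (indFun H (fun _ => (1 : ℂ)))‖ := by
  classical
  let T : ℝ := ∑ n : H, ∑ x : G, if x⁻¹ * n * x ∈ H then (1 : ℝ) else 0
  have hT : (0 : ℝ) ≤ T := Finset.sum_nonneg fun n _ => Finset.sum_nonneg fun x _ => by split_ifs <;> norm_num
  have h1 : classInner (indFun H (fun _ => (1 : ℂ))) (indFun H (fun _ => (1 : ℂ))) =
      ((Nat.card H : ℂ)⁻¹) ^ 2 * (T : ℂ) := by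
    rw [inner_ind_self]
    congr 1
    simp only [T]
    push_cast
    refine Finset.sum_congr rfl fun n _ => Finset.sum_congr rfl fun x _ => ?_
    rw [extend_one_apply, one_mul]
    split_ifs <;> simp
  have hc : ‖((Nat.card H : ℂ)⁻¹) ^ 2‖ = ((Nat.card H : ℝ)⁻¹) ^ 2 := by
    simp
  have h2 : ‖((Nat.card H : ℂ)⁻¹) ^ 2 * (T : ℂ)‖ = ((Nat.card H : ℝ)⁻¹) ^ 2 * T := by
    rw [norm_mul, hc, Complex.norm_real, Real.norm_of_nonneg hT]
  rw [h1, h2, inner_ind_self, norm_mul, hc]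
  refine mul_le_mul_of_nonneg_left ?_ (by positivity)
  calc ‖∑ n : H, ∑ x : G, θ n * conj (extendByZero H θ (x⁻¹ * n * x))‖
      ≤ ∑ n : H, ‖∑ x : G, θ n * conj (extendByZero H θ (x⁻¹ * n * x))‖ := norm_sum_le _ _
    _ ≤ ∑ n : H, ∑ x : G, ‖θ n * conj (extendByZero H θ (x⁻¹ * n * x))‖ :=
        Finset.sum_le_sum fun n _ => norm_sum_le _ _
    _ ≤ T := by
        refine Finset.sum_le_sum fun n _ => Finset.sum_le_sum fun x _ => ?_
        rw [norm_mul, RCLike.norm_conj]
        split_ifs with hy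
        · have h3 : extendByZero H θ (x⁻¹ * n * x) = θ ⟨_, hy⟩ := extendByZero_coe (H := H) θ ⟨_, hy⟩
          rw [h3]
          have h4 := hθ n
          have h5 := hθ ⟨_, hy⟩
          calc ‖θ n‖ * ‖θ ⟨_, hy⟩‖ ≤ 1 * 1 := mul_le_mul h4 h5 (norm_nonneg _) (by norm_num)
            _ = 1 := by norm_num
        · rw [extendByZero_of_not_mem (H := H) _ hy]
          simp

end Norm

section Values

variable {G : Type*} [Group G] [Fintype G] {p : ℕ} [hp : Fact p.Prime] {P : Sylow p G}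

/-- the normaliser of a Sylow subgroup -/
abbrev Nm (P : Sylow p G) : Subgroup G := Subgroup.normalizer ((P : Subgroup G) : Set G)

lemma conj_mem_P {z : G} (hz : z ∈ Nm P) {x : G} (hx : x ∈ (P : Subgroup G)) :
    z⁻¹ * x * z ∈ (P : Subgroup G) := by
  have := (Subgroup.mem_normalizer_iff.1 (Subgroup.inv_mem _ hz) x).1 hx
  simpa using this

/-- conjugation on `P` by an element of `N(P)` -/
def cj (z : Nm P) (x : (P : Subgroup G)) : (P : Subgroup G) := ⟨(z : G)⁻¹ * x * z, conj_mem_P z.2 x.2⟩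

lemma Setup.pow_eq (h : Setup P) {x : G} (hx : x ∈ (P : Subgroup G)) : x ^ p = 1 := by
  have : (⟨x, hx⟩ : (P : Subgroup G)) ^ Nat.card (P : Subgroup G) = 1 := pow_card_eq_one'
  rw [h.card_eq] at this
  have := congrArg Subtype.val this
  simpa using this

lemma Setup.not_mem_nm (h : Setup P) {x z : G} (hx : x ∈ (P : Subgroup G)) (hx1 : x ≠ 1) (hz : z ∉ Nm P) :
    z⁻¹ * x * z ∉ Nm P := by
  intro hy
  have h1 : (z⁻¹ * x * z) ^ p ^ 1 = 1 := by
    rw [pow_one]
    have : (z⁻¹ * x * z) ^ p = z⁻¹ * x ^ p * z := by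
      have h2 := conj_pow (a := z⁻¹) (b := x) (i := p)
      simpa using h2
    rw [this, h.pow_eq hx]
    group
  have h2 := mem_of_normalizer_pow hy h1
  exact hz (h.ti hx hx1 h2)

lemma Setup.ind_norm_val (h : Setup P) [Fintype (Nm P)] (l : Nm P → ℂ) (hl : ∀ n : Nm P, (n : G) ∈ (P : Subgroup G) → l n = 1)
    {x : G} (hx : x ∈ (P : Subgroup G)) (hx1 : x ≠ 1) : indFun (Nm P) l x = 1 := by
  classical
  have hne : (Nat.card (Nm P) : ℂ) ≠ 0 := by exact_mod_cast Nat.card_pos.ne'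
  have h1 : ∀ z : G, extendByZero (Nm P) l (z⁻¹ * x * z) = if z ∈ Nm P then 1 else 0 := by
    intro z
    split_ifs with hz
    · have hm := conj_mem_P hz hx
      have hmN : z⁻¹ * x * z ∈ Nm P := Subgroup.le_normalizer hm
      have := extendByZero_coe (H := Nm P) l ⟨_, hmN⟩
      rw [show (((⟨_, hmN⟩ : Nm P)) : G) = z⁻¹ * x * z from rfl] at this
      rw [this]
      exact hl _ hm
    · exact extendByZero_of_not_mem (H := Nm P) _ (h.not_mem_nm hx hx1 hz)
  unfold indFun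
  simp only [h1]
  have h2 : ((Finset.univ.filter (fun z : G => z ∈ Nm P)).card : ℂ) = (Nat.card (Nm P) : ℂ) := by
    rw [Nat.card_eq_fintype_card, Fintype.card_subtype]
  rw [Finset.sum_boole, h2]
  exact inv_mul_cancel₀ hne

lemma Setup.ind_P_val (h : Setup P) [Fintype (Nm P)] [Fintype (P : Subgroup G)] (θ : ↥(P : Subgroup G) → ℂ)
    {x : G} (hx : x ∈ (P : Subgroup G)) (hx1 : x ≠ 1) :
    indFun (P : Subgroup G) θ x = (Nat.card (P : Subgroup G) : ℂ)⁻¹ * ∑ z : Nm P, θ (cj z ⟨x, hx⟩) := by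
  classical
  unfold indFun
  congr 1
  have h1 := Cfsg.Agent.H04.Cliff.QP.sum_subgroup (Nm P) (fun z : G => extendByZero (P : Subgroup G) θ (z⁻¹ * x * z))
  have h2 : ∑ z : Nm P, θ (cj z ⟨x, hx⟩) = ∑ z : Nm P, extendByZero (P : Subgroup G) θ ((z : G)⁻¹ * x * z) := by
    refine Finset.sum_congr rfl fun z _ => ?_
    exact (extendByZero_coe (H := (P : Subgroup G)) θ (cj z ⟨x, hx⟩)).symm
  rw [h2, h1]
  refine Finset.sum_congr rfl fun z _ => ?_
  split_ifs with hz
  · rfl
  · refine extendByZero_of_not_mem (H := (P : Subgroup G)) _ fun hm => ?_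
    exact hz (h.ti hx hx1 hm)

end Values

/-- the counting core -/
lemma count_core {I : Type*} [Fintype I] (a m1 deg : I → ℕ) (r p : ℕ) (hp : 0 < p) (hr1 : 1 ≤ r)
    (h1 : ∑ i, (a i) ^ 2 ≤ r) (h2 : ∑ i, a i * deg i = 1 + p * (r - 1)) (h3 : ∀ i, deg i ≤ p)
    (h4 : ∑ i, a i * m1 i = r) (h5 : ∀ i, a i ≠ 0 → m1 i ≠ 0) (i : I) (hi : a i ≠ 0) : m1 i = 1 := by
  classical
  have h6 : ∑ i, a i * deg i ≤ p * ∑ i, a i := by
    rw [Finset.mul_sum]
    refine Finset.sum_le_sum fun i _ => ?_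
    calc a i * deg i ≤ a i * p := Nat.mul_le_mul_left _ (h3 i)
      _ = p * a i := mul_comm _ _
  have h7 : r ≤ ∑ i, a i := by
    by_contra hlt
    push Not at hlt
    have h8 : ∑ i, a i ≤ r - 1 := by omega
    have h9 := Nat.mul_le_mul_left p h8
    omega
  have h10 : ∑ i, a i ≤ ∑ i, (a i) ^ 2 := Finset.sum_le_sum fun i _ => Nat.le_self_pow (by norm_num) _
  have h11 : ∑ i, a i = ∑ i, a i * m1 i := by omega
  have h12 : ∀ i, a i ≤ a i * m1 i := by
    intro i
    by_cases hai : a i = 0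
    · simp [hai]
    · exact Nat.le_mul_of_pos_right _ (Nat.pos_of_ne_zero (h5 i hai))
  have h13 := (Finset.sum_eq_sum_iff_of_le (fun i _ => h12 i)).1 h11 i (Finset.mem_univ i)
  have h14 : a i * 1 = a i * m1 i := by rw [mul_one]; exact h13
  exact (Nat.eq_of_mul_eq_mul_left (Nat.pos_of_ne_zero hi) h14).symm

/-- the arithmetic of the final step -/
lemma arith_core {I : Type*} [Fintype I] [DecidableEq I] (m1 mu deg : I → ℕ) (e : ℕ) (h1 : ∀ i, m1 i ≤ 1)
    (hA : ∑ i, (m1 i : ℤ) * ((mu i : ℤ) - m1 i) = -(e : ℤ))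
    (hB : ∑ i, ((mu i : ℤ) - m1 i) ^ 2 = (e : ℤ) + 1)
    (hD : ∑ i, ((mu i : ℤ) - m1 i) * (deg i : ℤ) = 0) :
    ∃ (Δ : I) (T : Finset I), m1 Δ = 0 ∧ mu Δ = 1 ∧ T.card = e ∧ deg Δ = ∑ i ∈ T, deg i := by
  classical
  set v : I → ℤ := fun i => (mu i : ℤ) - m1 i with hv
  have ht : ∑ i, (v i ^ 2 + (m1 i : ℤ) * v i) = 1 := by
    rw [Finset.sum_add_distrib, hB, hA]
    ring
  have htnn : ∀ i, 0 ≤ v i ^ 2 + (m1 i : ℤ) * v i := by
    intro i
    rcases Nat.le_one_iff_eq_zero_or_eq_one.1 (h1 i) with h0 | h0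
    · rw [h0]
      push_cast
      nlinarith [sq_nonneg (v i)]
    · rw [h0]
      push_cast
      have : v i ^ 2 + 1 * v i = v i * (v i + 1) := by ring
      rw [this]
      rcases le_or_gt 0 (v i) with h2 | h2
      · positivity
      · have : v i + 1 ≤ 0 := by omega
        nlinarith
  -- a unique index carries the value 1
  obtain ⟨Δ, hΔ⟩ : ∃ Δ, v Δ ^ 2 + (m1 Δ : ℤ) * v Δ ≠ 0 := by
    by_contra hcon
    push Not at hcon
    rw [Finset.sum_eq_zero (fun i _ => hcon i)] at ht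
    norm_num at ht
  have hle1 : v Δ ^ 2 + (m1 Δ : ℤ) * v Δ ≤ 1 := by
    rw [← ht]
    exact Finset.single_le_sum (fun i _ => htnn i) (Finset.mem_univ Δ)
  have hval : v Δ ^ 2 + (m1 Δ : ℤ) * v Δ = 1 := by
    have := htnn Δ
    omega
  have hothers : ∀ i, i ≠ Δ → v i ^ 2 + (m1 i : ℤ) * v i = 0 := by
    intro i hi
    have h2 : ∑ j, (v j ^ 2 + (m1 j : ℤ) * v j) = (v Δ ^ 2 + (m1 Δ : ℤ) * v Δ) + ∑ j ∈ Finset.univ.erase Δ, (v j ^ 2 + (m1 j : ℤ) * v j) :=
      (Finset.add_sum_erase _ _ (Finset.mem_univ Δ)).symm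
    rw [ht, hval] at h2
    have h3 : ∑ j ∈ Finset.univ.erase Δ, (v j ^ 2 + (m1 j : ℤ) * v j) = 0 := by omega
    exact (Finset.sum_eq_zero_iff_of_nonneg (fun j _ => htnn j)).1 h3 i (Finset.mem_erase.2 ⟨hi, Finset.mem_univ i⟩)
  -- at `Δ` we have `m1 = 0`
  have hm0 : m1 Δ = 0 := by
    rcases Nat.le_one_iff_eq_zero_or_eq_one.1 (h1 Δ) with h0 | h0
    · exact h0
    · exfalso
      rw [h0] at hval
      push_cast at hval
      have : Even (v Δ ^ 2 + 1 * v Δ) := by
        have h3 : v Δ ^ 2 + 1 * v Δ = v Δ * (v Δ + 1) := by ring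
        rw [h3]
        exact Int.even_mul_succ_self _
      rw [hval] at this
      exact absurd this (by decide)
  have hvΔ : v Δ = mu Δ := by simp [hv, hm0]
  have hmu : mu Δ = 1 := by
    rw [hm0] at hval
    push_cast at hval
    rw [hvΔ] at hval
    have h3 : ((mu Δ : ℤ)) ^ 2 = 1 := by linarith
    have h4 : (mu Δ) ^ 2 = 1 := by exact_mod_cast h3
    exact Nat.eq_one_of_mul_eq_one_left (by rw [← sq]; exact h4) |>.trans rfl
  -- the set `T`
  let T : Finset I := Finset.univ.filter fun i => m1 i = 1 ∧ v i = -1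
  have hvals : ∀ i, i ≠ Δ → (i ∈ T ∧ v i = -1 ∧ m1 i = 1) ∨ (i ∉ T ∧ v i = 0) := by
    intro i hi
    have h2 := hothers i hi
    rcases Nat.le_one_iff_eq_zero_or_eq_one.1 (h1 i) with h0 | h0
    · right
      rw [h0] at h2
      push_cast at h2
      have h3 : v i = 0 := by nlinarith [sq_nonneg (v i)]
      refine ⟨?_, h3⟩
      intro hT
      have := (Finset.mem_filter.1 hT).2.1
      omega
    · rw [h0] at h2
      push_cast at h2
      have h3 : v i * (v i + 1) = 0 := by linarith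
      rcases mul_eq_zero.1 h3 with h4 | h4
      · right
        refine ⟨?_, h4⟩
        intro hT
        have := (Finset.mem_filter.1 hT).2.2
        omega
      · left
        have h5 : v i = -1 := by omega
        exact ⟨Finset.mem_filter.2 ⟨Finset.mem_univ _, h0, h5⟩, h5, h0⟩
  have hΔT : Δ ∉ T := by
    intro hT
    have := (Finset.mem_filter.1 hT).2.1
    omega
  have hcardT : T.card = e := by
    have h2 : ∑ i, (m1 i : ℤ) * v i = ∑ i ∈ T, (-1 : ℤ) := by
      rw [← Finset.sum_subset (Finset.subset_univ T)]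
      · refine Finset.sum_congr rfl fun i hi => ?_
        have := (Finset.mem_filter.1 hi).2
        rw [this.1, this.2]
        norm_num
      · intro i _ hi
        by_cases hiΔ : i = Δ
        · subst hiΔ
          rw [hm0]
          simp
        · rcases hvals i hiΔ with h3 | h3
          · exact absurd h3.1 hi
          · rw [h3.2, mul_zero]
    have h3 : ∑ i, (m1 i : ℤ) * v i = -(e : ℤ) := hA
    rw [h3, Finset.sum_const, smul_neg, nsmul_eq_mul, mul_one] at h2
    have h4 : (e : ℤ) = T.card := by linarith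
    exact_mod_cast h4.symm
  have hdeg : (deg Δ : ℤ) = ∑ i ∈ T, (deg i : ℤ) := by
    have h2 : ∑ i, v i * (deg i : ℤ) = v Δ * deg Δ + ∑ i ∈ T, v i * (deg i : ℤ) := by
      rw [← Finset.add_sum_erase _ _ (Finset.mem_univ Δ)]
      congr 1
      symm
      apply Finset.sum_subset
      · intro i hi
        refine Finset.mem_erase.2 ⟨?_, Finset.mem_univ i⟩
        rintro rfl
        exact hΔT hi
      · intro i hi hiT
        have hiΔ := (Finset.mem_erase.1 hi).1
        rcases hvals i hiΔ with h3 | h3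
        · exact absurd h3.1 hiT
        · rw [h3.2, zero_mul]
    have h3 : ∑ i, v i * (deg i : ℤ) = 0 := hD
    rw [h3, hvΔ, hmu] at h2
    have h4 : ∑ i ∈ T, v i * (deg i : ℤ) = -∑ i ∈ T, (deg i : ℤ) := by
      rw [← Finset.sum_neg_distrib]
      refine Finset.sum_congr rfl fun i hi => ?_
      rw [(Finset.mem_filter.1 hi).2.2]
      ring
    rw [h4] at h2
    push_cast at h2
    linarith
  refine ⟨Δ, T, hm0, hmu, hcardT, ?_⟩
  exact_mod_cast hdeg

end Cfsg.Agent.H17.PD
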