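import Mathlib
import Cfsg.Agent.Lib.H17.Pd2

/-! `Ind_P^G 1` is multiplicity free under a degree bound. -/

set_option autoImplicit false
set_option linter.style.longLine false
set_option linter.unusedSectionVars false
set_option linter.unusedVariables false

namespace Cfsg.Agent.H17.PD

open Cfsg Cfsg.Agent.H21 MulAction
open scoped ComplexConjugate

section Fam

variable {G : Type*} [Group G] [Fintype G] {p : ℕ} [hp : Fact p.Prime] {P : Sylow p G}

/-- the quotient `N(P)/P` -/
abbrev Kq (P : Sylow p G) := ↥(Nm P) ⧸ ((P : Subgroup G).subgroupOf (Nm P))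

lemma Kq_comm (h : Setup P) (a b : Kq P) : a * b = b * a := by
  induction a using QuotientGroup.induction_on with
  | H x =>
    induction b using QuotientGroup.induction_on with
    | H y =>
      rw [← QuotientGroup.mk_mul, ← QuotientGroup.mk_mul, QuotientGroup.eq, Subgroup.mem_subgroupOf]
      have := h.comm_mod y.2 x.2
      have h2 : (((x * y)⁻¹ * (y * x) : Nm P) : G) = (y : G)⁻¹ * (x : G)⁻¹ * y * x := by
        push_cast
        group
      rw [h2]
      exact this

lemma Kq_deg (h : Setup P) (χ : IrrCharacter (Kq P)) : charDegree χ.1 = 1 := by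
  classical
  haveI : Fintype (Kq P) := Fintype.ofFinite _
  have hA : ∀ x ∈ (⊤ : Subgroup (Kq P)), ∀ y ∈ (⊤ : Subgroup (Kq P)), x * y = y * x := fun x _ y _ => Kq_comm h x y
  have := Cfsg.Agent.H23.ito_dvd χ.2 (⊤ : Subgroup (Kq P)) hA
  rw [Subgroup.index_top] at this
  exact Nat.dvd_one.1 this

/-- the linear characters of `N(P)` with `P` in the kernel -/
noncomputable def lam (χ : IrrCharacter (Kq P)) : Nm P → ℂ := fun n => χ.1 (n : Kq P)

lemma isCharacter_lam (χ : IrrCharacter (Kq P)) : IsCharacter (Nm P) (lam χ) :=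
  isCharacter_comp (QuotientGroup.mk' _) (isCharacter_of_irr χ.2)

lemma lam_norm (h : Setup P) (χ : IrrCharacter (Kq P)) (n : Nm P) : ‖lam χ n‖ ≤ 1 :=
  (linear_norm (isCharacter_of_irr χ.2) (Kq_deg h χ) _).le

lemma lam_of_mem (h : Setup P) (χ : IrrCharacter (Kq P)) (n : Nm P) (hn : (n : G) ∈ (P : Subgroup G)) : lam χ n = 1 := by
  have h1 : ((n : Nm P) : Kq P) = 1 := by
    rw [QuotientGroup.eq_one_iff, Subgroup.mem_subgroupOf]
    exact hn
  unfold lam
  rw [h1]
  exact linear_one (isCharacter_of_irr χ.2) (Kq_deg h χ)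

lemma sum_lam (h : Setup P) [Fintype (IrrCharacter (Kq P))] (n : Nm P) [Decidable ((n : G) ∈ (P : Subgroup G))] :
    ∑ χ : IrrCharacter (Kq P), lam χ n = if (n : G) ∈ (P : Subgroup G) then (Nat.card (Kq P) : ℂ) else 0 := by
  classical
  haveI : Fintype (Kq P) := Fintype.ofFinite _
  have hval : ∀ (χ : IrrCharacter (Kq P)) (k : Kq P), χ.1 k * conj (χ.1 1) = χ.1 k := by
    intro χ k
    rw [linear_one (isCharacter_of_irr χ.2) (Kq_deg h χ), map_one, mul_one]
  split_ifs with hn
  · have h1 : ((n : Nm P) : Kq P) = 1 := by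
      rw [QuotientGroup.eq_one_iff, Subgroup.mem_subgroupOf]
      exact hn
    have h2 := column_orthogonality_of_isConj (G := Kq P) (IsConj.refl (1 : Kq P))
    simp only [hval] at h2
    unfold lam
    rw [h1, h2]
    congr 1
    rw [Subgroup.centralizer_eq_top_iff_subset.2]
    · exact Nat.card_congr Subgroup.topEquiv.toEquiv
    · rintro _ rfl
      exact Subgroup.one_mem _
  · have h1 : ¬ IsConj ((n : Nm P) : Kq P) 1 := by
      rw [isConj_one_left, QuotientGroup.eq_one_iff, Subgroup.mem_subgroupOf]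
      exact hn
    have h2 := column_orthogonality_of_not_isConj h1
    simp only [hval] at h2
    exact h2

lemma card_Nm_eq (h : Setup P) : Nat.card (Nm P) = Nat.card (Kq P) * Nat.card (P : Subgroup G) := by
  have h1 := Subgroup.card_mul_index ((P : Subgroup G).subgroupOf (Nm P))
  rw [Subgroup.index_eq_card] at h1
  have h2 : Nat.card ((P : Subgroup G).subgroupOf (Nm P)) = Nat.card (P : Subgroup G) :=
    Nat.card_congr (Subgroup.subgroupOfEquivOfLe Subgroup.le_normalizer).toEquiv
  rw [← h1, h2, mul_comm]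

/-- `Ind_P^G 1` is the sum of the `Ind_N^G λ` -/
lemma ind_sum (h : Setup P) [Fintype (IrrCharacter (Kq P))] (g : G) :
    indFun (P : Subgroup G) (fun _ => 1) g = ∑ χ : IrrCharacter (Kq P), indFun (Nm P) (lam χ) g := by
  classical
  have hK0 : (Nat.card (Kq P) : ℂ) ≠ 0 := by exact_mod_cast Nat.card_pos.ne'
  have hP0 : (Nat.card (P : Subgroup G) : ℂ) ≠ 0 := by exact_mod_cast Nat.card_pos.ne'
  have hy : ∀ y : G, ∑ χ : IrrCharacter (Kq P), extendByZero (Nm P) (lam χ) y =
      (Nat.card (Kq P) : ℂ) * extendByZero (P : Subgroup G) (fun _ => (1 : ℂ)) y := by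
    intro y
    rw [extend_one_apply]
    by_cases hyN : y ∈ Nm P
    · have h1 : ∀ χ : IrrCharacter (Kq P), extendByZero (Nm P) (lam χ) y = lam χ ⟨y, hyN⟩ :=
        fun χ => extendByZero_coe (H := Nm P) (lam χ) ⟨y, hyN⟩
      simp only [h1]
      rw [sum_lam h ⟨y, hyN⟩]
      split_ifs with h2
      · ring
      · ring
    · have h1 : ∀ χ : IrrCharacter (Kq P), extendByZero (Nm P) (lam χ) y = 0 :=
        fun χ => extendByZero_of_not_mem (H := Nm P) _ hyN
      simp only [h1, Finset.sum_const_zero]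
      have h2 : y ∉ (P : Subgroup G) := fun h3 => hyN (Subgroup.le_normalizer h3)
      rw [if_neg h2, mul_zero]
  simp only [indFun]
  rw [← Finset.mul_sum, Finset.sum_comm]
  simp only [hy]
  rw [← Finset.mul_sum, ← mul_assoc, card_Nm_eq h]
  push_cast
  congr 1
  field_simp

end Fam

end Cfsg.Agent.H17.PD
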