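import Mathlib
import Cfsg.Agent.Lib.H17.Pd3

/-! `Ind_P^G 1` is multiplicity free under a degree bound. -/

set_option autoImplicit false
set_option linter.style.longLine false
set_option linter.unusedSectionVars false
set_option linter.unusedVariables false

namespace Cfsg.Agent.H17.PD

open Cfsg Cfsg.Agent.H21 MulAction
open Cfsg.Agent.H06 (classInner_parseval)
open scoped ComplexConjugate

section M

variable {G : Type*} [Group G] [Fintype G] {p : ℕ} [hp : Fact p.Prime] {P : Sylow p G}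

lemma inner_X0 [Fintype (P : Subgroup G)] (Y : G → ℂ) (hY : IsClassFunction G Y) :
    classInner (indFun (P : Subgroup G) (fun _ => (1 : ℂ))) Y =
      (Nat.card (P : Subgroup G) : ℂ)⁻¹ * ∑ x : (P : Subgroup G), conj (Y x) := by
  rw [frobenius_reciprocity _ _ _ hY]
  simp [classInner]

lemma Setup.inner_X0_Lam (h : Setup P) [Fintype (Nm P)] [Fintype (P : Subgroup G)] (l : Nm P → ℂ)
    (hl : ∀ n : Nm P, (n : G) ∈ (P : Subgroup G) → l n = 1) :
    classInner (indFun (P : Subgroup G) (fun _ => (1 : ℂ))) (indFun (Nm P) l) =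
      (p : ℂ)⁻¹ * (((Nm P).index : ℂ) + ((p : ℂ) - 1)) := by
  classical
  rw [inner_X0 _ (indFun_isClass _ _), h.card_eq]
  congr 1
  have h1 : ∀ x : (P : Subgroup G), conj (indFun (Nm P) l (x : G)) = if x = 1 then ((Nm P).index : ℂ) else 1 := by
    intro x
    split_ifs with hx
    · rw [hx]
      have h2 : l 1 = 1 := hl 1 (Subgroup.one_mem _)
      rw [show ((1 : (P : Subgroup G)) : G) = 1 from rfl, indFun_one, h2, mul_one, map_natCast]
    · rw [h.ind_norm_val l hl x.2 (fun h3 => hx (Subtype.ext h3)), map_one]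
  simp only [h1]
  rw [← Finset.add_sum_erase _ _ (Finset.mem_univ (1 : (P : Subgroup G))), if_pos rfl]
  congr 1
  have h2 : ∀ x ∈ (Finset.univ : Finset (P : Subgroup G)).erase 1, (if x = 1 then ((Nm P).index : ℂ) else 1) = 1 := by
    intro x hx
    rw [if_neg (Finset.mem_erase.1 hx).1]
  rw [Finset.sum_congr rfl h2, Finset.sum_const, Finset.card_erase_of_mem (Finset.mem_univ _), Finset.card_univ,
    ← Nat.card_eq_fintype_card, h.card_eq, nsmul_eq_mul, mul_one, Nat.cast_sub hp.out.one_le]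
  simp

theorem Setup.m1_le (h : Setup P) [Fintype (IrrCharacter G)] [Fintype (Nm P)] [Fintype (P : Subgroup G)]
    (hdeg : ∀ ψ : IrrCharacter G, charDegree (ψ : G → ℂ) ≤ p) (r : ℕ) (hr1 : 1 ≤ r)
    (hr : classInner (indFun (Nm P) (fun _ => (1 : ℂ))) (indFun (Nm P) (fun _ => (1 : ℂ))) = r)
    (hidx : (Nm P).index = 1 + p * (r - 1)) (ψ : IrrCharacter G) :
    ∃ m : ℕ, m ≤ 1 ∧ classInner (indFun (P : Subgroup G) (fun _ => (1 : ℂ))) (ψ : G → ℂ) = m := by
  classical
  letI : Fintype (IrrCharacter (Kq P)) := Fintype.ofFinite _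
  have hX0 : IsCharacter G (indFun (P : Subgroup G) (fun _ => (1 : ℂ))) := isCharacter_indFun _ isCharacter_one
  have hcl0 := isClassFunction_of_isCharacter hX0
  have hL : ∀ χ : IrrCharacter (Kq P), IsCharacter G (indFun (Nm P) (lam χ)) := fun χ => isCharacter_indFun _ (isCharacter_lam χ)
  choose m1 hm1 using classInner_isNat hX0
  choose a ha0 ha using fun χ => isCharacter_decomp (hL χ)
  -- `m1 = ∑ a`
  have hsum : ∀ ψ : IrrCharacter G, m1 ψ = ∑ χ, a χ ψ := by
    intro ψ
    have h1 : indFun (P : Subgroup G) (fun _ => (1 : ℂ)) = ∑ χ : IrrCharacter (Kq P), indFun (Nm P) (lam χ) := by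
      funext g
      rw [ind_sum h g, Finset.sum_apply]
    have h2 := hm1 ψ
    rw [h1, classInner_sum_left] at h2
    simp only [ha] at h2
    exact_mod_cast h2.symm
  have hmain : ∀ (χ : IrrCharacter (Kq P)) (ψ : IrrCharacter G), a χ ψ ≠ 0 → m1 ψ = 1 := by
    intro χ ψ hne
    refine count_core (a χ) m1 (fun ψ => charDegree (ψ : G → ℂ)) r p hp.out.pos hr1 ?_ ?_ hdeg ?_ ?_ ψ hne
    · -- norm bound
      have h1 := norm_inner_ind_le (Nm P) (lam χ) (lam_norm h χ)
      rw [hr, classInner_parseval (isClassFunction_of_isCharacter (hL χ)) (isClassFunction_of_isCharacter (hL χ))] at h1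
      simp only [ha, Complex.conj_natCast] at h1
      have h2 : (∑ ψ : IrrCharacter G, (a χ ψ : ℂ) * (a χ ψ : ℂ)) = ((∑ ψ, (a χ ψ) ^ 2 : ℕ) : ℂ) := by
        push_cast
        exact Finset.sum_congr rfl fun _ _ => by ring
      rw [h2, Complex.norm_natCast, Complex.norm_natCast] at h1
      exact_mod_cast h1
    · -- degree
      have h1 := congrFun (ha0 χ) 1
      have h3 : lam χ 1 = 1 := lam_of_mem h χ 1 (Subgroup.one_mem _)
      rw [indFun_one, h3, mul_one, hidx, Finset.sum_apply] at h1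
      simp only [Pi.smul_apply, nsmul_eq_mul] at h1
      have h4 : ((∑ ψ, a χ ψ * charDegree (ψ : G → ℂ) : ℕ) : ℂ) = ((1 + p * (r - 1) : ℕ) : ℂ) := by
        rw [h1]
        push_cast
        exact Finset.sum_congr rfl fun ψ _ => by rw [one_eq_charDegree (isCharacter_of_irr ψ.2)]
      exact_mod_cast h4
    · -- inner with `X0`
      have h1 := h.inner_X0_Lam (lam χ) (lam_of_mem h χ)
      rw [classInner_parseval hcl0 (isClassFunction_of_isCharacter (hL χ))] at h1
      simp only [ha, hm1, Complex.conj_natCast] at h1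
      have hp0 : (p : ℂ) ≠ 0 := by exact_mod_cast hp.out.ne_zero
      have h3 : (p : ℂ)⁻¹ * (((Nm P).index : ℂ) + ((p : ℂ) - 1)) = (r : ℂ) := by
        rw [hidx]
        obtain ⟨s, rfl⟩ : ∃ s, r = s + 1 := ⟨r - 1, by omega⟩
        simp only [Nat.add_sub_cancel]
        push_cast
        field_simp
        ring
      rw [h3] at h1
      have h4 : ((∑ ψ, a χ ψ * m1 ψ : ℕ) : ℂ) = (r : ℂ) := by
        rw [← h1]
        push_cast
        exact Finset.sum_congr rfl fun _ _ => by ring
      exact_mod_cast h4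
    · intro ψ hψ
      rw [hsum]
      intro h0
      exact hψ ((Finset.sum_eq_zero_iff.1 h0) χ (Finset.mem_univ _))
  refine ⟨m1 ψ, ?_, hm1 ψ⟩
  by_cases h0 : m1 ψ = 0
  · omega
  · rw [hsum] at h0
    obtain ⟨χ, -, hχ⟩ := Finset.exists_ne_zero_of_sum_ne_zero h0
    exact (hmain χ ψ hχ).le

end M

end Cfsg.Agent.H17.PD
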