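import Mathlib
import Cfsg.Agent.Lib.H17.Pd4
import Cfsg.Agent.Lib.H23.AcdTwo

/-! The virtual character `Ind_P^G μ - Ind_P^G 1`. -/

set_option autoImplicit false
set_option linter.style.longLine false
set_option linter.unusedSectionVars false
set_option linter.unusedVariables false

namespace Cfsg.Agent.H17.PD

open Cfsg Cfsg.Agent.H21 MulAction
open Cfsg.Agent.H06 (classInner_parseval)
open scoped ComplexConjugate

section Gm

variable {G : Type*} [Group G] [Fintype G] {p : ℕ} [hp : Fact p.Prime] {P : Sylow p G}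

lemma Setup.nontriv (h : Setup P) : Nontrivial (P : Subgroup G) := by
  rw [← Finite.one_lt_card_iff_nontrivial, h.card_eq]
  exact hp.out.one_lt

/-- a faithful linear character of `P` -/
lemma Setup.exists_faithful (h : Setup P) : ∃ μ : ↥(P : Subgroup G) →* ℂˣ, Function.Injective μ := by
  classical
  letI : CommGroup ↥(P : Subgroup G) := { (inferInstance : Group ↥(P : Subgroup G)) with
     mul_comm := fun a b => Subtype.ext (h.comm a.2 b.2) }
  haveI : Fact (Nat.card (P : Subgroup G)).Prime := ⟨by rw [h.card_eq]; exact hp.out⟩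
  haveI := h.nontriv
  obtain ⟨a, ha⟩ : ∃ a : (P : Subgroup G), a ≠ 1 := _root_.exists_ne 1
  obtain ⟨φ, hφ⟩ := CommGroup.exists_apply_ne_one_of_hasEnoughRootsOfUnity (P : Subgroup G) ℂ ha
  refine ⟨φ, ?_⟩
  rw [injective_iff_map_eq_one]
  rcases Subgroup.eq_bot_or_eq_top_of_prime_card φ.ker with h1 | h1
  · intro x hx
    have : x ∈ φ.ker := hx
    rw [h1] at this
    simpa using this
  · exact absurd (φ.mem_ker.1 (h1 ▸ Subgroup.mem_top a)) hφ

variable (h : Setup P) (μ : ↥(P : Subgroup G) →* ℂˣ)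

include h in
lemma Setup.conj_mu (x : (P : Subgroup G)) : conj ((μ x : ℂˣ) : ℂ) = (((μ x)⁻¹ : ℂˣ) : ℂ) := by
  have h1 : ((μ x : ℂˣ) : ℂ) ^ p = 1 := by
    have h2 : x ^ p = 1 := Subtype.ext (h.pow_eq x.2)
    have h3 : (μ x) ^ p = 1 := by rw [← map_pow, h2, map_one]
    rw [← Units.val_pow_eq_pow_val, h3, Units.val_one]
  have h2 := Complex.norm_eq_one_of_pow_eq_one h1 hp.out.ne_zero
  rw [Units.val_inv_eq_inv_val, Complex.inv_eq_conj h2]

variable [Fintype (Nm P)] [Fintype (P : Subgroup G)]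

include h in
lemma Setup.sum_mu (hμ : Function.Injective μ) : ∑ x : (P : Subgroup G), ((μ x : ℂˣ) : ℂ) = 0 := by
  classical
  haveI := h.nontriv
  have h1 := sum_hom_units ((Units.coeHom ℂ).comp μ)
  rw [if_neg] at h1
  · simpa using h1
  · intro h2
    obtain ⟨a, ha⟩ : ∃ a : (P : Subgroup G), a ≠ 1 := _root_.exists_ne 1
    apply ha
    apply hμ
    have h3 := DFunLike.congr_fun h2 a
    simp only [MonoidHom.comp_apply, MonoidHom.one_apply, Units.coeHom_apply] at h3
    rw [map_one]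
    exact Units.ext h3

include h in
lemma Setup.sum_cross (hμ : Function.Injective μ) (z : Nm P) [Decidable ((z : G) ∈ (P : Subgroup G))] :
    ∑ x : (P : Subgroup G), ((μ x : ℂˣ) : ℂ) * conj ((μ (cj z x) : ℂˣ) : ℂ) =
      if (z : G) ∈ (P : Subgroup G) then (p : ℂ) else 0 := by
  classical
  let f : ↥(P : Subgroup G) →* ℂˣ :=
    { toFun := fun x => μ x * (μ (cj z x))⁻¹
      map_one' := by
        have : cj z (1 : (P : Subgroup G)) = 1 := by
          apply Subtype.ext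
          simp [cj]
        rw [this]
        simp
      map_mul' := by
        intro a b
        have h1 : cj z (a * b) = cj z a * cj z b := by
          apply Subtype.ext
          simp only [cj, Subgroup.coe_mul]
          group
        rw [h1, map_mul, map_mul, mul_inv]
        exact mul_mul_mul_comm _ _ _ _ }
  have h1 : ∀ x : (P : Subgroup G), ((μ x : ℂˣ) : ℂ) * conj ((μ (cj z x) : ℂˣ) : ℂ) = ((Units.coeHom ℂ).comp f) x := by
    intro x
    rw [h.conj_mu]
    simp [f]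
  simp only [h1]
  rw [sum_hom_units, ← Nat.card_eq_fintype_card, h.card_eq]
  by_cases hz : (z : G) ∈ (P : Subgroup G)
  · rw [if_pos hz, if_pos]
    apply MonoidHom.ext
    intro x
    simp only [MonoidHom.comp_apply, MonoidHom.one_apply, Units.coeHom_apply, Units.val_one]
    have h2 : cj z x = x := by
      apply Subtype.ext
      simp only [cj]
      have := h.comm x.2 hz
      rw [mul_assoc, this]
      group
    simp [f, h2]
  · have hf : ¬ ((Units.coeHom ℂ).comp f = 1) := ?_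
    · rw [if_neg hz, if_neg hf]
      simp
    intro h2
    apply hz
    apply h.centralizer_le
    intro u hu
    have h3 := DFunLike.congr_fun h2 (⟨u, hu⟩ : (P : Subgroup G))
    simp only [MonoidHom.comp_apply, MonoidHom.one_apply, Units.coeHom_apply, Units.val_one] at h3
    have h4 : f ⟨u, hu⟩ = 1 := Units.ext h3
    have h5 : μ ⟨u, hu⟩ = μ (cj z ⟨u, hu⟩) := by
      have : μ ⟨u, hu⟩ * (μ (cj z ⟨u, hu⟩))⁻¹ = 1 := h4
      exact mul_inv_eq_one.1 this
    have h6 := hμ h5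
    have h7 : u = (z : G)⁻¹ * u * z := congrArg Subtype.val h6
    calc (z : G) * u = z * ((z : G)⁻¹ * u * z) := by rw [← h7]
      _ = u * z := by group

variable (P) in
/-- the erased sum -/
noncomputable abbrev Er [DecidableEq (P : Subgroup G)] : Finset (P : Subgroup G) := (Finset.univ : Finset (P : Subgroup G)).erase 1

include h in
lemma Setup.card_Er [DecidableEq (P : Subgroup G)] : ((Er P).card : ℂ) = (p : ℂ) - 1 := by
  unfold Er
  rw [Finset.card_erase_of_mem (Finset.mem_univ _), Finset.card_univ, ← Nat.card_eq_fintype_card, h.card_eq,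
    Nat.cast_sub hp.out.one_le]
  simp

include h in
lemma Setup.sum_Er_mu [DecidableEq (P : Subgroup G)] (hμ : Function.Injective μ) : ∑ x ∈ Er P, ((μ x : ℂˣ) : ℂ) = -1 := by
  have h1 := h.sum_mu μ hμ
  rw [← Finset.add_sum_erase _ _ (Finset.mem_univ (1 : (P : Subgroup G))), map_one, Units.val_one] at h1
  linear_combination h1

include h in
lemma Setup.inner_split [DecidableEq (P : Subgroup G)] (θ : ↥(P : Subgroup G) → ℂ) (Y : G → ℂ) (hY : IsClassFunction G Y) (hθ : θ 1 = 1) :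
    classInner (indFun (P : Subgroup G) θ) Y = (p : ℂ)⁻¹ * (conj (Y 1) + ∑ x ∈ Er P, θ x * conj (Y x)) := by
  rw [frobenius_reciprocity _ _ _ hY]
  unfold classInner
  rw [h.card_eq, ← Finset.add_sum_erase _ _ (Finset.mem_univ (1 : (P : Subgroup G))), hθ, one_mul]
  rfl

variable (P) in
/-- `Ind_P^G 1` -/
noncomputable abbrev X0 : G → ℂ := indFun (P : Subgroup G) (fun _ => (1 : ℂ))

include h in
lemma Setup.X0_val (x : (P : Subgroup G)) (hx : x ≠ 1) : X0 P (x : G) = (Nat.card (Kq P) : ℂ) := by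
  rw [X0, h.ind_P_val _ x.2 (fun h1 => hx (Subtype.ext h1))]
  simp only [Finset.sum_const, Finset.card_univ, nsmul_eq_mul, mul_one, Subtype.coe_eta]
  rw [← Nat.card_eq_fintype_card, card_Nm_eq h]
  have hP0 : (Nat.card (P : Subgroup G) : ℂ) ≠ 0 := by exact_mod_cast Nat.card_pos.ne'
  push_cast
  field_simp

include h in
lemma Setup.one_of_ind (θ : ↥(P : Subgroup G) → ℂ) (hθ : θ 1 = 1) :
    indFun (P : Subgroup G) θ 1 = ((P : Subgroup G).index : ℂ) := by
  rw [indFun_one, hθ, mul_one]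

include h in
lemma Setup.I00 [DecidableEq (P : Subgroup G)] : classInner (X0 P) (X0 P) =
    (p : ℂ)⁻¹ * (((P : Subgroup G).index : ℂ) + ((p : ℂ) - 1) * (Nat.card (Kq P) : ℂ)) := by
  rw [X0, h.inner_split _ _ (indFun_isClass _ _) rfl, h.one_of_ind _ rfl, map_natCast]
  congr 2
  have h1 : ∀ x ∈ Er P, (1 : ℂ) * conj (indFun (P : Subgroup G) (fun _ => (1 : ℂ)) (x : G)) = (Nat.card (Kq P) : ℂ) := by
    intro x hx
    have := h.X0_val x (Finset.mem_erase.1 hx).1
    rw [X0] at this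
    rw [this, map_natCast, one_mul]
  rw [Finset.sum_congr rfl h1, Finset.sum_const, nsmul_eq_mul, h.card_Er]

include h in
lemma Setup.Imu0 [DecidableEq (P : Subgroup G)] (hμ : Function.Injective μ) :
    classInner (indFun (P : Subgroup G) (fun u => ((μ u : ℂˣ) : ℂ))) (X0 P) =
    (p : ℂ)⁻¹ * (((P : Subgroup G).index : ℂ) - (Nat.card (Kq P) : ℂ)) := by
  rw [X0, h.inner_split _ _ (indFun_isClass _ _) (by simp), h.one_of_ind _ rfl, map_natCast, sub_eq_add_neg]
  congr 2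
  have h1 : ∀ x ∈ Er P, ((μ x : ℂˣ) : ℂ) * conj (indFun (P : Subgroup G) (fun _ => (1 : ℂ)) (x : G)) = ((μ x : ℂˣ) : ℂ) * (Nat.card (Kq P) : ℂ) := by
    intro x hx
    have := h.X0_val x (Finset.mem_erase.1 hx).1
    rw [X0] at this
    rw [this, map_natCast]
  rw [Finset.sum_congr rfl h1, ← Finset.sum_mul, h.sum_Er_mu μ hμ]
  ring

include h in
lemma Setup.I0mu [DecidableEq (P : Subgroup G)] (hμ : Function.Injective μ) :
    classInner (X0 P) (indFun (P : Subgroup G) (fun u => ((μ u : ℂˣ) : ℂ))) =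
    (p : ℂ)⁻¹ * (((P : Subgroup G).index : ℂ) - (Nat.card (Kq P) : ℂ)) := by
  rw [← classInner_comm_conj, h.Imu0 μ hμ]
  simp

include h in
lemma Setup.Imumu [DecidableEq (P : Subgroup G)] (hμ : Function.Injective μ) :
    classInner (indFun (P : Subgroup G) (fun u => ((μ u : ℂˣ) : ℂ))) (indFun (P : Subgroup G) (fun u => ((μ u : ℂˣ) : ℂ))) =
    (p : ℂ)⁻¹ * (((P : Subgroup G).index : ℂ) + ((p : ℂ) - (Nat.card (Kq P) : ℂ))) := by
  classical
  have hp0 : (p : ℂ) ≠ 0 := by exact_mod_cast hp.out.ne_zero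
  rw [h.inner_split _ _ (indFun_isClass _ _) (by simp), h.one_of_ind _ (by simp), map_natCast]
  congr 2
  have h1 : ∀ x ∈ Er P, ((μ x : ℂˣ) : ℂ) * conj (indFun (P : Subgroup G) (fun u => ((μ u : ℂˣ) : ℂ)) (x : G)) =
      (p : ℂ)⁻¹ * ∑ z : Nm P, ((μ x : ℂˣ) : ℂ) * conj ((μ (cj z x) : ℂˣ) : ℂ) := by
    intro x hx
    have hx1 : (x : G) ≠ 1 := fun h3 => (Finset.mem_erase.1 hx).1 (Subtype.ext h3)
    rw [h.ind_P_val _ x.2 hx1, h.card_eq]
    simp only [Subtype.coe_eta, map_mul, map_inv₀, map_natCast, map_sum]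
    rw [mul_left_comm, Finset.mul_sum]
  rw [Finset.sum_congr rfl h1, ← Finset.mul_sum, Finset.sum_comm]
  have h2 : ∀ z : Nm P, ∑ x ∈ Er P, ((μ x : ℂˣ) : ℂ) * conj ((μ (cj z x) : ℂˣ) : ℂ) =
      (if (z : G) ∈ (P : Subgroup G) then (p : ℂ) else 0) - 1 := by
    intro z
    have h3 := h.sum_cross μ hμ z
    rw [← Finset.add_sum_erase _ _ (Finset.mem_univ (1 : (P : Subgroup G)))] at h3
    have h4 : cj z (1 : (P : Subgroup G)) = 1 := by
      apply Subtype.ext
      simp [cj]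
    rw [h4] at h3
    simp only [map_one, Units.val_one, mul_one] at h3
    rw [← h3]
    ring
  simp only [h2]
  rw [Finset.sum_sub_distrib, Finset.sum_const, Finset.card_univ, ← Nat.card_eq_fintype_card, nsmul_eq_mul, mul_one,
    Finset.sum_ite, Finset.sum_const_zero, add_zero, Finset.sum_const, nsmul_eq_mul, card_Nm_eq h, h.card_eq]
  have h5 : ((Finset.univ.filter (fun z : Nm P => (z : G) ∈ (P : Subgroup G))).card : ℂ) = (p : ℂ) := by
    have h6 : (Finset.univ.filter (fun z : Nm P => (z : G) ∈ (P : Subgroup G))).card = Nat.card (P : Subgroup G) := by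
      rw [← Fintype.card_subtype, ← Nat.card_eq_fintype_card]
      exact Nat.card_congr
        { toFun := fun z => ⟨z.1.1, z.2⟩
          invFun := fun x => ⟨⟨x.1, Subgroup.le_normalizer x.2⟩, x.2⟩
          left_inv := fun z => rfl
          right_inv := fun x => rfl }
    rw [h6, h.card_eq]
  rw [h5]
  push_cast
  field_simp

include h in
theorem Setup.exists_Δ [Fintype (IrrCharacter G)]
    (hm : ∀ ψ : IrrCharacter G, ∃ m : ℕ, m ≤ 1 ∧ classInner (X0 P) (ψ : G → ℂ) = m) :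
    ∃ (Δ : IrrCharacter G) (T : Finset (IrrCharacter G)), classInner (X0 P) (Δ : G → ℂ) = 0 ∧
      T.card = Nat.card (Kq P) ∧ charDegree (Δ : G → ℂ) = ∑ i ∈ T, charDegree (i : G → ℂ) := by
  classical
  obtain ⟨μ, hμ⟩ := h.exists_faithful
  have hp0 : (p : ℂ) ≠ 0 := by exact_mod_cast hp.out.ne_zero
  have hX0 : IsCharacter G (X0 P) := isCharacter_indFun _ isCharacter_one
  have hXμ : IsCharacter G (indFun (P : Subgroup G) (fun u => ((μ u : ℂˣ) : ℂ))) :=
    isCharacter_indFun _ (Cfsg.Agent.H23.isCharacter_hom μ)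
  obtain ⟨m1, hm10, hm1⟩ := isCharacter_decomp hX0
  obtain ⟨mu, hmu0, hmu⟩ := isCharacter_decomp hXμ
  have hle : ∀ ψ, m1 ψ ≤ 1 := by
    intro ψ
    obtain ⟨m, hm2, hm3⟩ := hm ψ
    rw [hm1] at hm3
    have : m1 ψ = m := by exact_mod_cast hm3
    omega
  have hc0 := isClassFunction_of_isCharacter hX0
  have hcμ := isClassFunction_of_isCharacter hXμ
  have h00 : (∑ ψ, (m1 ψ : ℂ) * (m1 ψ : ℂ)) = (p : ℂ)⁻¹ * (((P : Subgroup G).index : ℂ) + ((p : ℂ) - 1) * (Nat.card (Kq P) : ℂ)) := by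
    have := h.I00
    rw [classInner_parseval hc0 hc0] at this
    simp only [hm1, Complex.conj_natCast] at this
    exact this
  have h0μ : (∑ ψ, (m1 ψ : ℂ) * (mu ψ : ℂ)) = (p : ℂ)⁻¹ * (((P : Subgroup G).index : ℂ) - (Nat.card (Kq P) : ℂ)) := by
    have := h.I0mu μ hμ
    rw [classInner_parseval hc0 hcμ] at this
    simp only [hm1, hmu, Complex.conj_natCast] at this
    exact this
  have hμ0 : (∑ ψ, (mu ψ : ℂ) * (m1 ψ : ℂ)) = (p : ℂ)⁻¹ * (((P : Subgroup G).index : ℂ) - (Nat.card (Kq P) : ℂ)) := by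
    have := h.Imu0 μ hμ
    rw [classInner_parseval hcμ hc0] at this
    simp only [hm1, hmu, Complex.conj_natCast] at this
    exact this
  have hμμ : (∑ ψ, (mu ψ : ℂ) * (mu ψ : ℂ)) = (p : ℂ)⁻¹ * (((P : Subgroup G).index : ℂ) + ((p : ℂ) - (Nat.card (Kq P) : ℂ))) := by
    have := h.Imumu μ hμ
    rw [classInner_parseval hcμ hcμ] at this
    simp only [hmu, Complex.conj_natCast] at this
    exact this
  have hA : ∑ i, (m1 i : ℤ) * ((mu i : ℤ) - m1 i) = -(Nat.card (Kq P) : ℤ) := by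
    have h1 : ((∑ i, (m1 i : ℤ) * ((mu i : ℤ) - m1 i) : ℤ) : ℂ) = ((-(Nat.card (Kq P) : ℤ) : ℤ) : ℂ) := by
      push_cast
      have h2 : ∀ i, (m1 i : ℂ) * ((mu i : ℂ) - (m1 i : ℂ)) = (m1 i : ℂ) * (mu i : ℂ) - (m1 i : ℂ) * (m1 i : ℂ) := fun i => by ring
      simp only [h2]
      rw [Finset.sum_sub_distrib, h0μ, h00]
      field_simp
      ring
    exact_mod_cast h1
  have hB : ∑ i, ((mu i : ℤ) - m1 i) ^ 2 = (Nat.card (Kq P) : ℤ) + 1 := by
    have h1 : ((∑ i, ((mu i : ℤ) - m1 i) ^ 2 : ℤ) : ℂ) = (((Nat.card (Kq P) : ℤ) + 1 : ℤ) : ℂ) := by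
      push_cast
      have h2 : ∀ i, ((mu i : ℂ) - (m1 i : ℂ)) ^ 2 = (mu i : ℂ) * (mu i : ℂ) - (m1 i : ℂ) * (mu i : ℂ) - ((mu i : ℂ) * (m1 i : ℂ) - (m1 i : ℂ) * (m1 i : ℂ)) := fun i => by ring
      simp only [h2]
      rw [Finset.sum_sub_distrib, Finset.sum_sub_distrib, Finset.sum_sub_distrib, hμμ, h0μ, hμ0, h00]
      field_simp
      ring
    exact_mod_cast h1
  have hD : ∑ i, ((mu i : ℤ) - m1 i) * (charDegree (i : G → ℂ) : ℤ) = 0 := by
    have h1 := congrFun hm10 1
    have h2 := congrFun hmu0 1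
    rw [Finset.sum_apply] at h1 h2
    simp only [Pi.smul_apply, nsmul_eq_mul, one_eq_charDegree (isCharacter_of_irr (Subtype.property _))] at h1 h2
    have h3 : (X0 P) 1 = indFun (P : Subgroup G) (fun u => ((μ u : ℂˣ) : ℂ)) 1 := by
      rw [X0, h.one_of_ind _ rfl, h.one_of_ind _ (by simp)]
    rw [h3, h2] at h1
    have h4 : ((∑ i, ((mu i : ℤ) - m1 i) * (charDegree (i : G → ℂ) : ℤ) : ℤ) : ℂ) = ((0 : ℤ) : ℂ) := by
      push_cast
      simp only [sub_mul]
      rw [Finset.sum_sub_distrib, sub_eq_zero]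
      exact h1
    exact_mod_cast h4
  obtain ⟨Δ, T, hΔ, -, hT, hd⟩ := arith_core m1 mu (fun ψ => charDegree (ψ : G → ℂ)) (Nat.card (Kq P)) hle hA hB hD
  refine ⟨Δ, T, ?_, hT, hd⟩
  rw [hm1, hΔ]
  simp

end Gm

end Cfsg.Agent.H17.PD
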