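import Mathlib
import Cfsg.Agent.Lib.H17.Pd5

/-! Vanishing on `N(P) \ P`, and the final contradiction. -/

set_option autoImplicit false
set_option linter.style.longLine false
set_option linter.unusedSectionVars false
set_option linter.unusedVariables false

namespace Cfsg.Agent.H17.PD

open Cfsg Cfsg.Agent.H21 MulAction
open Cfsg.Agent.H06 (classInner_parseval)
open scoped ComplexConjugate

section Gm

variable {G : Type*} [Group G] [Fintype G] {p : ℕ} [hp : Fact p.Prime] {P : Sylow p G}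

/-- elements of `P y` are `P`-conjugates of `y` -/
lemma Setup.coset_conj (h : Setup P) {y : G} (hy : y ∈ Nm P) (hyP : y ∉ (P : Subgroup G)) {u : G}
    (hu : u ∈ (P : Subgroup G)) : ∃ w ∈ (P : Subgroup G), u * y = w * y * w⁻¹ := by
  classical
  haveI : Fintype (P : Subgroup G) := Fintype.ofFinite _
  have hconj : ∀ w ∈ (P : Subgroup G), y * w * y⁻¹ ∈ (P : Subgroup G) := by
    intro w hw
    exact (Subgroup.mem_normalizer_iff.1 hy w).1 hw
  let f : ↥(P : Subgroup G) → ↥(P : Subgroup G) := fun w =>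
    ⟨w * (y * (w : G)⁻¹ * y⁻¹), (P : Subgroup G).mul_mem w.2 (hconj _ ((P : Subgroup G).inv_mem w.2))⟩
  have hcp : Nat.card (P : Subgroup G) = p := h.card_eq
  have hinj : Function.Injective f := by
    intro a b hab
    by_contra hne
    have h1 : (a : G) * (y * (a : G)⁻¹ * y⁻¹) = b * (y * (b : G)⁻¹ * y⁻¹) := congrArg Subtype.val hab
    -- `t = b⁻¹ a` commutes with `y`
    let t : (P : Subgroup G) := b⁻¹ * a
    have ht1 : t ≠ 1 := by
      intro h2
      exact hne (inv_mul_eq_one.1 h2).symm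
    have hcomm : y * (t : G) = t * y := by
      have hm1 := hconj _ ((P : Subgroup G).inv_mem a.2)
      have hm2 := hconj _ ((P : Subgroup G).inv_mem b.2)
      have h2 : y * ((b : G)⁻¹ * a) * y⁻¹ = (b : G)⁻¹ * a := by
        have h3 : (y * (b : G)⁻¹ * y⁻¹) * (y * (a : G) * y⁻¹) = y * ((b : G)⁻¹ * a) * y⁻¹ := by group
        have h4 : (y * (a : G) * y⁻¹) = (y * (a : G)⁻¹ * y⁻¹)⁻¹ := by group
        rw [← h3, h4]
        have h5 : (y * (b : G)⁻¹ * y⁻¹) = (b : G)⁻¹ * a * (y * (a : G)⁻¹ * y⁻¹) := by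
          have : (b : G)⁻¹ * ((a : G) * (y * (a : G)⁻¹ * y⁻¹)) = y * (b : G)⁻¹ * y⁻¹ := by
            rw [h1]
            group
          rw [← this]
          group
        rw [h5]
        group
      show y * ((b : G)⁻¹ * a) = (b : G)⁻¹ * a * y
      calc y * ((b : G)⁻¹ * a) = (y * ((b : G)⁻¹ * a) * y⁻¹) * y := by group
        _ = _ := by rw [h2]
    -- hence `y` centralises `P`
    apply hyP
    apply h.centralizer_le
    intro v hv
    have hmem : (⟨v, hv⟩ : (P : Subgroup G)) ∈ Subgroup.zpowers t :=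
      mem_zpowers_of_prime_card hcp ht1
    obtain ⟨k, hk⟩ := Subgroup.mem_zpowers_iff.1 hmem
    have hv' : v = (t : G) ^ k := by
      have := congrArg Subtype.val hk
      simpa using this.symm
    rw [hv']
    exact (Commute.zpow_right (show Commute y (t : G) from hcomm) k).eq
  have hsurj := Finite.injective_iff_surjective.1 hinj
  obtain ⟨w, hw⟩ := hsurj ⟨u, hu⟩
  refine ⟨w, w.2, ?_⟩
  have h2 : (w : G) * (y * (w : G)⁻¹ * y⁻¹) = u := congrArg Subtype.val hw
  rw [← h2]
  group

variable [Fintype (Nm P)] [Fintype (P : Subgroup G)]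

/-- characters without principal constituent on `P` vanish on `N(P) \ P` -/
lemma Setup.vanish (h : Setup P) {Y : G → ℂ} (hY : IsCharacter G Y) (h0 : classInner (X0 P) Y = 0) {y : G}
    (hy : y ∈ Nm P) (hyP : y ∉ (P : Subgroup G)) : Y y = 0 := by
  classical
  haveI : Fintype (IrrCharacter G) := Fintype.ofFinite _
  have hcl := isClassFunction_of_isCharacter hY
  haveI : Fintype (IrrCharacter (Nm P)) := Fintype.ofFinite _
  let K := (P : Subgroup G).subgroupOf (Nm P)
  haveI hKn : K.Normal := inferInstance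
  haveI : Fintype K := Fintype.ofFinite _
  have hres := isCharacter_restrict (Nm P) hY
  have hav := Cfsg.Agent.H23.isCharacter_nAvg K hres
  let e : K ≃ (P : Subgroup G) := (Subgroup.subgroupOfEquivOfLe Subgroup.le_normalizer).toEquiv
  have hKsum : ∀ w : Nm P, ∑ n : K, Y (((n * (w : Nm P) : Nm P)) : G) = ∑ x : (P : Subgroup G), Y (x * (w : G)) := by
    intro w
    refine Fintype.sum_equiv e _ _ fun n => ?_
    rfl
  have h1 : Cfsg.Agent.H23.nAvg K (fun x : Nm P => Y x) 1 = 0 := by
    unfold Cfsg.Agent.H23.nAvg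
    rw [hKsum 1]
    have h2 := inner_X0 (P := P) Y hcl
    rw [show indFun (P : Subgroup G) (fun _ => (1 : ℂ)) = X0 P from rfl, h0, h.card_eq] at h2
    have hp0 : (p : ℂ) ≠ 0 := by exact_mod_cast hp.out.ne_zero
    have h3 : ∑ x : (P : Subgroup G), conj (Y x) = 0 := by
      have := h2.symm
      simpa [hp0] using this
    have h4 : ∑ x : (P : Subgroup G), Y (x * ((1 : Nm P) : G)) = 0 := by
      have h5 := congrArg conj h3
      simpa using h5
    rw [h4, mul_zero]
  have hz := Cfsg.Agent.H10.isCharacter_eq_zero_of_one hav h1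
  have h2 := congrFun hz ⟨y, hy⟩
  unfold Cfsg.Agent.H23.nAvg at h2
  rw [hKsum ⟨y, hy⟩] at h2
  have h3 : ∀ x : (P : Subgroup G), Y (x * y) = Y y := by
    intro x
    obtain ⟨w, hw, hwe⟩ := h.coset_conj hy hyP x.2
    rw [hwe]
    have := hcl y w
    rw [← this]
  simp only [h3, Finset.sum_const, Finset.card_univ, nsmul_eq_mul] at h2
  have hK0 : (Nat.card K : ℂ) ≠ 0 := by exact_mod_cast Nat.card_pos.ne'
  have hP0 : (Fintype.card (P : Subgroup G) : ℂ) ≠ 0 := by exact_mod_cast Fintype.card_ne_zero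
  have h4 : (Nat.card K : ℂ)⁻¹ * ((Fintype.card (P : Subgroup G) : ℂ) * Y y) = 0 := h2
  simpa [hK0, hP0] using h4

lemma Setup.not_dvd_Kq (h : Setup P) : ¬ p ∣ Nat.card (Kq P) := by
  intro hd
  apply P.not_dvd_index
  have h1 : ((P : Subgroup G).subgroupOf (Nm P)).index = Nat.card (Kq P) := Subgroup.index_eq_card _
  have h2 := Subgroup.relIndex_mul_index (H := (P : Subgroup G)) (K := Nm P) Subgroup.le_normalizer
  rw [Subgroup.relIndex, h1] at h2
  rw [← h2]
  exact Dvd.dvd.mul_right hd _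

/-- primes dividing `|N(P) : P|` divide the degree -/
lemma Setup.dvd_degree (h : Setup P) {Y : G → ℂ} (hY : IsCharacter G Y) (h0 : classInner (X0 P) Y = 0) {q : ℕ}
    (hq : q.Prime) (hqe : q ∣ Nat.card (Kq P)) : q ∣ charDegree Y := by
  classical
  haveI : Fact q.Prime := ⟨hq⟩
  have hqp : q ≠ p := by
    rintro rfl
    exact h.not_dvd_Kq hqe
  have hqN : q ∣ Nat.card (Nm P) := by
    rw [card_Nm_eq h]
    exact Dvd.dvd.mul_right hqe _
  obtain ⟨n, hn⟩ := exists_prime_orderOf_dvd_card' (G := Nm P) q hqN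
  have hn' : orderOf (n : G) = q := by
    rw [← hn]
    exact Subgroup.orderOf_coe n
  let C := Subgroup.zpowers (n : G)
  haveI : Fintype C := Fintype.ofFinite _
  have hcard : Nat.card C = q := by
    rw [Nat.card_zpowers, hn']
  have hval : ∀ c : C, c ≠ 1 → Y c = 0 := by
    intro c hc
    obtain ⟨k, hk⟩ := Subgroup.mem_zpowers_iff.1 c.2
    have hcN : (c : G) ∈ Nm P := by
      rw [← hk]
      exact Subgroup.zpow_mem _ n.2 _
    refine h.vanish hY h0 hcN ?_
    intro hcP
    have h1 : (c : G) ^ q = 1 := by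
      have h2 : c ^ Nat.card C = 1 := pow_card_eq_one'
      rw [hcard] at h2
      have := congrArg Subtype.val h2
      simpa using this
    have h2 := h.pow_eq hcP
    have hcop : Nat.Coprime q p := (Nat.coprime_primes hq hp.out).2 hqp
    have h3 : (c : G) = 1 := by
      have := (pow_gcd_eq_one (a := (c : G)) (m := q) (n := p)).2 ⟨h1, h2⟩
      rwa [hcop.gcd_eq_one, pow_one] at this
    exact hc (Subtype.ext h3)
  have hres := isCharacter_restrict C hY
  obtain ⟨m, hm⟩ := classInner_isCharacter_nat hres (isCharacter_one (G := C))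
  have h1 : classInner (fun x : C => Y x) (fun _ => (1 : ℂ)) = (q : ℂ)⁻¹ * Y 1 := by
    unfold classInner
    rw [hcard, ← Finset.add_sum_erase _ _ (Finset.mem_univ (1 : C))]
    congr 1
    have h2 : ∀ c ∈ (Finset.univ : Finset C).erase 1, Y c * conj (1 : ℂ) = 0 := by
      intro c hc
      rw [hval c (Finset.mem_erase.1 hc).1, zero_mul]
    rw [Finset.sum_eq_zero h2]
    simp
  rw [h1, one_eq_charDegree hY] at hm
  have hq0 : (q : ℂ) ≠ 0 := by exact_mod_cast hq.ne_zero
  have h2 : (charDegree Y : ℂ) = ((q * m : ℕ) : ℂ) := by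
    push_cast
    rw [← hm]
    field_simp
  have h3 : charDegree Y = q * m := by exact_mod_cast h2
  exact ⟨m, h3⟩

omit [Fintype (Nm P)] [Fintype (P : Subgroup G)] in
/-- only the principal character is linear -/
lemma Setup.linear_eq_one (h : Setup P) (ψ : IrrCharacter G) (hψ : charDegree (ψ : G → ℂ) = 1) :
    ψ = Cfsg.Agent.H03.PC.oneI G := by
  have hc := isCharacter_of_irr ψ.2
  have hmul := linear_mul hc hψ
  have hone := linear_one hc hψ
  have hnz : ∀ g, (ψ : G → ℂ) g * (ψ : G → ℂ) g⁻¹ = 1 := by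
    intro g
    rw [← hmul, mul_inv_cancel, hone]
  let K : Subgroup G :=
    { carrier := {g | (ψ : G → ℂ) g = 1}
      mul_mem' := by
        intro a b ha hb
        simp only [Set.mem_setOf_eq] at ha hb ⊢
        rw [hmul, ha, hb, one_mul]
      one_mem' := hone
      inv_mem' := by
        intro a ha
        simp only [Set.mem_setOf_eq] at ha ⊢
        have := hnz a
        rwa [ha, one_mul] at this }
  have hKn : K.Normal := by
    refine ⟨fun n hn g => ?_⟩
    have hn' : (ψ : G → ℂ) n = 1 := hn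
    show (ψ : G → ℂ) (g * n * g⁻¹) = 1
    rw [hmul, hmul, hn', mul_one, hnz]
  rcases h.simple K hKn with h0 | h0
  · exfalso
    have hinj : ∀ x y : G, (ψ : G → ℂ) x = (ψ : G → ℂ) y → x = y := by
      intro x y hxy
      have h1 : x * y⁻¹ ∈ K := by
        show (ψ : G → ℂ) (x * y⁻¹) = 1
        rw [hmul, hxy, hnz]
      rw [h0, Subgroup.mem_bot] at h1
      exact mul_inv_eq_one.1 h1
    have hcomm : ∀ x y : G, x * y = y * x := by
      intro x y
      apply hinj
      rw [hmul, hmul, mul_comm]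
    have hPn : (P : Subgroup G).Normal := by
      refine ⟨fun n hn g => ?_⟩
      rw [hcomm g n, mul_assoc, mul_inv_cancel, mul_one]
      exact hn
    rcases h.simple _ hPn with h1 | h1
    · exact h.bot_ne h1
    · exact h.top_ne h1
  · apply Subtype.ext
    funext g
    have : g ∈ K := by
      rw [h0]
      exact Subgroup.mem_top g
    exact this

omit [Fintype (Nm P)] [Fintype (P : Subgroup G)] in
lemma Setup.Kq_ge (h : Setup P) : 2 ≤ Nat.card (Kq P) := by
  have h1 : Nat.card (Kq P) ≠ 1 := by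
    intro h2
    have h3 : ((P : Subgroup G).subgroupOf (Nm P)).index = 1 := by
      rw [Subgroup.index_eq_card, h2]
    rw [Subgroup.index_eq_one, Subgroup.subgroupOf_eq_top] at h3
    exact h.normalizer_ne h3
  have h2 : Nat.card (Kq P) ≠ 0 := Nat.card_pos.ne'
  omega

/-- The final contradiction -/
theorem Setup.false_of_degrees (h : Setup P) [Fintype (IrrCharacter G)]
    (hdeg : ∀ ψ : IrrCharacter G, charDegree (ψ : G → ℂ) = 1 ∨ (charDegree (ψ : G → ℂ)).Prime)
    (hle : ∀ ψ : IrrCharacter G, charDegree (ψ : G → ℂ) ≤ p) (r : ℕ) (hr1 : 1 ≤ r)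
    (hr : classInner (indFun (Nm P) (fun _ => (1 : ℂ))) (indFun (Nm P) (fun _ => (1 : ℂ))) = r)
    (hidx : (Nm P).index = 1 + p * (r - 1)) : False := by
  classical
  obtain ⟨Δ, T, hΔ, hT, hd⟩ := h.exists_Δ (fun ψ => h.m1_le hle r hr1 hr hidx ψ)
  have he := h.Kq_ge
  set e := Nat.card (Kq P) with hedef
  have hpos : ∀ ψ : IrrCharacter G, 1 ≤ charDegree (ψ : G → ℂ) := by
    intro ψ
    rcases hdeg ψ with h1 | h1
    · omega
    · exact h1.one_lt.le
  have hge2 : ∀ ψ ∈ T.erase (Cfsg.Agent.H03.PC.oneI G), 2 ≤ charDegree (ψ : G → ℂ) := by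
    intro ψ hψ
    rcases hdeg ψ with h1 | h1
    · exact absurd (h.linear_eq_one ψ h1) (Finset.mem_erase.1 hψ).1
    · exact h1.two_le
  have hsum : 2 * e - 1 ≤ ∑ i ∈ T, charDegree (i : G → ℂ) := by
    by_cases hone : Cfsg.Agent.H03.PC.oneI G ∈ T
    · rw [← Finset.add_sum_erase _ _ hone]
      have h1 : ((T.erase (Cfsg.Agent.H03.PC.oneI G)).card) • 2 ≤ ∑ i ∈ T.erase (Cfsg.Agent.H03.PC.oneI G), charDegree (i : G → ℂ) :=
        Finset.card_nsmul_le_sum _ _ _ hge2
      rw [Finset.card_erase_of_mem hone, hT, smul_eq_mul] at h1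
      have h2 := hpos (Cfsg.Agent.H03.PC.oneI G)
      omega
    · have h1 : (T.card) • 2 ≤ ∑ i ∈ T, charDegree (i : G → ℂ) := by
        refine Finset.card_nsmul_le_sum _ _ _ fun ψ hψ => hge2 ψ (Finset.mem_erase.2 ⟨?_, hψ⟩)
        rintro rfl
        exact hone hψ
      rw [hT, smul_eq_mul] at h1
      omega
  have hqp := Nat.exists_prime_and_dvd (n := e) (by omega)
  obtain ⟨q, hq, hqe⟩ := hqp
  have hdq := h.dvd_degree (isCharacter_of_irr Δ.2) hΔ hq hqe
  have hqle : q ≤ e := Nat.le_of_dvd (by omega) hqe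
  rcases hdeg Δ with h1 | h1
  · omega
  · have h2 : q = charDegree (Δ : G → ℂ) := (Nat.prime_dvd_prime_iff_eq hq h1).1 hdq
    omega

end Gm

end Cfsg.Agent.H17.PD
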