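import Mathlib
import Cfsg.Agent.Lib.H17.Pd6
import Cfsg.Agent.Lib.H22.NormalAb
import Cfsg.Agent.Lib.H04.Cliff.Perm
import Cfsg.Agent.S4464

/-! A simple group with all irreducible degrees `1` or prime is abelian. -/

set_option autoImplicit false
set_option linter.style.longLine false
set_option linter.unusedSectionVars false
set_option linter.unusedVariables false

namespace Cfsg.Agent.H17.PD

open Cfsg Cfsg.Agent.H21 Cfsg.Agent.H03.PC MulAction
open scoped ComplexConjugate

section Syl

variable {G : Type*} [Group G] [Fintype G] {p : ℕ} [hp : Fact p.Prime]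

lemma pOrbit_ge (P Q : Sylow p G) (hQ : Q ≠ P) : p ≤ Nat.card (orbit (P : Subgroup G) Q) := by
  classical
  obtain ⟨n, hn⟩ := IsPGroup.card_orbit P.isPGroup' Q
  rw [hn]
  rcases n with _ | n
  · exfalso
    rw [pow_zero] at hn
    have hfix : Q ∈ fixedPoints (P : Subgroup G) (Sylow p G) := by
      intro s
      have hm : s • Q ∈ orbit (P : Subgroup G) Q := mem_orbit _ _
      have hm0 : Q ∈ orbit (P : Subgroup G) Q := mem_orbit_self _
      have := (Nat.card_eq_one_iff_unique.1 hn).1
      exact congrArg Subtype.val (this.elim ⟨_, hm⟩ ⟨_, hm0⟩)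
    have hle' := (IsPGroup.sylow_mem_fixedPoints_iff P.isPGroup').1 hfix
    have h2 : (Q : Subgroup G) = P := P.is_maximal' Q.isPGroup' hle'
    exact hQ (Sylow.ext h2)
  · calc p = p ^ 1 := (pow_one p).symm
      _ ≤ p ^ (n + 1) := Nat.pow_le_pow_right hp.out.pos (by omega)

lemma orbit_P_sub (P Q : Sylow p G) :
    orbit (P : Subgroup G) Q ⊆ orbit (stabilizer G P) Q := by
  have hPstab : ∀ g : G, g ∈ (P : Subgroup G) → g ∈ stabilizer G P := by
    intro g hg
    rw [mem_stabilizer_iff, Sylow.smul_eq_iff_mem_normalizer]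
    exact Subgroup.le_normalizer hg
  rintro _ ⟨s, rfl⟩
  exact ⟨⟨s.1, hPstab _ s.2⟩, rfl⟩

/-- the permutation character on the Sylow subgroups is induced from the normaliser -/
lemma ind_norm_eq (P : Sylow p G) :
    indFun (Nm P) (fun _ => (1 : ℂ)) = (Cfsg.permRep ℂ G (Sylow p G)).character := by
  classical
  letI : Fintype (Sylow p G) := Fintype.ofFinite _
  funext g
  have hstab : stabilizer G P = Nm P := P.stabilizer_eq_normalizer
  rw [← hstab, Cfsg.Agent.H04.Cliff.indFun_one_eq_fix, Cfsg.Agent.H04.Cliff.fix_orbit, perm_char]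
  congr 1
  refine Nat.card_congr
    { toFun := fun x => ⟨x.1, x.2.2⟩
      invFun := fun x => ⟨x.1, ?_, x.2⟩
      left_inv := fun x => rfl
      right_inv := fun x => rfl }
  rw [Sylow.orbit_eq_top]
  trivial

end Syl

theorem no_simple {G : Type*} [Group G] [Fintype G]
    (hs : ∀ N : Subgroup G, N.Normal → N = ⊥ ∨ N = ⊤) (hna : ∃ a b : G, a * b ≠ b * a)
    (hdeg : ∀ ψ : IrrCharacter G, charDegree (ψ : G → ℂ) = 1 ∨ (charDegree (ψ : G → ℂ)).Prime) : False := by
  classical
  letI : Fintype (IrrCharacter G) := Fintype.ofFinite _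
  obtain ⟨ψ₀, -, hψ₀⟩ := Finset.exists_max_image (Finset.univ : Finset (IrrCharacter G))
    (fun ψ => charDegree (ψ : G → ℂ)) ⟨oneI G, Finset.mem_univ _⟩
  have hpp : (charDegree (ψ₀ : G → ℂ)).Prime := by
    rcases hdeg ψ₀ with h1 | h1
    · exfalso
      obtain ⟨a, b, hab⟩ := hna
      apply hab
      apply Cfsg.Agent.H22.comm_of_degrees_one
      intro χ
      have h2 := hψ₀ χ (Finset.mem_univ _)
      rcases hdeg χ with h3 | h3
      · exact h3
      · have := h3.two_le
        omega
    · exact h1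
  set p := charDegree (ψ₀ : G → ℂ) with hpdef
  haveI hp : Fact p.Prime := ⟨hpp⟩
  have hleD : ∀ ψ : IrrCharacter G, charDegree (ψ : G → ℂ) ≤ p := fun ψ => hψ₀ ψ (Finset.mem_univ _)
  have hdvd : p ∣ Nat.card G := Cfsg.Agent.H22.charDegree_dvd_card ψ₀
  let P : Sylow p G := default
  letI : Fintype (Sylow p G) := Fintype.ofFinite _
  letI : Fintype (orbitRel.Quotient (stabilizer G P) (Sylow p G)) := Fintype.ofFinite _
  haveI : Nonempty (Sylow p G) := ⟨P⟩
  set Ω := Sylow p G with hΩ
  set ρ := Cfsg.permRep ℂ G Ω with hρ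
  obtain ⟨m, hm⟩ := exists_mult (G := G) (Ω := Ω)
  obtain ⟨hn1, hn2⟩ := norm_and_degree ρ m hm
  have hone : m (oneI G) = 1 := by
    have := hm (oneI G)
    rw [inner_perm_one] at this
    exact_mod_cast this.symm
  set W := orbitRel.Quotient (stabilizer G P) Ω with hW
  have hrank := inner_self_eq_rank (G := G) (Ω := Ω) P
  have hr : Fintype.card W = ∑ ψ, (m ψ) ^ 2 := by
    have h1 := hrank
    rw [← hρ, hn1, Nat.card_eq_fintype_card] at h1
    exact_mod_cast h1.symm
  let I' := (Finset.univ : Finset (IrrCharacter G)).erase (oneI G)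
  have hr2 : Fintype.card W = 1 + ∑ ψ ∈ I', (m ψ) ^ 2 := by
    rw [hr, ← Finset.add_sum_erase _ _ (Finset.mem_univ (oneI G)), hone]
    simp [I']
  have hdeg2 : ∀ ψ : IrrCharacter G, (m ψ : ℂ) * (ψ : G → ℂ) 1 = ((m ψ * charDegree (ψ : G → ℂ) : ℕ) : ℂ) := by
    intro ψ
    rw [one_eq_charDegree (isCharacter_of_irr ψ.2)]
    push_cast
    ring
  have hcard : Fintype.card Ω = 1 + ∑ ψ ∈ I', m ψ * charDegree (ψ : G → ℂ) := by
    have h1 : (Fintype.card Ω : ℂ) = ((1 + ∑ ψ ∈ I', m ψ * charDegree (ψ : G → ℂ) : ℕ) : ℂ) := by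
      rw [hn2, ← Finset.add_sum_erase _ _ (Finset.mem_univ (oneI G)), hone]
      have h3 : ((oneI G : IrrCharacter G) : G → ℂ) 1 = 1 := rfl
      rw [h3]
      push_cast
      congr 1
      · simp
      · refine Finset.sum_congr rfl fun ψ _ => ?_
        rw [hdeg2 ψ]
        push_cast
        ring
    exact_mod_cast h1
  have hle : ∑ ψ ∈ I', m ψ * charDegree (ψ : G → ℂ) ≤ p * ∑ ψ ∈ I', (m ψ) ^ 2 := by
    rw [Finset.mul_sum]
    refine Finset.sum_le_sum fun ψ _ => ?_
    have h2 : m ψ ≤ (m ψ) ^ 2 := Nat.le_self_pow (by norm_num) _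
    calc m ψ * charDegree (ψ : G → ℂ) ≤ (m ψ) ^ 2 * p := Nat.mul_le_mul h2 (hleD ψ)
      _ = p * (m ψ) ^ 2 := by ring
  set ω₀ : W := Quotient.mk'' P with hω₀
  have hsum := suborbit_sum (G := G) P
  rw [← Finset.add_sum_erase _ _ (Finset.mem_univ ω₀), orbit_self_card] at hsum
  have hterm : ∀ ω ∈ (Finset.univ : Finset W).erase ω₀, p ≤ Nat.card ω.orbit := by
    intro ω hω
    obtain ⟨b, rfl⟩ := Quotient.exists_rep ω
    have hb0 : b ≠ P := by
      rintro rfl
      exact (Finset.mem_erase.1 hω).1 rfl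
    have := Cfsg.Agent.S4464.suborbit_ge p P b hb0
    simpa [orbitRel.Quotient.orbit_mk] using this
  have hcardE : ((Finset.univ : Finset W).erase ω₀).card = Fintype.card W - 1 := by
    rw [Finset.card_erase_of_mem (Finset.mem_univ _), Finset.card_univ]
  have hge : p * (Fintype.card W - 1) ≤ ∑ ω ∈ (Finset.univ : Finset W).erase ω₀, Nat.card ω.orbit := by
    rw [← hcardE, mul_comm, ← smul_eq_mul]
    exact Finset.card_nsmul_le_sum _ (fun ω : W => Nat.card ω.orbit) p hterm
  have hw : Fintype.card W - 1 = ∑ ψ ∈ I', (m ψ) ^ 2 := by omega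
  have hsumeq : ∑ ω ∈ (Finset.univ : Finset W).erase ω₀, Nat.card ω.orbit = p * (Fintype.card W - 1) := by
    rw [hw] at hge ⊢
    have h4 : 1 + ∑ ω ∈ (Finset.univ : Finset W).erase ω₀, Nat.card ω.orbit = 1 + ∑ ψ ∈ I', m ψ * charDegree (ψ : G → ℂ) := by
      rw [← hcard]
      exact hsum.symm
    omega
  have heach : ∀ ω ∈ (Finset.univ : Finset W).erase ω₀, Nat.card ω.orbit = p := by
    have h5 : ∑ _ω ∈ (Finset.univ : Finset W).erase ω₀, p = ∑ ω ∈ (Finset.univ : Finset W).erase ω₀, Nat.card ω.orbit := by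
      rw [hsumeq, Finset.sum_const, hcardE, smul_eq_mul, mul_comm]
    intro ω hω
    exact ((Finset.sum_eq_sum_iff_of_le hterm).1 h5 ω hω).symm
  have hsub : ∀ Q : Sylow p G, Q ≠ P → Nat.card (orbit (stabilizer G P) Q) = p := by
    intro Q hQ
    have h6 := heach (Quotient.mk'' Q) (Finset.mem_erase.2 ⟨?_, Finset.mem_univ _⟩)
    · simpa [orbitRel.Quotient.orbit_mk] using h6
    · intro h7
      apply hQ
      have h8 := Quotient.exact' h7
      have h9 : Q ∈ orbit (stabilizer G P) P := orbitRel_apply.1 h8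
      obtain ⟨s, hs'⟩ := h9
      rw [← hs']
      exact s.2
  have horb : ∀ Q : Sylow p G, Q ≠ P → Nat.card (orbit (P : Subgroup G) Q) = p := by
    intro Q hQ
    apply le_antisymm
    · exact (Nat.card_mono (Set.toFinite _) (orbit_P_sub P Q)).trans (hsub Q hQ).le
    · exact pOrbit_ge P Q hQ
  have hSetup : PD.Setup P := by
    refine ⟨hs, ?_, P.ne_bot_of_dvd_card hdvd, horb, ?_⟩
    · intro htop
      obtain ⟨a, b, hab⟩ := hna
      have hPG : IsPGroup p G := by
        have h1 := P.isPGroup'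
        intro g
        obtain ⟨k, hk⟩ := h1 ⟨g, by rw [htop]; exact Subgroup.mem_top g⟩
        refine ⟨k, ?_⟩
        have := congrArg Subtype.val hk
        simpa using this
      haveI : Nontrivial G := ⟨⟨a * b, b * a, hab⟩⟩
      haveI := hPG.center_nontrivial
      rcases hs (Subgroup.center G) inferInstance with h1 | h1
      · rw [h1] at this
        exact not_subsingleton_iff_nontrivial.2 this (inferInstance)
      · apply hab
        have : b ∈ Subgroup.center G := by
          rw [h1]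
          exact Subgroup.mem_top b
        exact (Subgroup.mem_center_iff.1 this a)
    · intro Q hQ g hg
      have h1 : g • Q ∈ orbit (stabilizer G P) Q := by
        have hg' : g ∈ stabilizer G P := by
          rw [P.stabilizer_eq_normalizer]
          exact hg
        exact ⟨⟨g, hg'⟩, rfl⟩
      have h2 : orbit (P : Subgroup G) Q = orbit (stabilizer G P) Q := by
        refine Set.eq_of_subset_of_ncard_le (orbit_P_sub P Q) ?_ (Set.toFinite _)
        rw [← Nat.card_coe_set_eq, ← Nat.card_coe_set_eq, hsub Q hQ, horb Q hQ]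
      rw [← h2] at h1
      obtain ⟨u, hu⟩ := h1
      exact ⟨u, u.2, hu.symm⟩
  letI : Fintype (Nm P) := Fintype.ofFinite _
  letI : Fintype (P : Subgroup G) := Fintype.ofFinite _
  refine hSetup.false_of_degrees hdeg hleD (Fintype.card W) (by omega) ?_ ?_
  · rw [ind_norm_eq P, ← hρ, hrank, Nat.card_eq_fintype_card]
  · have h1 : Nat.card Ω = (Nm P).index := P.card_eq_index_normalizer
    rw [← h1, Nat.card_eq_fintype_card, hsum, hsumeq]

end Cfsg.Agent.H17.PD
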