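import Cfsg.Agent.Lib.H06.CharVirtual
import Cfsg.Agent.Lib.H06.Brauer1

/-!
# Exceptional characters of an abelian T.I. subgroup with Frobenius normalizer
-/

set_option autoImplicit false
set_option linter.style.longLine false

namespace Cfsg.Agent.H17.TIF

open Cfsg Cfsg.Agent.H21 Cfsg.Agent.H06
open scoped ComplexConjugate

universe u

section Frob

variable {N : Type u} [Group N] [Fintype N] (A : Subgroup N) [hA : A.Normal] [Fintype A]

theorem stab_le (hcomm : ∀ a ∈ A, ∀ b ∈ A, a * b = b * a)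
    (hfree : ∀ a ∈ A, a ≠ 1 → ∀ t : N, t * a = a * t → t ∈ A) {θ : A → ℂ}
    (hθ : IsIrrCharacter A θ) (hne : θ ≠ fun _ => 1) (x : N) (hx : twist A θ x = θ) : x ∈ A := by
  classical
  by_contra hxA
  apply hne
  have hdeg : charDegree θ = 1 :=
    irr_degree_one_of_comm (fun a b => Subtype.ext (hcomm a a.2 b b.2)) hθ
  have hchar := isCharacter_of_irr hθ
  let u : A → A := fun a => ⟨x * a * x⁻¹, hA.conj_mem a a.2 x⟩
  let c : A → A := fun a => u a * a⁻¹
  have hinj : Function.Injective c := by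
    intro a b hab
    have h1 : x * a * x⁻¹ * (a : N)⁻¹ = x * b * x⁻¹ * (b : N)⁻¹ := by
      have := congrArg Subtype.val hab
      simpa [c, u] using this
    by_contra hne'
    have hd : (b : N)⁻¹ * a ≠ 1 := by
      intro h
      apply hne'
      apply Subtype.ext
      have := inv_mul_eq_one.mp h
      exact this.symm
    have hdA : (b : N)⁻¹ * a ∈ A := A.mul_mem (A.inv_mem b.2) a.2
    apply hxA
    apply hfree _ hdA hd x
    have hc : (a : N) * (b : N)⁻¹ = (b : N)⁻¹ * a := hcomm _ a.2 _ (A.inv_mem b.2)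
    have h2 : x * a * x⁻¹ = x * b * x⁻¹ * (b : N)⁻¹ * a := by
      rw [← h1]; group
    have h3 : x * (b : N)⁻¹ * a * x⁻¹ = (b : N)⁻¹ * a := by
      have h4 : x * (a : N) * x⁻¹ = x * b * x⁻¹ * ((b : N)⁻¹ * a) := by
        rw [h2]; group
      have h5 : x * ((b : N)⁻¹ * a) * x⁻¹ = (x * (b : N)⁻¹ * x⁻¹) * (x * a * x⁻¹) := by group
      calc x * (b : N)⁻¹ * a * x⁻¹ = x * ((b : N)⁻¹ * a) * x⁻¹ := by group
        _ = (x * (b : N)⁻¹ * x⁻¹) * (x * a * x⁻¹) := h5
        _ = (x * (b : N)⁻¹ * x⁻¹) * (x * b * x⁻¹ * ((b : N)⁻¹ * a)) := by rw [h4]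
        _ = (b : N)⁻¹ * a := by group
    calc x * ((b : N)⁻¹ * a) = (x * (b : N)⁻¹ * a * x⁻¹) * x := by group
      _ = (b : N)⁻¹ * a * x := by rw [h3]
  have hsurj : Function.Surjective c := Finite.surjective_of_injective hinj
  have hu : ∀ a : A, θ (u a) = θ a := fun a => by
    have := congrFun hx a
    simpa [twist, u] using this
  have hval : ∀ a : A, θ (c a) = 1 := by
    intro a
    show θ (u a * a⁻¹) = 1
    rw [linear_mul hchar hdeg, hu, ← linear_mul hchar hdeg, mul_inv_cancel, linear_one hchar hdeg]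
  funext a
  obtain ⟨b, rfl⟩ := hsurj a
  exact hval b

theorem relevant_eq_ind (hcomm : ∀ a ∈ A, ∀ b ∈ A, a * b = b * a)
    (hfree : ∀ a ∈ A, a ≠ 1 → ∀ t : N, t * a = a * t → t ∈ A) {χ : N → ℂ}
    (hχ : IsIrrCharacter N χ) (hk : ∃ n ∈ A, χ n ≠ χ 1) :
    ∃ θ : A → ℂ, IsIrrCharacter A θ ∧ charDegree θ = 1 ∧ χ = indFun A θ := by
  classical
  haveI : Fintype (IrrCharacter N) := Fintype.ofFinite _
  obtain ⟨θ, hθ, hne, hin⟩ := exists_nonprincipal_constituent A (isCharacter_of_irr hχ) hk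
  have hI := isIrr_indFun_of_stabilizer_le A hθ (stab_le A hcomm hfree hθ hne)
  have h1 : classInner (indFun A θ) χ ≠ 0 := by
    rw [frobenius_reciprocity A θ χ (isClassFunction_of_isCharacter (isCharacter_of_irr hχ))]
    intro h
    apply hin
    rw [← classInner_comm_conj, h, map_zero]
  refine ⟨θ, hθ, irr_degree_one_of_comm (fun a b => Subtype.ext (hcomm a a.2 b b.2)) hθ, ?_⟩
  by_contra h
  exact h1 (classInner_irr_ne hI hχ (Ne.symm h))

theorem relevant_one (hcomm : ∀ a ∈ A, ∀ b ∈ A, a * b = b * a)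
    (hfree : ∀ a ∈ A, a ≠ 1 → ∀ t : N, t * a = a * t → t ∈ A) {χ : N → ℂ}
    (hχ : IsIrrCharacter N χ) (hk : ∃ n ∈ A, χ n ≠ χ 1) : χ 1 = A.index := by
  obtain ⟨θ, hθ, hd, rfl⟩ := relevant_eq_ind A hcomm hfree hχ hk
  rw [indFun_one, linear_one (isCharacter_of_irr hθ) hd, mul_one]

theorem relevant_vanish (hcomm : ∀ a ∈ A, ∀ b ∈ A, a * b = b * a)
    (hfree : ∀ a ∈ A, a ≠ 1 → ∀ t : N, t * a = a * t → t ∈ A) {χ : N → ℂ}
    (hχ : IsIrrCharacter N χ) (hk : ∃ n ∈ A, χ n ≠ χ 1) (x : N) (hx : x ∉ A) : χ x = 0 := by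
  obtain ⟨θ, hθ, hd, rfl⟩ := relevant_eq_ind A hcomm hfree hχ hk
  unfold indFun
  rw [Finset.sum_eq_zero, mul_zero]
  intro y _
  apply extendByZero_of_not_mem
  intro h
  apply hx
  have := hA.conj_mem _ h y
  have h2 : y * (y⁻¹ * x * y) * y⁻¹ = x := by group
  rwa [h2] at this

end Frob

section Iso

variable {G : Type u} [Group G] [Fintype G] (N : Subgroup G) [Fintype N]

theorem indFun_eq_of_TI (S : N → Prop) (β : N → ℂ) (hβ : ∀ n, ¬ S n → β n = 0)
    (hβc : IsClassFunction N β)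
    (hTI : ∀ n, S n → ∀ x : G, x ∉ N → ∀ m : N, (m : G) = x⁻¹ * n * x → ¬ S m)
    (n : N) (hn : S n) : indFun N β n = β n := by
  classical
  have h1 : ∀ x : G, extendByZero N β (x⁻¹ * n * x) = if x ∈ N then β n else 0 := by
    intro x
    split_ifs with hx
    · have h2 : x⁻¹ * (n : G) * x = ((⟨x, hx⟩ : N)⁻¹ * n * ⟨x, hx⟩ : N) := by simp
      rw [h2, extendByZero_coe]
      have := hβc n (⟨x, hx⟩ : N)⁻¹
      rw [inv_inv] at this
      exact this
    · by_cases hm : x⁻¹ * (n : G) * x ∈ N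
      · have h3 := extendByZero_coe N β ⟨x⁻¹ * (n : G) * x, hm⟩
        simp only at h3
        rw [h3]
        exact hβ _ (hTI n hn x hx _ rfl)
      · exact extendByZero_of_not_mem N β hm
  unfold indFun
  simp only [h1]
  rw [Finset.sum_ite, Finset.sum_const_zero, add_zero, Finset.sum_const, nsmul_eq_mul]
  have hcard : ((Finset.univ.filter (fun x : G => x ∈ N)).card : ℂ) = (Nat.card N : ℂ) := by
    rw [Nat.card_eq_fintype_card, Fintype.card_subtype]
  rw [hcard, ← mul_assoc, inv_mul_cancel₀, one_mul]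
  exact_mod_cast Nat.card_pos.ne'

theorem inner_ind_ind (S : N → Prop) (α β : N → ℂ) (hα : ∀ n, ¬ S n → α n = 0)
    (hβ : ∀ n, ¬ S n → β n = 0) (hβc : IsClassFunction N β)
    (hTI : ∀ n, S n → ∀ x : G, x ∉ N → ∀ m : N, (m : G) = x⁻¹ * n * x → ¬ S m) :
    classInner (indFun N α) (indFun N β) = classInner α β := by
  classical
  rw [frobenius_reciprocity N α _ (indFun_isClass N β)]
  unfold classInner
  congr 1
  refine Finset.sum_congr rfl fun n _ => ?_
  by_cases hn : S n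
  · show α n * conj (indFun N β n) = _
    rw [indFun_eq_of_TI N S β hβ hβc hTI n hn]
  · rw [hα n hn, zero_mul, zero_mul]

end Iso

section Combi

variable {G : Type u} [Group G] [Fintype G]

theorem diff_form {f : G → ℂ} (hf : IsGeneralizedCharacter G f) (hn : classInner f f = 2)
    (h1 : f 1 = 0) :
    ∃ x y : IrrCharacter G, x ≠ y ∧ f = (x : G → ℂ) - (y : G → ℂ) := by
  obtain ⟨a, b, ha, hb, hab, rfl⟩ := exists_of_norm_two hf hn
  have hpos : ∀ {c : G → ℂ}, IsIrrCharacter G c → (0 : ℝ) < (c 1).re := by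
    intro c hc
    rw [one_eq_charDegree (isCharacter_of_irr hc)]
    have := irr_charDegree_pos hc
    simpa using this
  have hab' : ∀ {c d : G → ℂ}, IsIrrCharacter G c → IsIrrCharacter G d → (c 1 + d 1 ≠ 0) := by
    intro c d hc hd h
    have h2 := congrArg Complex.re h
    have h3 := hpos hc
    have h4 := hpos hd
    simp only [Complex.add_re, Complex.zero_re] at h2
    linarith
  rcases ha with ha | ha <;> rcases hb with hb | hb
  · exact absurd (by simpa using h1) (hab' ha hb)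
  · refine ⟨⟨a, ha⟩, ⟨-b, hb⟩, ?_, ?_⟩
    · intro h
      have h2 : a = -b := congrArg Subtype.val h
      rw [h2, classInner_neg_left', ] at hab
      have := classInner_irr_self hb
      rw [classInner_neg_left', classInner_neg_right', neg_neg] at this
      rw [this] at hab
      simp at hab
    · simp [sub_eq_add_neg]
  · refine ⟨⟨b, hb⟩, ⟨-a, ha⟩, ?_, ?_⟩
    · intro h
      have h2 : b = -a := congrArg Subtype.val h
      rw [h2, classInner_neg_right'] at hab
      have := classInner_irr_self ha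
      rw [classInner_neg_left', classInner_neg_right', neg_neg] at this
      rw [this] at hab
      simp at hab
    · simp [sub_eq_add_neg, add_comm]
  · exfalso
    have h2 := hab' ha hb
    apply h2
    simp only [Pi.add_apply] at h1
    simp only [Pi.neg_apply]
    linear_combination -h1

theorem assemble {R : Type*} (Φ : R → G → ℂ)
    (ha : ∀ χ ξ, χ ≠ ξ → ∃ x y : IrrCharacter G, x ≠ y ∧ Φ χ - Φ ξ = (x : G → ℂ) - (y : G → ℂ))
    (hb : ∀ χ ξ η, χ ≠ ξ → χ ≠ η → ξ ≠ η → classInner (Φ χ - Φ ξ) (Φ χ - Φ η) = 1) :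
    ∃ (ε : ℂ) (f : R → IrrCharacter G), (ε = 1 ∨ ε = -1) ∧ Function.Injective f ∧
      ∀ χ ξ, Φ χ - Φ ξ = ε • ((f χ : G → ℂ) - (f ξ : G → ℂ)) := by
  classical
  let one : IrrCharacter G := ⟨fun _ => 1, isIrrCharacter_one⟩
  by_cases hR : Subsingleton R
  · refine ⟨1, fun _ => one, Or.inl rfl, fun a b _ => Subsingleton.elim a b, fun χ ξ => ?_⟩
    rw [Subsingleton.elim χ ξ]
    simp
  obtain ⟨χ0, χ1, h01⟩ := not_subsingleton_iff_nontrivial.mp hR
  -- reduce to a base point
  suffices hsuff : ∃ (ε : ℂ) (f : R → IrrCharacter G), (ε = 1 ∨ ε = -1) ∧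
      ∀ η, Φ χ0 - Φ η = ε • ((f χ0 : G → ℂ) - (f η : G → ℂ)) by
    obtain ⟨ε, f, hε, hf⟩ := hsuff
    have hall : ∀ χ ξ, Φ χ - Φ ξ = ε • ((f χ : G → ℂ) - (f ξ : G → ℂ)) := by
      intro χ ξ
      have h1 := hf χ
      have h2 := hf ξ
      have h3 : Φ χ - Φ ξ = (Φ χ0 - Φ ξ) - (Φ χ0 - Φ χ) := by abel
      rw [h3, h1, h2, ← smul_sub]
      congr 1
      abel
    refine ⟨ε, f, hε, ?_, hall⟩
    intro χ ξ hfe
    by_contra hne
    obtain ⟨x, y, hxy, he⟩ := ha χ ξ hne
    rw [hall χ ξ, hfe, sub_self, smul_zero] at he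
    apply hxy
    apply Subtype.ext
    exact (sub_eq_zero.mp he.symm)
  have ha' : ∀ η : R, ∃ x y : IrrCharacter G, η ≠ χ0 → x ≠ y ∧ Φ χ0 - Φ η = (x : G → ℂ) - (y : G → ℂ) := by
    intro η
    by_cases hη : η = χ0
    · exact ⟨one, one, fun h => absurd hη h⟩
    · obtain ⟨x, y, h1, h2⟩ := ha χ0 η (Ne.symm hη)
      exact ⟨x, y, fun _ => ⟨h1, h2⟩⟩
  choose x y hxy using ha'
  have key : ∀ η η' : R, η ≠ χ0 → η' ≠ χ0 → η ≠ η' → x η = x η' ∨ y η = y η' := by
    intro η η' h1 h2 h3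
    by_contra hcon
    push Not at hcon
    have h4 := hb χ0 η η' (Ne.symm h1) (Ne.symm h2) h3
    rw [(hxy η h1).2, (hxy η' h2).2, classInner_sub_left', classInner_sub_right',
      classInner_sub_right', classInner_irr, classInner_irr, classInner_irr, classInner_irr,
      if_neg hcon.1, if_neg hcon.2] at h4
    split_ifs at h4 <;> norm_num at h4
  by_cases hcase : ∀ η, η ≠ χ0 → x η = x χ1
  · refine ⟨1, fun η => if η = χ0 then x χ1 else y η, Or.inl rfl, fun η => ?_⟩
    by_cases hη : η = χ0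
    · subst hη
      simp
    · simp only [if_pos, if_neg hη, one_smul]
      rw [(hxy η hη).2, hcase η hη]
  · push Not at hcase
    obtain ⟨η2, h2, h3⟩ := hcase
    have hne1 : χ1 ≠ χ0 := Ne.symm h01
    have hy2 : y η2 = y χ1 := by
      have h4 : η2 ≠ χ1 := by
        rintro rfl
        exact h3 rfl
      exact (key η2 χ1 h2 hne1 h4).resolve_left h3
    have hy : ∀ η, η ≠ χ0 → y η = y χ1 := by
      intro η hη
      by_cases h4 : η = χ1
      · rw [h4]
      by_cases h5 : η = η2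
      · rw [h5, hy2]
      by_contra h6
      have h7 := (key η χ1 hη hne1 h4).resolve_right h6
      have h8 := (key η η2 hη h2 h5).resolve_right (by rw [hy2]; exact h6)
      exact h3 (h8.symm.trans h7)
    refine ⟨-1, fun η => if η = χ0 then y χ1 else x η, Or.inr rfl, fun η => ?_⟩
    by_cases hη : η = χ0
    · subst hη
      simp
    · simp only [if_pos, if_neg hη]
      rw [(hxy η hη).2, hy η hη]
      simp

end Combi

end Cfsg.Agent.H17.TIF
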